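import Cfsg.Agent.H9.Lp4

/-! Class numbers of permutation groups of order prime to `p`: stabilizer chains. -/

set_option autoImplicit false
set_option linter.unusedSectionVars false
open MulAction
open scoped Pointwise

namespace H9.Lq
open H9.Lp
universe u

theorem kk_surj {G H : Type*} [Group G] [Group H] [Finite G] (f : G →* H)
    (hf : Function.Surjective f) : kk H ≤ kk G :=
  Nat.card_le_card_of_surjective _ (ConjClasses.map_surjective hf)

theorem kk_sub {G : Type*} [Group G] [Subsingleton G] : kk G = 1 := by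
  rw [← kk_congr Subgroup.topEquiv, Subsingleton.elim (⊤ : Subgroup G) ⊥, kk_bot]

/-- induction hypothesis -/
def IH (p : ℕ) (B : ℕ → ℕ) (n : ℕ) : Prop :=
  ∀ (G X : Type u) [Group G] [Finite X] (φ : G →* Equiv.Perm X), Function.Injective φ →
    ¬ p ∣ Nat.card G → Nat.card X < n → kk G ≤ B (Nat.card X)

variable {G Y : Type u} [Group G] [Finite G] [MulAction G Y] {n p : ℕ} {B : ℕ → ℕ}

/-- an invariant set as a sub-action -/
def sa {K : Subgroup G} {A : Set Y} (hA : Inv K A) : SubMulAction K Y :=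
  ⟨A, fun c x hx => hA c c.2 x hx⟩

theorem sa_ker {K : Subgroup G} {A : Set Y} (hA : Inv K A) :
    (MulAction.toPermHom K (sa hA)).ker = (K ⊓ fixingSubgroup G A).subgroupOf K := by
  ext g
  simp only [MonoidHom.mem_ker, Subgroup.mem_subgroupOf, Subgroup.mem_inf, g.2, true_and,
    mem_fixingSubgroup_iff]
  constructor
  · intro h y hy
    exact congrArg Subtype.val (Equiv.congr_fun h ⟨y, hy⟩)
  · intro h
    ext ⟨y, hy⟩
    exact h y hy

theorem ndvd_quot (hG : ¬ p ∣ Nat.card G) (K : Subgroup G) (N : Subgroup K) :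
    ¬ p ∣ Nat.card (K ⧸ N) := fun h =>
  hG ((h.trans N.card_quotient_dvd_card).trans K.card_subgroup_dvd_card)

theorem quot_le (ih : IH.{u} p B n) (hG : ¬ p ∣ Nat.card G) {K : Subgroup G} {A : Set Y}
    (hf : A.Finite) (hA : Inv K A) (hn : A.ncard < n) {E : Type*} [Group E] (ψ : K →* E)
    (hs : Function.Surjective ψ) (hk : ∀ g : K, (∀ y ∈ A, (g : G) • y = y) → ψ g = 1) :
    kk E ≤ B A.ncard := by
  have : Finite (sa hA) := hf.to_subtype
  let φ := MulAction.toPermHom K (sa hA)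
  have h1 := ih (K ⧸ φ.ker) (sa hA) (QuotientGroup.kerLift φ) (QuotientGroup.kerLift_injective φ)
    (ndvd_quot hG _ _) hn
  have hle : φ.ker ≤ ψ.ker := fun g hg => by
    rw [sa_ker, Subgroup.mem_subgroupOf] at hg
    exact hk g ((mem_fixingSubgroup_iff G).1 hg.2)
  refine (kk_surj (QuotientGroup.lift φ.ker ψ hle) fun e => ?_).trans h1
  obtain ⟨g, rfl⟩ := hs e
  exact ⟨g, rfl⟩

theorem Inv.normal {K : Subgroup G} {A : Set Y} (hA : Inv K A) :
    ((K ⊓ fixingSubgroup G A).subgroupOf K).Normal := sa_ker hA ▸ inferInstance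

theorem kk_of {K L : Subgroup G} (h : L ≤ K) : kk (L.subgroupOf K) = kk L :=
  kk_congr (Subgroup.subgroupOfEquivOfLe h)

theorem step (ih : IH.{u} p B n) (hG : ¬ p ∣ Nat.card G) {K : Subgroup G} {A : Set Y}
    (hf : A.Finite) (hA : Inv K A) (hn : A.ncard < n) :
    kk K ≤ B A.ncard * kk (K ⊓ fixingSubgroup G A : Subgroup G) := by
  have := Inv.normal hA
  have h2 := Cfsg.Agent.S4201.result ((K ⊓ fixingSubgroup G A).subgroupOf K)
  have h1 := quot_le ih hG hf hA hn (QuotientGroup.mk' ((K ⊓ fixingSubgroup G A).subgroupOf K))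
    (QuotientGroup.mk'_surjective _) fun g hg => (QuotientGroup.eq_one_iff g).2
      ⟨g.2, (mem_fixingSubgroup_iff G).2 hg⟩
  rw [← kk_of inf_le_left, mul_comm]
  exact h2.trans (Nat.mul_le_mul_left _ h1)

theorem step0 (ih : IH.{u} p B n) (hG : ¬ p ∣ Nat.card G) {K : Subgroup G} {A : Set Y}
    (hf : A.Finite) (hA : Inv K A) (hn : A.ncard < n) (hb : K ⊓ fixingSubgroup G A = ⊥) :
    kk K ≤ B A.ncard := by
  have := step ih hG hf hA hn
  rwa [hb, kk_bot, mul_one] at this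

theorem quot2 (ih : IH.{u} p B n) (hG : ¬ p ∣ Nat.card G) {K : Subgroup G} {A A' : Set Y}
    (hf : A.Finite) (hA : Inv K A) (hn : A.ncard < n) (hf' : A'.Finite) (hA' : Inv K A')
    (hn' : A'.ncard < n) {E : Type*} [Group E] (ψ : K →* E) (hs : Function.Surjective ψ)
    (hk : ∀ g : K, (∀ y ∈ A, (g : G) • y = y) → (∀ y ∈ A', (g : G) • y = y) → ψ g = 1) :
    kk E ≤ B A.ncard * B A'.ncard := by
  have := Finite.of_surjective ψ hs
  have := Inv.normal hA
  set N := (K ⊓ fixingSubgroup G A).subgroupOf K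
  have := Subgroup.Normal.map this ψ hs
  have h2 := Cfsg.Agent.S4201.result (N.map ψ)
  have h1 := quot_le ih hG hf hA hn ((QuotientGroup.mk' (N.map ψ)).comp ψ)
    ((QuotientGroup.mk'_surjective _).comp hs) fun g hg => (QuotientGroup.eq_one_iff _).2
      ⟨g, ⟨g.2, (mem_fixingSubgroup_iff G).2 hg⟩, rfl⟩
  have h3 := quot_le ih hG hf' (hA'.mono (inf_le_left (b := fixingSubgroup G A))) hn'
    ((ψ.subgroupMap N).comp (Subgroup.subgroupOfEquivOfLe
      (inf_le_left : K ⊓ fixingSubgroup G A ≤ K)).symm.toMonoidHom)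
    ((ψ.subgroupMap_surjective N).comp (MulEquiv.surjective _)) fun g hg =>
      Subtype.ext (hk ⟨g, g.2.1⟩ ((mem_fixingSubgroup_iff G).1 g.2.2) hg)
  rw [mul_comm]
  exact h2.trans (Nat.mul_le_mul h3 h1)

theorem parts (ih : IH.{u} p B n) (hG : ¬ p ∣ Nat.card G) [Finite Y] {b : ℕ} (hb : b < n)
    (F : Set (Set Y)) : ∀ K : Subgroup G, (∀ A ∈ F, Inv K A ∧ A.ncard = b) →
      kk K ≤ B b ^ F.ncard * kk (K ⊓ fixingSubgroup G (⋃₀ F) : Subgroup G) := by
  induction F, F.toFinite using Set.Finite.induction_on with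
  | empty =>
    intro K _
    have : K ⊓ fixingSubgroup G (⋃₀ (∅ : Set (Set Y))) = K := by
      ext g; simp
    rw [this]; simp
  | @insert A F hA hF ih' =>
    intro K h
    obtain ⟨h1, h2⟩ := h A (Set.mem_insert _ _)
    have s := step ih hG A.toFinite h1 (by omega)
    have t := ih' (K ⊓ fixingSubgroup G A) fun B hB =>
      ⟨(h B (Set.mem_insert_of_mem _ hB)).1.mono inf_le_left, (h B (Set.mem_insert_of_mem _ hB)).2⟩
    have e : K ⊓ fixingSubgroup G A ⊓ fixingSubgroup G (⋃₀ F) =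
        K ⊓ fixingSubgroup G (⋃₀ insert A F) := by
      rw [Set.sUnion_insert, fixingSubgroup_union, inf_assoc]
    rw [e] at t
    rw [Set.ncard_insert_of_notMem hA hF, h2] at *
    exact s.trans ((Nat.mul_le_mul_left _ t).trans (le_of_eq (by ring)))

theorem jlem (ih : IH.{u} p B n) (hG : ¬ p ∣ Nat.card G) {c : ℕ} {J : ℕ → ℕ}
    (h0 : ∀ x ≤ c, B x ≤ J x) (hJ : ∀ a x, 1 ≤ a → 2 * a ≤ x → B a * J (x - a) ≤ J x) (m : ℕ) :
    ∀ (K : Subgroup G) (A : Set Y), A.ncard = m → A.Finite → Inv K A → m < n →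
      K ⊓ fixingSubgroup G A = ⊥ → (∀ R ⊆ A, c < R.ncard → ¬ Jor K A R) → kk K ≤ J m := by
  induction m using Nat.strong_induction_on with
  | _ m ih' =>
  intro K A hm hf hA hn hb hj
  by_cases hmc : m ≤ c
  · exact (hm ▸ step0 ih hG hf hA (hm ▸ hn) hb).trans (h0 m hmc)
  have ht : ¬ Tr K A := fun t => hj A le_rfl (by omega) fun x hx y hy => by
    obtain ⟨g, hg, e⟩ := t x hx y hy
    exact ⟨g, hg, fun z hz hz' => absurd hz hz', e⟩
  obtain ⟨P, p1, p2, p3, p4⟩ := half hf hA ht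
  have pf := hf.subset p1
  have p0 := (Set.ncard_pos pf).2 p3
  have cc := Set.ncard_sdiff_add_ncard_of_subset p1 hf
  have s := step ih hG pf p2 (by omega)
  have t := ih' (A \ P).ncard (by omega) (K ⊓ fixingSubgroup G P) (A \ P) rfl
    (hf.subset Set.sdiff_subset) ((hA.diff p2).mono inf_le_left) (by omega)
    (by rw [inf_assoc, ← fixingSubgroup_union, Set.union_sdiff_cancel p1, hb])
    fun R hR hcR j => hj R (hR.trans Set.sdiff_subset) hcR fun x hx y hy => by
      obtain ⟨g, hg, e1, e2⟩ := j x hx y hy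
      refine ⟨g, hg.1, fun z hz hz' => ?_, e2⟩
      by_cases hp : z ∈ P
      · exact (mem_fixingSubgroup_iff G).1 hg.2 z hp
      · exact e1 z ⟨hz, hp⟩ hz'
  rw [show (A \ P).ncard = m - P.ncard by omega] at t
  exact s.trans ((Nat.mul_le_mul_left _ t).trans (hJ _ _ p0 (by omega)))

theorem orb2 (ih : IH.{u} p B n) (hG : ¬ p ∣ Nat.card G) (h0 : B 0 = 1) (h1 : B 1 = 1)
    (h2 : B 2 = 2) (m : ℕ) : ∀ (K : Subgroup G) (A : Set Y), A.ncard = m → A.Finite → Inv K A →
      m < n → K ⊓ fixingSubgroup G A = ⊥ → (∀ x ∈ A, {z | ∃ g ∈ K, g • x = z}.ncard ≤ 2) →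
      kk K ≤ 2 ^ (m / 2) := by
  induction m using Nat.strong_induction_on with
  | _ m ih' =>
  intro K A hm hf hA hn hb ho
  rcases A.eq_empty_or_nonempty with rfl | ⟨x, hx⟩
  · have := step0 ih hG hf hA (hm ▸ hn) hb
    rw [Set.ncard_empty, h0] at this
    exact this.trans Nat.one_le_two_pow
  set P : Set Y := {z | ∃ g ∈ K, g • x = z}
  have p1 : P ⊆ A := by rintro _ ⟨g, hg, rfl⟩; exact hA g hg x hx
  have p2 : Inv K P := by
    rintro g hg _ ⟨g', hg', rfl⟩; exact ⟨g * g', K.mul_mem hg hg', mul_smul _ _ _⟩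
  have pf := hf.subset p1
  have p0 := (Set.ncard_pos pf).2 ⟨x, 1, K.one_mem, one_smul _ _⟩
  have p3 : P.ncard ≤ 2 := ho x hx
  have cc := Set.ncard_sdiff_add_ncard_of_subset p1 hf
  have s := step ih hG pf p2 (by omega)
  have t := ih' (A \ P).ncard (by omega) (K ⊓ fixingSubgroup G P) (A \ P) rfl
    (hf.subset Set.sdiff_subset) ((hA.diff p2).mono inf_le_left) (by omega)
    (by rw [inf_assoc, ← fixingSubgroup_union, Set.union_sdiff_cancel p1, hb])
    fun y hy => by
      refine le_trans (Set.ncard_le_ncard ?_ (hf.subset ?_)) (ho y hy.1)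
      · exact fun z ⟨g, hg, e⟩ => ⟨g, hg.1, e⟩
      · rintro _ ⟨g, hg, rfl⟩; exact hA g hg y hy.1
  refine s.trans ((Nat.mul_le_mul_left _ t).trans ?_)
  rcases (by omega : P.ncard = 1 ∨ P.ncard = 2) with e | e
  · rw [e, h1, one_mul]; exact Nat.pow_le_pow_right two_pos (by omega)
  · rw [e, h2, ← pow_succ']; exact Nat.pow_le_pow_right two_pos (by omega)

end H9.Lq
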