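import Cfsg.Agent.H9.Lq9

/-! The main induction. -/

set_option autoImplicit false
set_option linter.unusedSectionVars false
open MulAction
open scoped Pointwise Nat

namespace H9.Lq
open H9.Lp
universe u

/-- maximum of `f` below `n` -/
def mx (f : ℕ → ℕ) : ℕ → ℕ
  | 0 => 0
  | n + 1 => max (mx f n) (f n)

theorem le_mx (f : ℕ → ℕ) {i n : ℕ} (h : i < n) : f i ≤ mx f n := by
  induction n with
  | zero => omega
  | succ n ih =>
    rcases Nat.lt_succ_iff_lt_or_eq.1 h with e | rfl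
    exacts [(ih e).trans (le_max_left _ _), le_max_right _ _]

/-- maximum over all designs -/
def dm (f : ℕ → ℕ → ℕ) (y : ℕ) : ℕ :=
  mx (fun j => if y % (j + 2) = 0 ∧ j + 3 ≤ y / (j + 2) then f j (y / (j + 2) - 1) else 0) y

theorem le_dm (f : ℕ → ℕ → ℕ) {j w : ℕ} (h : j + 2 ≤ w) : f j w ≤ dm f ((w + 1) * (j + 2)) := by
  refine le_trans (le_of_eq ?_) (le_mx _ (i := j) (by nlinarith))
  rw [Nat.mul_div_cancel _ (by omega), if_pos ⟨Nat.mul_mod_left _ _, by omega⟩, Nat.add_sub_cancel]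

/-- end values -/
def EE (B J : ℕ → ℕ) (c y : ℕ) : ℕ :=
  max (c * J (c * (y - 1)) + ns J c y) (dm (fun j w => c * dl B c j w + ds B c j w) y)

/-- end values -/
def EE0 (B J : ℕ → ℕ) (c y : ℕ) : ℕ := max (ns J c y) (dm (ds B c) y)

/-- numerical condition for the chain -/
def Top (p : ℕ) (B J : ℕ → ℕ) (c m t : ℕ) : Prop :=
  (¬ p ∣ m → (c = 1 → 4 ≤ m) → c * J (c * (m - 1)) + ns J c m ≤ t) ∧
  ∀ y r, m = y + (r + 1) → 1 ≤ y → (∀ j ≤ r + 1, ¬ p ∣ y + j) → (c = 1 → 4 ≤ y) →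
    (ch c (EE B J c y) (EE0 B J c y) (r + 1)).2.2 ≤ t

/-- admissible bounds -/
structure Adm (p : ℕ) (B J : ℕ → ℕ) : Prop where
  b0 : B 0 = 1
  b1 : B 1 = 1
  b2 : B 2 = 2
  j0 : ∀ x ≤ 2, J x = 1
  sd : ∀ n < p, seed n ≤ B n
  it : ∀ a n, 1 ≤ a → 2 * a ≤ n → B a * B (n - a) ≤ B n
  hJ : ∀ a x, 1 ≤ a → 2 * a ≤ x → B a * J (x - a) ≤ J x
  im : ∀ b m, 3 ≤ b → 2 ≤ m → ¬ p ∣ b * m → Imp B b m (B (b * m))
  c1 : ∀ m, Top p B J 1 m (B m)
  c2 : ∀ m, 2 ≤ m → ¬ p ∣ m → Imp B 2 m (B (2 * m)) ∨ Top p B (fun x => 2 * J x) 2 m (B (2 * m))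

variable {G Ω : Type u} [Group G] [Finite G] [Finite Ω] [MulAction G Ω] {p : ℕ} {B J : ℕ → ℕ}

theorem main [FaithfulSMul G Ω] (hp : p.Prime) (h3 : 3 ≤ p) (h7 : p ≤ 7) (A : Adm p B J)
    (ih : IH.{u} p B (Nat.card Ω)) (hG : ¬ p ∣ Nat.card G) : kk G ≤ B (Nat.card Ω) := by
  by_cases hA : (Nat.card Ω)! ≤ 2 * Nat.card G
  · have := seeds hp h3 h7 hG hA
    exact this.2.trans (A.sd _ this.1)
  rcases isEmpty_or_nonempty Ω with h0 | h0
  · rw [Nat.card_of_isEmpty] at hA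
    have : 0 < Nat.card G := Nat.card_pos
    simp at hA; omega
  have iu : Inv (⊤ : Subgroup G) (Set.univ : Set Ω) := fun _ _ _ _ => trivial
  by_cases ht : Tr (⊤ : Subgroup G) (Set.univ : Set Ω)
  swap
  · obtain ⟨P, -, p2, p3, p4⟩ := half (Set.toFinite _) iu ht
    have p0 := (Set.ncard_pos (Set.toFinite _)).2 p3
    have cc := Set.ncard_sdiff_add_ncard_of_subset (Set.subset_univ P)
    rw [Set.ncard_univ] at p4 cc
    have s := step ih hG (Set.toFinite _) p2 (by omega)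
    have t := step0 ih hG (K := ⊤ ⊓ fixingSubgroup G P) (Set.toFinite _)
      ((iu.diff p2).mono inf_le_left) (by omega)
      (by rw [inf_assoc, ← fixingSubgroup_union, Set.union_sdiff_cancel (Set.subset_univ P),
        fix_univ, inf_bot_eq])
    rw [kk_congr Subgroup.topEquiv] at s
    rw [show (Set.univ \ P).ncard = Nat.card Ω - P.ncard by omega] at t
    exact s.trans ((Nat.mul_le_mul_left _ t).trans (A.it _ _ p0 p4))
  have : IsPretransitive G Ω := ⟨fun x y => by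
    obtain ⟨g, -, e⟩ := ht x trivial y trivial; exact ⟨g, e⟩⟩
  have nd : ¬ p ∣ Nat.card Ω := fun h => hG (by
    obtain ⟨a⟩ := h0
    rw [← Subgroup.card_top, orb_stab iu ht (Set.mem_univ a), Set.ncard_univ]
    exact h.mul_right _)
  have top : ∀ {σ : Ω → Ω} {c m : ℕ} {J : ℕ → ℕ}, Sg G σ c → (∀ x ≤ c, B x ≤ J x) →
      (∀ a x, 1 ≤ a → 2 * a ≤ x → B a * J (x - a) ≤ J x) → Pm σ c (⊤ : Subgroup G) Set.univ →
      Nat.card Ω = c * m → Top p B J c m (B (c * m)) → kk G ≤ B (Nat.card Ω) :=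
    fun {σ c m J} sg j0 hJ pm hm T => hm ▸ sg.chain ih hG j0 hJ A.b0 A.b1 A.b2
      (E := EE B J c) (E0 := EE0 B J c) (fun _ => ⟨le_max_left _ _, le_max_left _ _⟩)
      (fun _ _ h => ⟨(le_dm (fun j w => c * dl B c j w + ds B c j w) h).trans (le_max_right _ _),
        (le_dm _ h).trans (le_max_right _ _)⟩) ht pm hm
      (fun e => by rw [hm, e, one_mul] at hA; omega) T.1 T.2
  have blk : ∀ {C : Set Ω}, (∀ g ∈ (⊤ : Subgroup G), g • C = C ∨ Disjoint (g • C) C) →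
      IsBlock G C := fun h => isBlock_iff_smul_eq_or_disjoint.2 fun g => h g trivial
  have cd : ∀ {C : Set Ω}, IsBlock G C → 2 ≤ C.ncard → C ≠ Set.univ →
      C.ncard * (orbit G C).ncard = Nat.card Ω ∧ 2 ≤ (orbit G C).ncard := fun {C} h h2 hu => by
    have c := h.ncard_block_mul_ncard_orbit_eq ((Set.ncard_pos (Set.toFinite _)).1 (by omega))
    have : C.ncard < Nat.card Ω := by
      rw [← Set.ncard_univ]; exact Set.ncard_lt_ncard ((Set.subset_univ C).ssubset_of_ne hu)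
    exact ⟨c, by nlinarith⟩
  by_cases hb : ∃ C : Set Ω, IsBlock G C ∧ 3 ≤ C.ncard ∧ C ≠ Set.univ
  · obtain ⟨C, h1, h2, h3⟩ := hb
    obtain ⟨c1, c2⟩ := cd h1 (by omega) h3
    exact impr ih hG h1 (by omega) h3 (c1 ▸ A.im _ _ h2 c2 (c1 ▸ nd))
  push Not at hb
  by_cases hb2 : ∃ C : Set Ω, IsBlock G C ∧ 2 ≤ C.ncard ∧ C ≠ Set.univ
  · obtain ⟨C, h1, h2, h3⟩ := hb2
    obtain ⟨c1, c2⟩ := cd h1 h2 h3
    have e : C.ncard = 2 := by
      by_contra e; exact h3 (hb C h1 (by omega))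
    rw [e] at c1
    rcases A.c2 _ c2 (fun h => nd (c1 ▸ h.mul_left 2)) with q | q
    · exact impr ih hG h1 h2 h3 (by rw [e, ← c1]; exact q)
    obtain ⟨σ, sg⟩ := ex_sg h1 e
    refine top sg (fun x hx => ?_) (fun a x h h' => ?_) (fun C _ _ h => ?_) c1.symm q
    · rw [A.j0 x hx]
      obtain rfl | rfl | rfl : x = 0 ∨ x = 1 ∨ x = 2 := by omega
      all_goals simp [A.b0, A.b1, A.b2]
    · rw [mul_left_comm]; exact Nat.mul_le_mul_left _ (A.hJ a x h h')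
    · exact or_iff_not_imp_left.2 fun e => hb C (blk h) (by omega)
  push Not at hb2
  refine top (σ := id) ⟨fun _ => rfl, fun _ _ => rfl, Or.inl ⟨rfl, fun _ => rfl⟩⟩ (fun x hx => ?_)
    A.hJ (fun C _ _ h => or_iff_not_imp_left.2 fun e => hb2 C (blk h) (by omega)) (one_mul _).symm
    (by rw [one_mul]; exact A.c1 _)
  rw [A.j0 x (by omega)]
  obtain rfl | rfl : x = 0 ∨ x = 1 := by omega
  all_goals simp [A.b0, A.b1]

theorem ih_all (hp : p.Prime) (h3 : 3 ≤ p) (h7 : p ≤ 7) (A : Adm p B J) (n : ℕ) : IH.{u} p B n := by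
  induction n with
  | zero => intro _ _ _ _ _ _ _ h; omega
  | succ n ih =>
    intro G X _ _ ψ hψ hG h
    by_cases e : Nat.card X < n
    · exact ih G X ψ hψ hG e
    have := Finite.of_injective ψ hψ
    let _ := MulAction.compHom X ψ
    have : FaithfulSMul G X := ⟨fun h => hψ (Equiv.ext h)⟩
    exact main hp h3 h7 A (by rwa [show Nat.card X = n by omega]) hG

end H9.Lq
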