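import Cfsg.Agent.H9.Lq11

/-! Estimates for large degrees. -/

set_option autoImplicit false

namespace H9.Lq

/-- square root of three -/
noncomputable def s3 : ℝ := √3

theorem s3_sq : s3 ^ 2 = 3 := Real.sq_sqrt (by norm_num)

theorem s3_pos : 0 < s3 := Real.sqrt_pos.2 (by norm_num)

theorem s3_ge : 1.732 ≤ s3 := Real.le_sqrt_of_sq_le (by norm_num)

theorem s3_le : s3 ≤ 1.7321 := Real.sqrt_le_iff.2 ⟨by norm_num, by norm_num⟩

theorem s3_pow (x : ℕ) : (s3 ^ x) ^ 2 = 3 ^ x := by rw [← pow_mul, mul_comm, pow_mul, s3_sq]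

theorem s3_two (x : ℕ) : s3 ^ (2 * x) = 3 ^ x := by rw [pow_mul, s3_sq]

theorem conv (a b x : ℕ) : a ^ 2 ≤ b ^ 2 * 3 ^ x ↔ (a : ℝ) ≤ b * s3 ^ x := by
  rw [← pow_le_pow_iff_left₀ (a := (a : ℝ)) (n := 2) (by positivity)
    (by have := s3_pos; positivity) two_ne_zero, mul_pow, s3_pow]
  exact_mod_cast Iff.rfl

/-- estimates -/
structure Fa (B J : ℕ → ℕ) : Prop where
  b0 : B 0 = 1
  b1 : B 1 = 1
  b2 : B 2 = 2
  f1 : ∀ x, (B x : ℝ) ≤ s3 ^ x
  f2 : ∀ x, 1 ≤ x → 3 * (B x : ℝ) ≤ 2 * s3 ^ x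
  f3 : ∀ x, 3 ≤ x → B x ^ 2 ≤ 3 ^ (x - 1)
  f4 : ∀ x, 28 ≤ x → 2 * (B x : ℝ) ≤ s3 ^ x
  f5 : ∀ x t : ℕ, 96 < x → 2 * (t : ℝ) ≤ s3 ^ x → t ≤ B x
  g1 : ∀ x : ℕ, 48 ≤ x → 100 * x * (J x : ℝ) ≤ 107 * s3 ^ x
  g2 : ∀ x t : ℕ, 96 < x → 100 * x * (t : ℝ) ≤ 107 * s3 ^ x → t ≤ J x

theorem fa_of {p : ℕ} {t t' : List ℕ} (h : Chk p (mkB t) (mkJ t')) : Fa (mkB t) (mkJ t') := by
  have c := h.2.2.2.2.2
  have f4 : ∀ x, 28 ≤ x → (2 * mkB t x) ^ 2 ≤ 3 ^ x := fun x hx => by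
    by_cases e : x ≤ 96
    · exact (c x (by omega)).2.2.2.1 hx
    · have := Nat.sqrt_le' (3 ^ x / 4)
      rw [mkB, if_neg e, mul_pow]; omega
  refine ⟨h.1.1, h.1.2.1, h.1.2.2.1, fun x => ?_, fun x hx => ?_, fun x hx => ?_, fun x hx => ?_,
    fun x n hx e => ?_, fun x hx => ?_, fun x n hx e => ?_⟩
  · have := (conv (mkB t x) 1 x).1 (by
      by_cases e : x ≤ 96
      · simpa using (c x (by omega)).1
      · have := f4 x (by omega); rw [mul_pow] at this; omega)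
    simpa using this
  · have := (conv (3 * mkB t x) 2 x).1 (by
      by_cases e : x ≤ 96
      · exact (c x (by omega)).2.1 hx
      · have := f4 x (by omega); rw [mul_pow] at this ⊢; omega)
    simpa using this
  · by_cases e : x ≤ 96
    · exact (c x (by omega)).2.2.1 hx
    · have := f4 x (by omega)
      obtain ⟨y, rfl⟩ : ∃ y, x = y + 1 := ⟨x - 1, by omega⟩
      rw [mul_pow, pow_succ 3] at this
      rw [Nat.add_sub_cancel]; omega
  · have := (conv (2 * mkB t x) 1 x).1 (by simpa using f4 x hx)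
    simpa using this
  · have := (conv (2 * n) 1 x).2 (by simpa using e)
    rw [mkB, if_neg (by omega), Nat.le_sqrt', Nat.le_div_iff_mul_le (by norm_num)]
    rw [mul_pow] at this; omega
  · have := (conv (100 * x * mkJ t' x) 107 x).1 (by
      by_cases e : x ≤ 96
      · exact (c x (by omega)).2.2.2.2 hx
      · rw [mkJ, if_neg e]
        exact (Nat.pow_le_pow_left (Nat.mul_div_le _ _) 2).trans (Nat.sqrt_le' _))
    simpa using this
  · have := (conv (100 * x * n) 107 x).2 (by simpa using e)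
    rw [mkJ, if_neg (by omega), Nat.le_div_iff_mul_le (by omega), Nat.le_sqrt', mul_comm]
    exact this

theorem lin_le {a b q : ℝ} {w0 : ℕ} (hb : 0 ≤ b) (hq : 1 ≤ q) (h0 : a + b * w0 ≤ q ^ w0)
    (h1 : b ≤ (q - 1) * (a + b * w0)) {w : ℕ} (h : w0 ≤ w) : a + b * w ≤ q ^ w := by
  induction w, h using Nat.le_induction with
  | base => exact h0
  | succ w h ih =>
    have : (w0 : ℝ) ≤ w := by exact_mod_cast h
    have k : (q - 1) * (a + b * w0) ≤ (q - 1) * (a + b * w) := by gcongr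
    rw [pow_succ]; push_cast; nlinarith

namespace Fa
variable {B J : ℕ → ℕ} (F : Fa B J)
include F

theorem f3' {x : ℕ} (h : 3 ≤ x) : (B x : ℝ) * s3 ≤ s3 ^ x := by
  have := (conv (B x) 1 (x - 1)).1 (by simpa using F.f3 x h)
  obtain ⟨y, rfl⟩ : ∃ y, x = y + 1 := ⟨x - 1, by omega⟩
  rw [pow_succ]
  exact mul_le_mul_of_nonneg_right (by simpa using this) s3_pos.le

theorem it {a n : ℕ} (h : 2 * a ≤ n) (hn : 96 < n) : B a * B (n - a) ≤ B n := by
  refine F.f5 _ _ hn ?_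
  have := mul_le_mul (F.f1 a) (F.f4 (n - a) (by omega)) (by positivity)
    (by have := s3_pos; positivity)
  rw [← pow_add, show a + (n - a) = n by omega] at this
  push_cast; linarith

theorem hJ {a x : ℕ} (h1 : 1 ≤ a) (h : 2 * a ≤ x) (hn : 96 < x) : B a * J (x - a) ≤ J x := by
  refine F.g2 _ _ hn ?_
  obtain ⟨y, rfl⟩ : ∃ y, x = a + y := ⟨x - a, by omega⟩
  rw [Nat.add_sub_cancel_left, pow_add]
  have g := F.g1 y (by omega)
  have p := s3_pos
  have k : ((a + y : ℕ) : ℝ) * B a ≤ y * s3 ^ a := by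
    by_cases e : 28 ≤ a
    · have : ((a + y : ℕ) : ℝ) ≤ 2 * y := by exact_mod_cast (by omega : a + y ≤ 2 * y)
      calc _ ≤ 2 * (y : ℝ) * B a := by gcongr
        _ = y * (2 * B a) := by ring
        _ ≤ _ := by gcongr; exact F.f4 a e
    · have : 2 * ((a + y : ℕ) : ℝ) ≤ 3 * y := by exact_mod_cast (by omega : 2 * (a + y) ≤ 3 * y)
      have := mul_le_mul this (F.f2 a h1) (by positivity) (by positivity)
      linarith
  calc _ = 100 * (((a + y : ℕ) : ℝ) * B a) * J y := by push_cast; ring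
    _ ≤ 100 * (y * s3 ^ a) * J y := by gcongr
    _ = s3 ^ a * (100 * y * J y) := by ring
    _ ≤ s3 ^ a * (107 * s3 ^ y) := by gcongr
    _ = _ := by ring

theorem im {b m : ℕ} (hb : 3 ≤ b) (hm : 2 ≤ m) (hn : 96 < b * m) (h : 28 ≤ b ∨ 28 ≤ m) :
    B b ^ m * B m ≤ B (b * m) := by
  refine F.f5 _ _ hn ?_
  have p := s3_pos
  rw [pow_mul]
  push_cast
  rcases h with h | h
  · have k : 2 * (B m : ℝ) ≤ 2 ^ m := by
      rcases (by omega : m = 2 ∨ 3 ≤ m) with rfl | e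
      · rw [F.b2]; norm_num
      · have := F.f3 m e
        obtain ⟨y, rfl⟩ : ∃ y, m = y + 1 := ⟨m - 1, by omega⟩
        have k : B (y + 1) ^ 2 ≤ (2 ^ y) ^ 2 := by
          rw [← pow_mul, mul_comm, pow_mul]
          exact this.trans (Nat.pow_le_pow_left (by norm_num) _)
        have : (B (y + 1) : ℝ) ≤ 2 ^ y := by
          exact_mod_cast (Nat.pow_le_pow_iff_left two_ne_zero).1 k
        rw [pow_succ]; linarith
    calc _ = (B b : ℝ) ^ m * (2 * B m) := by ring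
      _ ≤ (B b : ℝ) ^ m * 2 ^ m := by gcongr
      _ = (2 * B b) ^ m := by rw [mul_pow, mul_comm]
      _ ≤ _ := by gcongr; exact F.f4 b h
  · calc _ = (B b : ℝ) ^ m * (2 * B m) := by ring
      _ ≤ (B b : ℝ) ^ m * s3 ^ m := by gcongr; exact F.f4 m h
      _ = (B b * s3) ^ m := by rw [mul_pow]
      _ ≤ _ := by gcongr; exact F.f3' hb

theorem nj1 {y : ℕ} (h : 92 ≤ y) : ((1 * J (1 * (y - 1)) + ns J 1 y : ℕ) : ℝ) ≤ 0.37 * s3 ^ y := by
  obtain ⟨z, rfl⟩ : ∃ z, y = z + 2 := ⟨y - 2, by omega⟩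
  have g1 := F.g1 (z + 1) (by omega)
  have g2 := F.g1 z (by omega)
  have hz : (90 : ℝ) ≤ z := by exact_mod_cast (by omega : 90 ≤ z)
  simp only [ns, one_mul, show z + 2 - 1 = z + 1 from rfl, Nat.add_sub_cancel]
  rw [pow_add, s3_sq]
  rw [pow_succ] at g1
  push_cast at g1 ⊢
  have p : 0 < s3 ^ z := pow_pos s3_pos z
  have := s3_le
  have a : 9100 * (J (z + 1) : ℝ) ≤ 107 * (s3 ^ z * 1.7321) := by
    have : (0 : ℝ) ≤ J (z + 1) := by positivity
    nlinarith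
  have b : 9000 * (J z : ℝ) ≤ 107 * s3 ^ z := by
    have : (0 : ℝ) ≤ J z := by positivity
    nlinarith
  linarith

theorem nj2 {y : ℕ} (h : 44 ≤ y) : ((2 * (2 * J (2 * (y - 1))) + ns (fun x => 2 * J x) 2 y : ℕ) : ℝ)
    ≤ 0.5 * 3 ^ y := by
  obtain ⟨z, rfl⟩ : ∃ z, y = z + 2 := ⟨y - 2, by omega⟩
  have g1 := F.g1 (2 * (z + 1)) (by omega)
  have g2 := F.g1 (2 * z) (by omega)
  have hz : (42 : ℝ) ≤ z := by exact_mod_cast (by omega : 42 ≤ z)
  simp only [ns, show z + 2 - 1 = z + 1 from rfl, Nat.add_sub_cancel]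
  rw [s3_two] at g1 g2
  rw [pow_succ] at g1
  rw [pow_add]
  push_cast at g1 g2 ⊢
  have p : (0 : ℝ) < 3 ^ z := by positivity
  have a : 8400 * (J (2 * (z + 1)) : ℝ) ≤ 107 * (3 ^ z * 3) := by
    have : (0 : ℝ) ≤ J (2 * (z + 1)) := by positivity
    nlinarith
  have b : 8400 * (J (2 * z) : ℝ) ≤ 107 * 3 ^ z := by
    have : (0 : ℝ) ≤ J (2 * z) := by positivity
    nlinarith
  linarith

end Fa
end H9.Lq
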