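import Cfsg.Agent.H9.Lq12

/-! Estimates for large designs. -/

set_option autoImplicit false

namespace H9.Lq

theorem sq_le {a b : ℝ} (hb : 0 ≤ b) (h : a ^ 2 ≤ b ^ 2) : a ≤ b :=
  (abs_le_of_sq_le_sq' h hb).2

theorem tw {e w : ℕ} (h : 2 * e ≤ 3 * w) : (2 : ℝ) ^ e ≤ 2.83 ^ w := by
  refine sq_le (by positivity) ?_
  rw [← pow_mul, ← pow_mul, mul_comm w]
  calc _ ≤ (2 : ℝ) ^ (3 * w) := pow_le_pow_right₀ one_le_two (by omega)
    _ ≤ _ := by rw [pow_mul, pow_mul]; gcongr; norm_num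

namespace Fa
variable {B J : ℕ → ℕ} (F : Fa B J)
include F

theorem bb (w : ℕ) : (B w : ℝ) * B w ≤ 3 ^ w := by
  rw [← s3_pow, sq]
  exact mul_self_le_mul_self (by positivity) (F.f1 w)

theorem bb3 {w : ℕ} (h : 3 ≤ w) : 3 * ((B w : ℝ) * B w) ≤ 3 ^ w := by
  have := F.f3 w h
  obtain ⟨y, rfl⟩ : ∃ y, w = y + 1 := ⟨w - 1, by omega⟩
  have : (B (y + 1) : ℝ) ^ 2 ≤ 3 ^ y := by exact_mod_cast this
  rw [pow_succ]; nlinarith

theorem hq (w : ℕ) : (B w : ℝ) * 2 ^ (w / 2) ≤ 2.5 ^ w := by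
  refine sq_le (by positivity) ?_
  have : ((2 : ℝ) ^ (w / 2)) ^ 2 ≤ 2 ^ w := by
    rw [← pow_mul]; gcongr; exacts [one_le_two, by omega]
  rw [mul_pow, sq (B w : ℝ), ← pow_mul 2.5, mul_comm w, pow_mul]
  calc _ ≤ (3 : ℝ) ^ w * 2 ^ w := by gcongr; exact F.bb w
    _ ≤ _ := by rw [← mul_pow]; gcongr; norm_num

theorem d1 {j w : ℕ} (h : j + 2 ≤ w) (hy : 92 ≤ (w + 1) * (j + 2)) :
    ((1 * dl B 1 j w + ds B 1 j w : ℕ) : ℝ) ≤ 0.37 * s3 ^ ((w + 1) * (j + 2)) := by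
  have p := s3_pos
  rcases Nat.eq_zero_or_pos j with rfl | j0
  · have a := F.hq w
    have b := (F.hq (w - 1)).trans (pow_le_pow_right₀ (by norm_num) (Nat.sub_le w 1))
    have c := lin_le (a := 2) (b := 2) (q := 1.2) (w0 := 45) (by norm_num) (by norm_num)
      (by norm_num) (by norm_num) (show 45 ≤ w by omega)
    have d : (1.2 : ℝ) ^ w * 2.5 ^ w = 3 ^ w := by rw [← mul_pow]; norm_num
    simp only [dl, ds, Q, if_true, one_mul, zero_add, mul_zero, F.b0, F.b1]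
    rw [mul_comm (w + 1), s3_two, pow_succ]
    push_cast
    calc _ ≤ (2.5 : ℝ) ^ w + (2.5 ^ w + w * 2 * 2.5 ^ w) := by gcongr
      _ = (2 + 2 * w) * 2.5 ^ w := by ring
      _ ≤ 1.2 ^ w * 2.5 ^ w := by gcongr
      _ ≤ _ := by rw [d]; have : (0 : ℝ) < 3 ^ w := by positivity
                  linarith
  have s1 : 1 ≤ s3 := le_trans (by norm_num) s3_ge
  have a := F.bb w
  have b := (F.bb (w - 1)).trans (pow_le_pow_right₀ (by norm_num) (Nat.sub_le w 1))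
  have c := F.f1 (j + 1)
  have d := (F.f1 j).trans (pow_le_pow_right₀ s1 (Nat.le_succ j))
  have t1 : w ≤ w * j := Nat.le_mul_of_pos_right _ j0
  have t2 : (w + 1) * (j + 2) ≤ 4 * (w * j) := by nlinarith
  have e := lin_le (a := 0) (b := 12) (q := 1.5) (w0 := 23) (by norm_num) (by norm_num)
    (by norm_num) (by norm_num) (show 23 ≤ w * j by omega)
  have e2 : (1.5 : ℝ) ^ (w * j) ≤ s3 ^ (w * j) := by gcongr; exact le_trans (by norm_num) s3_ge
  have t3 : ((w : ℝ) + 1) * (j + 2) ≤ 4 * (w * j : ℕ) := by exact_mod_cast t2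
  have e3 : ((w : ℝ) + 1) * (j + 2) ≤ 0.37 * s3 ^ (w * j + 1) := by
    have := s3_ge
    have : (0 : ℝ) ≤ (w * j : ℕ) := by positivity
    rw [pow_succ]; nlinarith
  simp only [dl, ds, Q, if_neg j0.ne', one_mul, one_pow]
  rw [show (w + 1) * (j + 2) = (j + 1) + 2 * w + (w * j + 1) by ring, pow_add, pow_add, s3_two]
  push_cast
  calc _ ≤ s3 ^ (j + 1) * 3 ^ w + ((j + 1) * (s3 ^ (j + 1) * 3 ^ w) +
        w * (j + 2) * (s3 ^ (j + 1) * 3 ^ w)) := by gcongr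
    _ = s3 ^ (j + 1) * 3 ^ w * ((w + 1) * (j + 2)) := by ring
    _ ≤ s3 ^ (j + 1) * 3 ^ w * (0.37 * s3 ^ (w * j + 1)) := by gcongr
    _ = _ := by ring

theorem d2 {j w : ℕ} (h : j + 2 ≤ w) (hy : 44 ≤ (w + 1) * (j + 2)) :
    ((2 * dl B 2 j w + ds B 2 j w : ℕ) : ℝ) ≤ 0.5 * 3 ^ ((w + 1) * (j + 2)) := by
  have p := s3_pos
  have w7 : 7 ≤ w := by nlinarith
  have a := F.bb3 (w := w) (by omega)
  have b := F.bb3 (w := w - 1) (by omega)
  have b' : (3 : ℝ) ^ w = 3 ^ (w - 1) * 3 := by rw [← pow_succ]; congr 1; omega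
  rcases Nat.eq_zero_or_pos j with rfl | j0
  · have c := tw (e := (w * 2 + (w - 2)) / 2 + 1) (w := w) (by omega)
    have d := tw (e := (w * 2 - 1 + (w - 1 - 2)) / 2 + 2) (w := w) (by omega)
    have e := lin_le (a := 12) (b := 16) (q := 2.25) (w0 := 21) (by norm_num) (by norm_num)
      (by norm_num) (by norm_num) (show 21 ≤ w by omega)
    have f := lin_le (a := 1) (b := 0.06) (q := 1.06) (w0 := 0) (by norm_num) (by norm_num)
      (by norm_num) (by norm_num) (Nat.zero_le w)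
    have g : (2 : ℝ) ^ (w * 2 - 1) ≤ 2 ^ (w * 2) := pow_le_pow_right₀ one_le_two (Nat.sub_le _ _)
    have k1 : (2.25 : ℝ) ^ w * 2 ^ (w * 2) = 9 ^ w := by
      rw [mul_comm w, pow_mul, ← mul_pow]; norm_num
    have k2 : (1.06 : ℝ) ^ w * (3 ^ w * 2.83 ^ w) ≤ 9 ^ w := by
      rw [← mul_pow, ← mul_pow]; gcongr; norm_num
    rw [pow_add] at c d
    have q1 : 6 * ((B w : ℝ) * B w * 2 ^ ((w * 2 + (w - 2)) / 2)) ≤ 3 ^ w * 2.83 ^ w := by
      have := mul_le_mul a c (by positivity) (by positivity)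
      linarith
    have q2 : 36 * ((B (w - 1) : ℝ) * B (w - 1) * 2 ^ ((w * 2 - 1 + (w - 1 - 2)) / 2)) ≤
        3 ^ w * 2.83 ^ w := by
      have := mul_le_mul b d (by positivity) (by positivity)
      rw [b']; linarith
    simp only [dl, ds, Q, if_true, zero_add, mul_zero, mul_one, F.b0, F.b2, OfNat.ofNat_ne_one,
      if_false]
    rw [mul_comm (w + 1), pow_mul 3, pow_succ]
    push_cast
    have w0 : (0 : ℝ) ≤ w := by positivity
    have r1 := mul_le_mul_of_nonneg_right e (show (0 : ℝ) ≤ 2 ^ (w * 2) by positivity)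
    have r2 := mul_le_mul_of_nonneg_right f (show (0 : ℝ) ≤ 3 ^ w * 2.83 ^ w by positivity)
    have r3 := mul_le_mul_of_nonneg_left g w0
    have r4 := mul_le_mul_of_nonneg_left q2 w0
    have r5 : (0 : ℝ) ≤ 3 ^ w * 2.83 ^ w := by positivity
    have r6 := mul_nonneg w0 r5
    rw [show (3 : ℝ) ^ 2 = 9 by norm_num]
    linarith
  obtain ⟨i, rfl⟩ : ∃ i, j = i + 1 := ⟨j - 1, by omega⟩
  have c : (B (2 * (i + 1 + 1)) : ℝ) ≤ 1.7321 * 3 ^ (i + 1) := by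
    have := F.f3' (x := 2 * (i + 1 + 1)) (by omega)
    rw [s3_two, pow_succ, ← s3_sq, sq, ← mul_assoc] at this
    refine (le_of_mul_le_mul_right this p).trans ?_
    rw [mul_comm, ← sq, s3_sq]; gcongr; exact s3_le
  have d : (B (2 * (i + 1)) : ℝ) ≤ 3 ^ (i + 1) := s3_two (i + 1) ▸ F.f1 _
  have e := lin_le (a := 0.32) (b := 0.28) (q := 9 / 8) (w0 := 7) (by norm_num) (by norm_num)
    (by norm_num) (by norm_num) w7
  have f := lin_le (a := 1) (b := 0.5) (q := 3 / 2) (w0 := 0) (by norm_num) (by norm_num)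
    (by norm_num) (by norm_num) (Nat.zero_le (w * i))
  have g : (2 : ℝ) ^ (w * (i + 1 + 2)) = 2 ^ (w * (i + 1 + 2) - 1) * 2 := by
    rw [← pow_succ]; congr 1
    have : 0 < w * (i + 1 + 2) := by positivity
    omega
  have k : (3 : ℝ) ^ ((w + 1) * (i + 1 + 2)) = 2 ^ (w * (i + 1 + 2)) * 3 ^ w * 3 ^ (i + 1) *
      (9 * ((9 / 8) ^ w * (3 / 2) ^ (w * i))) := by
    rw [div_pow, div_pow, show (9 : ℝ) ^ w = 3 ^ (2 * w) by rw [pow_mul]; norm_num,
      show (8 : ℝ) ^ w = 2 ^ (3 * w) by rw [pow_mul]; norm_num]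
    field_simp
    ring
  have w0 : (7 : ℝ) ≤ w := by exact_mod_cast w7
  have i0 : (0 : ℝ) ≤ i := by positivity
  have r := mul_le_mul e f (by positivity) (by positivity)
  simp only [dl, ds, Q, if_neg j0.ne']
  rw [k]
  push_cast at r ⊢
  have a' : (B w : ℝ) * B w ≤ 3 ^ w / 3 := by linarith
  have b'' : (B (w - 1) : ℝ) * B (w - 1) ≤ 3 ^ w / 9 := by linarith
  have g' : (2 : ℝ) ^ (w * (i + 1 + 2) - 1) ≤ 2 ^ (w * (i + 1 + 2)) / 2 := by linarith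
  set P : ℝ := 2 ^ (w * (i + 1 + 2))
  calc _ ≤ 2 * (1.7321 * 3 ^ (i + 1) * (P * (3 ^ w / 3))) +
        (2 * (i + 1 + 1) * (3 ^ (i + 1) * (P * (3 ^ w / 3))) +
        2 * (w * (i + 1 + 2)) * (1.7321 * 3 ^ (i + 1) * (P / 2 * (3 ^ w / 9)))) := by gcongr
    _ = P * 3 ^ w * 3 ^ (i + 1) * (2 * 1.7321 / 3 + 2 * (i + 2) / 3 + w * (i + 3) * 1.7321 / 9) := by
      ring
    _ ≤ P * 3 ^ w * 3 ^ (i + 1) * (0.5 * (9 * ((9 / 8) ^ w * (3 / 2) ^ (w * i)))) := by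
      gcongr
      have := mul_le_mul_of_nonneg_right w0 i0
      have := mul_nonneg (sub_nonneg.2 w0) (mul_nonneg (le_trans (by norm_num) w0) i0)
      nlinarith
    _ = _ := by ring

end Fa
end H9.Lq
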