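import Cfsg.Agent.H9.Lq13

/-! A permutation group of degree `n ≥ 3` and order prime to `p ∈ {3, 5, 7}` has at most
`√3 ^ (n - 1)` conjugacy classes. -/

set_option autoImplicit false

namespace H9.Lq
open H9.Lp
universe u

theorem mx_le (f : ℕ → ℕ) {t : ℝ} (h0 : 0 ≤ t) (n : ℕ) (h : ∀ i < n, (f i : ℝ) ≤ t) :
    (mx f n : ℝ) ≤ t := by
  induction n with
  | zero => simpa [mx] using h0
  | succ n ih =>
    rw [mx, Nat.cast_max]
    exact max_le (ih fun i hi => h i (by omega)) (h n (by omega))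

theorem dm_le (f : ℕ → ℕ → ℕ) {t : ℝ} (h0 : 0 ≤ t) (y : ℕ)
    (h : ∀ j w, j + 2 ≤ w → y = (w + 1) * (j + 2) → (f j w : ℝ) ≤ t) : (dm f y : ℝ) ≤ t := by
  refine mx_le _ h0 _ fun j _ => ?_
  split_ifs with e
  · refine h _ _ (by omega) ?_
    rw [Nat.sub_add_cancel (by omega), Nat.div_mul_cancel (Nat.dvd_of_mod_eq_zero e.1)]
  · simpa using h0

theorem ee_le {B J : ℕ → ℕ} {c y : ℕ} {t : ℝ} (h1 : ((c * J (c * (y - 1)) + ns J c y : ℕ) : ℝ) ≤ t)
    (h2 : ∀ j w, j + 2 ≤ w → y = (w + 1) * (j + 2) → ((c * dl B c j w + ds B c j w : ℕ) : ℝ) ≤ t) :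
    ((max (EE B J c y) (EE0 B J c y) : ℕ) : ℝ) ≤ t := by
  have h0 : 0 ≤ t := le_trans (by positivity) h1
  rw [EE, EE0, Nat.cast_max, Nat.cast_max, Nat.cast_max]
  exact max_le (max_le h1 (dm_le _ h0 _ h2)) (max_le (le_trans (Nat.cast_le.2 (Nat.le_add_left _ _)) h1)
    (dm_le _ h0 _ fun j w a b => le_trans (Nat.cast_le.2 (Nat.le_add_left _ _)) (h2 j w a b)))

theorem ch_le (c e e0 r : ℕ) : (ch c e e0 r).1 ≤ max e e0 * (ch c 1 1 r).1 ∧
    (ch c e e0 r).2.1 ≤ max e e0 * (ch c 1 1 r).2.1 ∧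
    (ch c e e0 r).2.2 ≤ max e e0 * (ch c 1 1 r).2.2 := by
  induction r with
  | zero => simp [ch]
  | succ r ih =>
    simp only [ch, mul_add, mul_left_comm _ c]
    exact ⟨add_le_add (Nat.mul_le_mul_left _ ih.2.1) ih.1, ih.1,
      add_le_add (Nat.mul_le_mul_left _ ih.2.2) ih.1⟩

theorem short {p y r : ℕ} (hp : p = 3 ∨ p = 5 ∨ p = 7) (h : ∀ j ≤ r + 1, ¬ p ∣ y + j) : r < 5 := by
  by_contra e
  refine h ((p - y % p) % p) ?_ ?_ <;> rcases hp with rfl | rfl | rfl <;> omega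

theorem TopD.top {p c m t : ℕ} {B J : ℕ → ℕ} (hp : p = 3 ∨ p = 5 ∨ p = 7) (h : TopD p B J c m t) :
    Top p B J c m t := by
  refine ⟨h.1, ?_⟩
  rintro y r rfl h1 h2 h3
  have := h.2 r (short hp h2) (by omega)
  rw [Nat.add_sub_cancel] at this
  exact this (fun j hj => h2 j (by omega)) h3

theorem ImpD.imp {b m t : ℕ} {B : ℕ → ℕ} (h : ImpD B b m t) : Imp B b m t :=
  h.imp_right fun h => ⟨fun a h1 h2 => h.1 a (by omega) h1 h2, h.2⟩

theorem adm {p : ℕ} (hp : p = 3 ∨ p = 5 ∨ p = 7) {B J : ℕ → ℕ} (h : Chk p B J) (F : Fa B J) :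
    Adm p B J := by
  obtain ⟨⟨b0, b1, b2, j0, sd⟩, h1, h2, h3, h4, -⟩ := h
  have p0 := s3_pos
  refine ⟨b0, b1, b2, fun x hx => j0 x (by omega), sd, fun a n e e' => ?_, fun a n e e' => ?_,
    fun b m hb hm e => ?_, fun m => ?_, fun m hm e => ?_⟩
  · by_cases hn : n < 97
    exacts [(h1 n hn a (by omega) e e').1, F.it e' (by omega)]
  · by_cases hn : n < 97
    exacts [(h1 n hn a (by omega) e e').2, F.hJ e e' (by omega)]
  · by_cases hn : b * m ≤ 96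
    · exact (h2 b (by nlinarith) m (by nlinarith) ⟨hb, hm, Or.inl hn, e⟩).imp
    by_cases h28 : b < 28 ∧ m < 28
    · exact (h2 b (by omega) m (by omega) ⟨hb, hm, Or.inr h28, e⟩).imp
    exact Or.inl (F.im hb hm (by omega) (by omega))
  · by_cases hn : m < 97
    · exact (h3 m hn).top hp
    refine ⟨fun _ _ => F.f5 _ _ (by omega) ?_, ?_⟩
    · have := F.nj1 (y := m) (by omega)
      have := pow_pos p0 m
      linarith
    rintro y r rfl - e -
    have r5 := short hp e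
    refine (ch_le _ _ _ _).2.2.trans (F.f5 _ _ (by omega) ?_)
    have k := ee_le (F.nj1 (y := y) (by omega)) fun j w a b => b ▸ F.d1 a (by omega)
    have q : 2 * 0.37 * ((ch 1 1 1 (r + 1)).2.2 : ℝ) ≤ s3 ^ (r + 1) := by
      have := s3_ge
      refine le_trans ?_ (pow_le_pow_left₀ (by norm_num) this _)
      interval_cases r <;> norm_num [ch]
    rw [Nat.cast_mul, pow_add]
    calc _ ≤ 2 * (0.37 * s3 ^ y * ((ch 1 1 1 (r + 1)).2.2 : ℝ)) := by gcongr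
      _ = s3 ^ y * (2 * 0.37 * ((ch 1 1 1 (r + 1)).2.2 : ℝ)) := by ring
      _ ≤ _ := by gcongr
  by_cases hn : m < 49
  · exact (h4 m hn hm e).imp ImpD.imp (TopD.top hp)
  refine Or.inr ⟨fun _ _ => F.f5 _ _ (by omega) ?_, ?_⟩
  · have := F.nj2 (y := m) (by omega)
    rw [s3_two]; linarith
  rintro y r rfl - e -
  have r5 := short hp e
  refine (ch_le _ _ _ _).2.2.trans (F.f5 _ _ (by omega) ?_)
  have k := ee_le (J := fun x => 2 * J x) (F.nj2 (y := y) (by omega))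
    fun j w a b => b ▸ F.d2 a (by omega)
  have q : ((ch 2 1 1 (r + 1)).2.2 : ℝ) ≤ 3 ^ (r + 1) := by
    interval_cases r <;> norm_num [ch]
  rw [Nat.cast_mul, s3_two, pow_add]
  calc _ ≤ 2 * (0.5 * 3 ^ y * (3 : ℝ) ^ (r + 1)) := by gcongr
    _ = _ := by ring

theorem kk_pp {α : Type u} [Finite α] (S : Subgroup (Equiv.Perm α)) (hn : 3 ≤ Nat.card α) {p : ℕ}
    (hp : p = 3 ∨ p = 5 ∨ p = 7) (hc : ¬ p ∣ Nat.card S) : kk S ^ 2 ≤ 3 ^ (Nat.card α - 1) := by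
  have key : ∀ t t', Chk p (mkB t) (mkJ t') → kk S ^ 2 ≤ 3 ^ (Nat.card α - 1) := fun t t' h =>
    (Nat.pow_le_pow_left (ih_all (by rcases hp with rfl | rfl | rfl <;> norm_num) (by omega)
      (by omega) (adm hp h (fa_of h)) _ S α S.subtype S.subtype_injective hc
      (Nat.lt_succ_self _)) 2).trans ((fa_of h).f3 _ hn)
  rcases hp with rfl | rfl | rfl
  exacts [key _ _ chk3, key _ _ chk5, key _ _ chk7]

end H9.Lq
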