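import Cfsg.Agent.H9.Lq1

/-! More counting of commuting pairs. -/

set_option autoImplicit false
set_option linter.unusedSectionVars false
open MulAction
open scoped Pointwise

namespace H9.Lq
open H9.Lp
universe u

theorem ncard_fib {α β : Type*} [Finite α] (f : α → β) {r M : ℕ} (V : Set β) (hV : V.Finite) :
    ∀ S : Set α, (∀ x ∈ S, f x ∈ V) → (∀ v ∈ V, r * {x | x ∈ S ∧ f x = v}.ncard ≤ M) →
      r * S.ncard ≤ V.ncard * M := by
  induction V, hV using Set.Finite.induction_on with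
  | empty =>
    intro X h _
    have : X = ∅ := Set.eq_empty_of_forall_notMem h
    simp [this]
  | @insert v V hv hV ih =>
    intro X h h'
    have a := Set.ncard_inter_add_ncard_sdiff_eq_ncard X {x | f x = v}
    have b := h' v (Set.mem_insert _ _)
    have c := ih (X \ {x | f x = v}) (fun x hx => (h x hx.1).resolve_left hx.2) fun w hw => by
      refine le_trans (Nat.mul_le_mul_left _ ?_) (h' w (Set.mem_insert_of_mem _ hw))
      exact Set.ncard_le_ncard (fun p hp => ⟨hp.1.1, hp.2⟩) (Set.toFinite _)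
    rw [Set.ncard_insert_of_notMem hv hV, ← a, mul_add, add_mul, one_mul, add_comm]
    exact add_le_add c b

variable {G : Type u} [Group G] [Finite G]

theorem cp_coe (K : Subgroup G) {S X : Set G} (hS : S ⊆ K) (hX : X ⊆ K) :
    cp (K.subtype ⁻¹' S) (K.subtype ⁻¹' X) = cp S X :=
  Set.ncard_congr (fun p _ => (p.1.1, p.2.1)) (fun _ h => ⟨h.1, h.2.1, congrArg Subtype.val h.2.2⟩)
    (fun _ _ _ _ h => Prod.ext (Subtype.ext (congrArg Prod.fst h)) (Subtype.ext (congrArg Prod.snd h)))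
    fun p h => ⟨(⟨p.1, hS h.1⟩, ⟨p.2, hX h.2.1⟩), ⟨h.1, h.2.1, Subtype.ext h.2.2⟩, rfl⟩

theorem cp_top : cp (Set.univ : Set G) Set.univ = kk G * Nat.card G := by
  have := cp_self (⊤ : Subgroup G)
  rwa [Subgroup.coe_top, kk_congr Subgroup.topEquiv, Subgroup.card_top] at this

theorem cp_sub {L M : Subgroup G} (h : L ≤ M) : cp (L : Set G) M ≤ kk L * Nat.card M := by
  rw [← cp_coe M h le_rfl]
  have := cp_fib (L.subgroupOf M : Set M) (fun g => (g : M ⧸ L.subgroupOf M)) (r := 1)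
    (M := cp (L.subgroupOf M : Set M) (L.subgroupOf M)) Set.univ (Set.toFinite _)
    (M.subtype ⁻¹' M) (fun _ _ => trivial) fun v _ => by
      rw [one_mul]
      exact cp_agree _ _ _ fun x hx y hy => QuotientGroup.eq.1 (hx.2.trans hy.2.symm)
  rw [one_mul, cp_self, kk_of h, Set.ncard_univ, mul_left_comm,
    ← Subgroup.card_eq_card_quotient_mul_card_subgroup] at this
  exact this

theorem cp_two (S X K L : Set G) (h : ∀ x ∈ S, ∀ y ∈ S, x⁻¹ * y ∈ K)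
    (h' : ∀ x ∈ X, ∀ y ∈ X, x⁻¹ * y ∈ L) : cp S X ≤ cp K L := by
  refine (cp_agree _ _ _ h').trans ?_
  rw [cp_comm, cp_comm K]
  exact cp_agree _ _ _ h

theorem cp_quot {E : Type u} [Group E] [Finite E] (π : G →* E) (S X : Set G) :
    cp S X ≤ cp (π '' S) (π '' X) * (kk π.ker * Nat.card π.ker) := by
  have := ncard_fib (fun p : G × G => (π p.1, π p.2)) (r := 1) (M := kk π.ker * Nat.card π.ker)
    {p : E × E | p.1 ∈ π '' S ∧ p.2 ∈ π '' X ∧ p.1 * p.2 = p.2 * p.1} (Set.toFinite _)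
    {p : G × G | p.1 ∈ S ∧ p.2 ∈ X ∧ p.1 * p.2 = p.2 * p.1}
    (fun p h => ⟨⟨_, h.1, rfl⟩, ⟨_, h.2.1, rfl⟩, by rw [← map_mul, h.2.2, map_mul]⟩) fun v _ => by
      rw [one_mul, ← cp_self]
      refine le_trans (Set.ncard_le_ncard (t := {p : G × G | p.1 ∈ {x | π x = v.1} ∧
        p.2 ∈ {x | π x = v.2} ∧ p.1 * p.2 = p.2 * p.1}) (fun p h => ⟨congrArg Prod.fst h.2,
          congrArg Prod.snd h.2, h.1.2.2⟩) (Set.toFinite _)) (cp_two _ _ _ _ ?_ ?_) <;>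
      · intro x hx y hy
        show π _ = 1
        rw [map_mul, map_inv, hx, hy, inv_mul_cancel]
  rwa [one_mul] at this

theorem cosf (N : Subgroup G) [N.Normal] {M : ℕ}
    (h : ∀ x ∉ N, cp (N : Set G) {y | x⁻¹ * y ∈ N} ≤ M * Nat.card N) :
    kk G * Nat.card (G ⧸ N) + M ≤ kk N + kk (G ⧸ N) * Nat.card (G ⧸ N) * M := by
  set S := {p : G × G | p.1 ∈ Set.univ ∧ p.2 ∈ Set.univ ∧ p.1 * p.2 = p.2 * p.1}
  set V := {p : (G ⧸ N) × (G ⧸ N) | p.1 ∈ Set.univ ∧ p.2 ∈ Set.univ ∧ p.1 * p.2 = p.2 * p.1}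
  have e1 : S.ncard = _ := cp_top
  have e2 : V.ncard = _ := cp_top
  have c := Set.ncard_sdiff_singleton_add_one (show ((1, 1) : _ × _) ∈ V from ⟨trivial, trivial, rfl⟩)
  have a := Set.ncard_inter_add_ncard_sdiff_eq_ncard S {p | p.1 ∈ N ∧ p.2 ∈ N}
  have b : (S ∩ {p | p.1 ∈ N ∧ p.2 ∈ N}).ncard ≤ kk N * Nat.card N := by
    rw [← cp_self]
    exact Set.ncard_le_ncard (fun p h => ⟨h.2.1, h.2.2, h.1.2.2⟩) (Set.toFinite _)
  have d := ncard_fib (fun p : G × G => ((p.1 : G ⧸ N), (p.2 : G ⧸ N))) (r := 1)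
    (M := M * Nat.card N) (V \ {(1, 1)}) (Set.toFinite _) (S \ {p | p.1 ∈ N ∧ p.2 ∈ N})
    (fun p hp => ⟨⟨trivial, trivial, congrArg (fun g : G => (g : G ⧸ N)) hp.1.2.2⟩, fun e =>
      hp.2 ⟨(QuotientGroup.eq_one_iff _).1 (congrArg Prod.fst e),
        (QuotientGroup.eq_one_iff _).1 (congrArg Prod.snd e)⟩⟩) fun v hv => by
      obtain ⟨x, hx⟩ := QuotientGroup.mk_surjective v.1
      obtain ⟨y, hy⟩ := QuotientGroup.mk_surjective v.2
      have k : ∀ z : G, ∀ a ∈ {y | z⁻¹ * y ∈ N}, ∀ b ∈ {y | z⁻¹ * y ∈ N}, a⁻¹ * b ∈ (N : Set G) :=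
        fun z a ha b hb => by simpa using N.mul_mem (N.inv_mem ha) hb
      rw [one_mul]
      refine le_trans (Set.ncard_le_ncard (t := {p : G × G | p.1 ∈ {z | x⁻¹ * z ∈ N} ∧
        p.2 ∈ {z | y⁻¹ * z ∈ N} ∧ p.1 * p.2 = p.2 * p.1}) (fun p h =>
          ⟨QuotientGroup.eq.1 (hx.trans (congrArg Prod.fst h.2).symm),
          QuotientGroup.eq.1 (hy.trans (congrArg Prod.snd h.2).symm), h.1.1.2.2⟩) (Set.toFinite _)) ?_
      by_cases hxN : x ∈ N
      · refine le_trans ?_ (h y fun hyN => hv.2 (Prod.ext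
          (hx.symm.trans ((QuotientGroup.eq_one_iff _).2 hxN))
          (hy.symm.trans ((QuotientGroup.eq_one_iff _).2 hyN))))
        rw [cp_comm (N : Set G)]
        exact (cp_comm _ _).le.trans (cp_agree _ _ _ (k x))
      · refine le_trans ?_ (h x hxN)
        rw [cp_comm (N : Set G)]
        exact cp_agree _ _ _ (k y)
  rw [Subgroup.card_eq_card_quotient_mul_card_subgroup N] at e1
  refine Nat.le_of_mul_le_mul_right ?_ (Nat.card_pos (α := N))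
  rw [← e2, ← c]
  nlinarith

theorem cosf' (N : Subgroup G) [N.Normal] {M : ℕ}
    (h : ∀ t ∉ N, {g | g ∈ N ∧ g * t = t * g}.ncard ≤ M) : kk G ≤ kk N + kk (G ⧸ N) * M := by
  have := cosf N (M := M) fun x hx => by
    have := ncard_fib (fun p : G × G => x⁻¹ * p.2) (r := 1) (M := M) N (Set.toFinite _)
      {p : G × G | p.1 ∈ (N : Set G) ∧ p.2 ∈ {y | x⁻¹ * y ∈ N} ∧ p.1 * p.2 = p.2 * p.1}
      (fun p hp => hp.2.1) fun v hv => by
        rw [one_mul]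
        refine le_trans (Set.ncard_le_ncard_of_injOn Prod.fst (fun p hp => ?_) (fun p hp q hq e =>
          Prod.ext e (mul_left_cancel (hp.2.trans hq.2.symm))) (Set.toFinite _))
          (h (x * v) fun e => hx (by simpa using N.mul_mem e (N.inv_mem hv)))
        have e : x * v = p.2 := by rw [← hp.2, mul_inv_cancel_left]
        rw [e]; exact ⟨hp.1.1, hp.1.2.2⟩
    rw [one_mul, mul_comm] at this
    exact this
  have p := Nat.card_pos (α := G ⧸ N)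
  refine Nat.le_of_mul_le_mul_right ?_ p
  nlinarith

theorem ylem (A A' : Subgroup G) [A.Normal] [A'.Normal] (hb : A ⊓ A' = ⊥) (Y : Set G)
    (hY : ∀ h ∈ Y, ∀ h' ∈ Y, h⁻¹ * h' ∈ A → ∃ y, (y * h * y⁻¹)⁻¹ * h' ∈ A') :
    cp Y Set.univ ≤ kk (G ⧸ (A ⊔ A')) * kk A' * Nat.card G := by
  classical
  set q := QuotientGroup.mk' (A ⊔ A')
  set π := QuotientGroup.mk' A
  set π' := QuotientGroup.mk' A'
  have eq : ∀ {x y}, π x = π y ↔ x⁻¹ * y ∈ A := QuotientGroup.eq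
  have eq' : ∀ {x y}, π' x = π' y ↔ x⁻¹ * y ∈ A' := QuotientGroup.eq
  have q1 : ∀ {x y}, x⁻¹ * y ∈ A → q x = q y := fun h => QuotientGroup.eq.2 (Subgroup.mem_sup_left h)
  have q2 : ∀ {x y}, x⁻¹ * y ∈ A' → q x = q y := fun h =>
    QuotientGroup.eq.2 (Subgroup.mem_sup_right h)
  have one : ∀ {x y}, π x = π y → π' x = π' y → x = y := fun h h' =>
    inv_mul_eq_one.1 (Subgroup.mem_bot.1 (hb ▸ ⟨eq.1 h, eq'.1 h'⟩))
  choose c0 hc0 using QuotientGroup.mk'_surjective (A ⊔ A')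
  have pj : ∀ h : G, ∃ x, (c0 (q h))⁻¹ * x ∈ A' ∧ x⁻¹ * h ∈ A := fun h => by
    have : (c0 (q h))⁻¹ * h ∈ A' ⊔ A := sup_comm A A' ▸ QuotientGroup.eq.1 (hc0 (q h))
    obtain ⟨a, ha, b, hb, e⟩ := Subgroup.mem_sup_of_normal_right.1 this
    refine ⟨c0 (q h) * a, by simpa using ha, ?_⟩
    rw [mul_inv_rev, mul_assoc, ← e]; simpa using hb
  have pj' : ∀ h : G, ∃ x, (c0 (q h))⁻¹ * x ∈ A ∧ x⁻¹ * h ∈ A' := fun h => by
    obtain ⟨a, ha, b, hb, e⟩ := Subgroup.mem_sup_of_normal_right.1 (QuotientGroup.eq.1 (hc0 (q h)))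
    refine ⟨c0 (q h) * a, by simpa using ha, ?_⟩
    rw [mul_inv_rev, mul_assoc, ← e]; simpa using hb
  choose f f1 f2 using pj
  choose f' f1' f2' using pj'
  have hr : ∀ x : G, ∃ r, (∃ h ∈ Y, x⁻¹ * h ∈ A) → r ∈ Y ∧ x⁻¹ * r ∈ A := fun x => by
    by_cases e : ∃ h ∈ Y, x⁻¹ * h ∈ A
    · obtain ⟨h, hh⟩ := e; exact ⟨h, fun _ => hh⟩
    · exact ⟨1, fun h => absurd h e⟩
  choose r hr using hr
  have hy : ∀ h : G, ∃ y, h ∈ Y → π' (y * r (f h) * y⁻¹) = π' h := fun h => by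
    by_cases e : h ∈ Y
    · obtain ⟨r1, r2⟩ := hr (f h) ⟨h, e, f2 h⟩
      obtain ⟨y, hy⟩ := hY _ r1 h e (eq.1 ((eq.2 r2).symm.trans (eq.2 (f2 h))))
      exact ⟨y, fun _ => eq'.2 hy⟩
    · exact ⟨1, fun h => absurd h e⟩
  choose y hy using hy
  have hg : ∀ (x : G) (z : G ⧸ A'), ∃ g, (∃ g, π' g = z ∧ Commute (π g) (π x)) →
      π' g = z ∧ Commute (π g) (π x) := fun x z => by
    by_cases e : ∃ g, π' g = z ∧ Commute (π g) (π x)
    · obtain ⟨h, hh⟩ := e; exact ⟨h, fun _ => hh⟩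
    · exact ⟨1, fun h => absurd h e⟩
  choose g0 hg using hg
  have key : ∀ h ∈ Y, ∀ g, h * g = g * h → π' h = π' (g * y h) * π' (r (f h)) * (π' (g * y h))⁻¹ := by
    intro h hh g e
    have : π' h = π' (g * h * g⁻¹) := by rw [← e, mul_inv_cancel_right]
    rw [this, map_mul, map_mul, ← hy h hh]
    simp only [map_mul, map_inv, mul_inv_rev, mul_assoc]
  set T : Set ((G × G) × G) := {t | t.1.1 ∈ A' ∧ (c0 (q t.1.2))⁻¹ * t.1.2 ∈ A' ∧
    t.1.1 * t.1.2 = t.1.2 * t.1.1 ∧ (c0 (q t.2))⁻¹ * t.2 ∈ A ∧ q t.1.2 * q t.2 = q t.2 * q t.1.2}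
  have s1 : cp Y Set.univ ≤ T.ncard := by
    refine Set.ncard_le_ncard_of_injOn (fun p : G × G =>
      (((g0 (f p.1) (π' p.2))⁻¹ * p.2, f p.1), f' (p.2 * y p.1))) ?_ ?_ (Set.toFinite _)
    · rintro ⟨h, g⟩ ⟨hh, -, e⟩
      have c : Commute (π g) (π (f h)) := by
        rw [eq.2 (f2 h)]; exact (show Commute h g from e).symm.map π
      obtain ⟨g1, g2⟩ := hg (f h) (π' g) ⟨g, rfl, c⟩
      have w := eq'.1 g1
      refine ⟨w, by rw [q1 (f2 h)]; exact f1 h, one ?_ ?_, by rw [q2 (f2' _)]; exact f1' _, ?_⟩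
      · simp only [map_mul, map_inv]
        exact (g2.inv_left.mul_left c).eq
      · have : π' ((g0 (f h) (π' g))⁻¹ * g) = 1 := (QuotientGroup.eq_one_iff _).2 w
        rw [map_mul, this, map_mul π' (f h), this, one_mul, mul_one]
      · have k := q2 (eq'.1 ((key h hh g e).trans (by simp only [map_mul, map_inv] :
          _ = π' (g * y h * r (f h) * (g * y h)⁻¹))))
        simp only
        rw [q2 (f2' _), q1 (f2 h)]
        rw [map_mul, map_mul, map_inv, ← q1 (hr (f h) ⟨h, hh, f2 h⟩).2, q1 (f2 h),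
          eq_mul_inv_iff_mul_eq] at k
        exact k
    · rintro ⟨h, g⟩ ⟨hh, -, e⟩ ⟨h', g'⟩ ⟨hh', -, e'⟩ E
      simp only [Prod.mk.injEq] at E
      obtain ⟨⟨E1, E2⟩, E3⟩ := E
      have a : π' (g * y h) = π' (g' * y h') := by
        rw [← eq'.2 (f2' _), E3, eq'.2 (f2' _)]
      obtain rfl : h = h' := one (by rw [← eq.2 (f2 h), E2, eq.2 (f2 h')])
        (by rw [key h hh g e, key h' hh' g' e', a, E2])
      rw [map_mul, map_mul, mul_left_inj] at a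
      rw [a] at E1
      rw [mul_left_cancel E1]
  have s2 := ncard_fib (fun t : (G × G) × G => (q t.1.2, q t.2)) (r := 1)
    (M := kk A' * Nat.card A' * Nat.card A)
    {p : _ × _ | p.1 ∈ Set.univ ∧ p.2 ∈ Set.univ ∧ p.1 * p.2 = p.2 * p.1} (Set.toFinite _) T
    (fun t ht => ⟨trivial, trivial, ht.2.2.2.2⟩) fun v _ => by
      rw [one_mul]
      refine le_trans (Set.ncard_le_ncard (t := {p : G × G | p.1 ∈ (A' : Set G) ∧
        p.2 ∈ {x | (c0 v.1)⁻¹ * x ∈ A'} ∧ p.1 * p.2 = p.2 * p.1} ×ˢ (c0 v.2 • (A : Set G)))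
        ?_ (Set.toFinite _)) ?_
      · rintro t ⟨ht, rfl⟩
        exact ⟨⟨ht.1, ht.2.1, ht.2.2.1⟩, Set.mem_smul_set_iff_inv_smul_mem.2 ht.2.2.2.1⟩
      rw [Set.ncard_prod, Set.ncard_smul_set, ← cp_self]
      refine Nat.mul_le_mul (cp_agree _ _ _ fun a ha b hb => ?_) le_rfl
      simpa using A'.mul_mem (A'.inv_mem ha) hb
  have e2 : {p : (G ⧸ (A ⊔ A')) × (G ⧸ (A ⊔ A')) | p.1 ∈ Set.univ ∧ p.2 ∈ Set.univ ∧
    p.1 * p.2 = p.2 * p.1}.ncard = _ := cp_top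
  rw [one_mul, e2] at s2
  have e3 : Nat.card A' * Nat.card A ≤ Nat.card (A ⊔ A' : Subgroup G) := by
    rw [← Nat.card_prod]
    refine Nat.card_le_card_of_injective (fun p => ⟨p.1 * p.2, mul_mem (Subgroup.mem_sup_right p.1.2)
      (Subgroup.mem_sup_left p.2.2)⟩) fun p p' e => ?_
    have e := congrArg Subtype.val e
    have : (p.1 : G) = p'.1 := one (by
      have := congrArg π e
      rwa [map_mul, map_mul, show π p.2 = 1 from (QuotientGroup.eq_one_iff _).2 p.2.2,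
        show π p'.2 = 1 from (QuotientGroup.eq_one_iff _).2 p'.2.2, mul_one, mul_one] at this)
      (((QuotientGroup.eq_one_iff _).2 p.1.2).trans ((QuotientGroup.eq_one_iff _).2 p'.1.2).symm)
    simp only [this, mul_right_inj] at e
    exact Prod.ext (Subtype.ext this) (Subtype.ext e)
  rw [Subgroup.card_eq_card_quotient_mul_card_subgroup (A ⊔ A')]
  calc _ ≤ _ := s1.trans s2
    _ = kk (G ⧸ (A ⊔ A')) * kk A' * (Nat.card (G ⧸ (A ⊔ A')) * (Nat.card A' * Nat.card A)) := by ring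
    _ ≤ _ := by gcongr

variable {Ω : Type u} [Finite Ω] [MulAction G Ω]

theorem loc {H : Subgroup G} {W : Set Ω} (hi : Inv H W) (ht : Tr H W) (h0 : W.Nonempty) (X : Set G)
    (F : Ω → Set G) (hX : ∀ x ∈ X, ∃ w ∈ W, x ∈ F w)
    (hF : ∀ h ∈ H, ∀ x w, h * x = x * h → x ∈ F w → x ∈ F (h • w)) {M : ℕ}
    (hM : ∀ w ∈ W, cp (H ⊓ stabilizer G w : Subgroup G) (X ∩ F w) ≤
      M * Nat.card (H ⊓ stabilizer G w : Subgroup G)) : cp (H : Set G) X ≤ M * Nat.card H := by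
  classical
  obtain ⟨w0, hw0⟩ := h0
  have : ∀ x, ∃ w, x ∈ X → w ∈ W ∧ x ∈ F w := fun x => by
    by_cases e : x ∈ X
    · obtain ⟨w, h⟩ := hX x e; exact ⟨w, fun _ => h⟩
    · exact ⟨w0, fun h => absurd h e⟩
  choose f hf using this
  have := ncard_fib (fun p : G × G => p.1 • f p.2) (r := W.ncard) (M := M * Nat.card H) W
    (Set.toFinite _) {p : G × G | p.1 ∈ (H : Set G) ∧ p.2 ∈ X ∧ p.1 * p.2 = p.2 * p.1}
    (fun p hp => hi _ hp.1 _ (hf _ hp.2.1).1) fun v hv => by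
      rw [orb_stab hi ht hv, mul_left_comm]
      refine Nat.mul_le_mul_left _ (le_trans ?_ (hM v hv))
      have : ∀ x, ∃ k, (∃ h ∈ H, h * x = x * h ∧ h • f x = v) →
          k ∈ H ∧ k * x = x * k ∧ k • f x = v := fun x => by
        by_cases e : ∃ h ∈ H, h * x = x * h ∧ h • f x = v
        · obtain ⟨h, hh⟩ := e; exact ⟨h, fun _ => hh⟩
        · exact ⟨1, fun h => absurd h e⟩
      choose k hk using this
      refine Set.ncard_le_ncard_of_injOn (fun p => (p.1 * (k p.2)⁻¹, p.2)) ?_ ?_ (Set.toFinite _)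
      · rintro ⟨h, x⟩ ⟨⟨h1, h2, h3⟩, h4⟩
        obtain ⟨k1, k2, k3⟩ := hk x ⟨h, h1, h3, h4⟩
        refine ⟨⟨H.mul_mem h1 (H.inv_mem k1), ?_⟩, ⟨h2, h4 ▸ hF h h1 x _ h3 (hf x h2).2⟩,
          ((show Commute h x from h3).mul_left (show Commute (k x) x from k2).inv_left).eq⟩
        show (h * (k x)⁻¹) • v = v
        rw [mul_smul, inv_smul_eq_iff.2 k3.symm]; exact h4
      · rintro ⟨h, x⟩ - ⟨h', x'⟩ - e
        simp only [Prod.mk.injEq] at e
        obtain ⟨e, rfl⟩ := e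
        rw [mul_right_cancel e]
  exact Nat.le_of_mul_le_mul_left this ((Set.ncard_pos (Set.toFinite _)).2 ⟨w0, hw0⟩)

end H9.Lq
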