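import Cfsg.Agent.H9.Lq2

/-! Imprimitive groups. -/

set_option autoImplicit false
set_option linter.unusedSectionVars false
open MulAction
open scoped Pointwise

namespace H9.Lq
open H9.Lp
universe u
variable {G Ω : Type u} [Group G] [Finite G] [Finite Ω] [MulAction G Ω] {n p : ℕ} {B : ℕ → ℕ}

/-- numerical condition for `m` blocks of size `b` -/
def Imp (B : ℕ → ℕ) (b m t : ℕ) : Prop := B b ^ m * B m ≤ t ∨
  ((∀ a, 1 ≤ a → 2 * a ≤ b → B m * (B b ^ (m - 1) * (B a * B (b - a))) ≤ t) ∧ B (b - 1) ≤ B b ∧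
    B m * (B (b - 1) * B b ^ (m - 1)) + (B b ^ m - B (b - 1) * B b ^ (m - 1)) / m ≤ t)

theorem fix_univ [FaithfulSMul G Ω] : fixingSubgroup G (Set.univ : Set Ω) = ⊥ := by
  rw [eq_bot_iff]
  exact fun g hg => eq_of_smul_eq_smul (α := Ω) fun x => by
    rw [one_smul]; exact (mem_fixingSubgroup_iff G).1 hg x trivial

theorem twist (ih : IH.{u} p B n) (hG : ¬ p ∣ Nat.card G) (K : Subgroup G) [hK : K.Normal]
    {C : Set Ω} {x : G} (h1 : Inv K C) (h2 : Inv K (x • C)) (hn : C.ncard < n) {a : Ω} (ha : a ∈ C)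
    (ht : Tr (K ⊓ fixingSubgroup G (x • C)) C) :
    cp (K : Set G) {y | x⁻¹ * y ∈ K} ≤ B (C.ncard - 1) * B C.ncard *
      kk (K ⊓ fixingSubgroup G C ⊓ fixingSubgroup G (x • C) : Subgroup G) * Nat.card K := by
  set A := (K ⊓ fixingSubgroup G C).subgroupOf K
  set A' := (K ⊓ fixingSubgroup G (x • C)).subgroupOf K
  have nA : A.Normal := Inv.normal h1
  have nA' : A'.Normal := Inv.normal h2
  set π := QuotientGroup.mk' (A ⊓ A')
  have sπ : Function.Surjective π := QuotientGroup.mk'_surjective _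
  have kπ : π.ker = A ⊓ A' := QuotientGroup.ker_mk' _
  have := nA.map π sπ
  have := nA'.map π sπ
  set Y : Set G := {h | h ∈ K ∧ ∃ t, x⁻¹ * t ∈ K ∧ h * t = t * h}
  have s1 : cp (K : Set G) {y | x⁻¹ * y ∈ K} ≤ cp Y K :=
    le_trans (Set.ncard_le_ncard (t := {p : G × G | p.1 ∈ Y ∧ p.2 ∈ {y | x⁻¹ * y ∈ K} ∧
      p.1 * p.2 = p.2 * p.1}) (fun p h => ⟨⟨h.1, p.2, h.2⟩, h.2⟩) (Set.toFinite _))
      (cp_agree _ _ _ fun a ha b hb => by simpa using K.mul_mem (K.inv_mem ha) hb)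
  rw [← cp_coe K (fun h hh => hh.1) le_rfl] at s1
  have s2 := cp_quot π (K.subtype ⁻¹' Y) (K.subtype ⁻¹' K)
  have mm : ∀ {N : Subgroup K} {g : K}, A ⊓ A' ≤ N → π g ∈ N.map π → g ∈ N := fun h hg => by
    rwa [← Subgroup.mem_comap, Subgroup.comap_map_eq, kπ, sup_eq_left.2 h] at hg
  have s3 := ylem (A.map π) (A'.map π) (by
      rw [eq_bot_iff]
      rintro _ ⟨⟨g, hg, rfl⟩, h⟩
      exact (QuotientGroup.eq_one_iff g).2 ⟨hg, mm inf_le_right h⟩) (π '' (K.subtype ⁻¹' Y)) (by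
      rintro _ ⟨h, ⟨-, t, t1, t2⟩, rfl⟩ _ ⟨h', ⟨-, t', t1', t2'⟩, rfl⟩ e
      rw [← map_inv, ← map_mul] at e
      have e := mm inf_le_left e
      have y : t' * t⁻¹ ∈ K := by
        simpa [mul_assoc] using hK.conj_mem _ (K.mul_mem t1' (K.inv_mem t1)) x
      refine ⟨π ⟨_, y⟩, ?_⟩
      rw [← map_inv, ← map_mul, ← map_mul, ← map_inv, ← map_mul]
      refine ⟨_, ⟨Subtype.prop _, (mem_fixingSubgroup_iff G).2 ?_⟩, rfl⟩
      rintro _ ⟨c, hc, rfl⟩
      have t2 : (h : G) * t = t * h := t2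
      have t2' : (h' : G) * t' = t' * h' := t2'
      have q : (t' * t⁻¹ * h * (t' * t⁻¹)⁻¹)⁻¹ * h' = t' * ((h : G)⁻¹ * h') * t'⁻¹ := by
        have a : t⁻¹ * (h : G)⁻¹ * t = (h : G)⁻¹ := by
          rw [mul_assoc, (show Commute (h : G) t from t2).inv_left.eq, inv_mul_cancel_left]
        have b : t'⁻¹ * h' = h' * t'⁻¹ := (show Commute (h' : G) t' from t2').inv_right.eq.symm
        calc _ = t' * (t⁻¹ * (h : G)⁻¹ * t) * (t'⁻¹ * h') := by group
          _ = _ := by rw [a, b]; group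
      show ((t' * t⁻¹ * h * (t' * t⁻¹)⁻¹)⁻¹ * h') • x • c = x • c
      have z : t'⁻¹ • x • c ∈ C := by
        have := h1 _ (K.inv_mem t1') c hc
        rwa [mul_inv_rev, inv_inv, mul_smul] at this
      rw [q, mul_smul, mul_smul]
      exact (congrArg (t' • ·) ((mem_fixingSubgroup_iff G).1 e.2 _ z)).trans (smul_inv_smul _ _))
  have s4 := quot_le ih hG (Set.toFinite _) (h1.mono (inf_le_left (b := fixingSubgroup G (x • C)))) hn
    ((π.subgroupMap A').comp (Subgroup.subgroupOfEquivOfLe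
      (inf_le_left : K ⊓ fixingSubgroup G (x • C) ≤ K)).symm.toMonoidHom)
    ((π.subgroupMap_surjective A').comp (MulEquiv.surjective _)) fun g hg =>
      Subtype.ext ((QuotientGroup.eq_one_iff _).2 ⟨⟨g.2.1, (mem_fixingSubgroup_iff G).2 hg⟩, g.2⟩)
  have s5 := quot_le ih hG (Set.toFinite _) (h1.stab a)
    ((Set.ncard_le_ncard Set.sdiff_subset).trans_lt hn)
    (((QuotientGroup.mk' (A.map π ⊔ A'.map π)).comp π).comp (Subgroup.inclusion inf_le_left))
    (fun e => by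
      obtain ⟨e, rfl⟩ := QuotientGroup.mk'_surjective _ e
      obtain ⟨k, rfl⟩ := sπ e
      obtain ⟨g, hg, e⟩ := ht _ (h1 k k.2 a ha) a ha
      refine ⟨⟨g * k, K.mul_mem hg.1 k.2, (mul_smul _ _ _).trans e⟩, ?_⟩
      show QuotientGroup.mk' _ (π (⟨g, hg.1⟩ * k)) = _
      rw [map_mul, map_mul, show QuotientGroup.mk' (A.map π ⊔ A'.map π) (π ⟨g, hg.1⟩) = 1 from
        (QuotientGroup.eq_one_iff _).2 (Subgroup.mem_sup_right ⟨_, hg, rfl⟩), one_mul])
    fun g hg => (QuotientGroup.eq_one_iff _).2 (Subgroup.mem_sup_left ⟨_, ⟨g.2.1,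
      (mem_fixingSubgroup_iff G).2 fun y hy => by
        by_cases e : y = a
        · rw [e]; exact g.2.2
        · exact hg y ⟨hy, e⟩⟩, rfl⟩)
  rw [Set.ncard_sdiff_singleton_of_mem ha] at s5
  have e1 : kk π.ker = kk (K ⊓ fixingSubgroup G C ⊓ fixingSubgroup G (x • C) : Subgroup G) := by
    rw [← kk_of (K := K) (inf_le_left.trans inf_le_left), kπ]
    congr 2 <;> (ext g; simp [A, A', Subgroup.mem_subgroupOf])
  rw [e1, kπ] at s2
  have s6 := cp_mono (π '' (K.subtype ⁻¹' Y)) (Set.subset_univ (π '' (K.subtype ⁻¹' K)))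
  rw [Subgroup.card_eq_card_quotient_mul_card_subgroup (A ⊓ A')]
  refine s1.trans (s2.trans ((Nat.mul_le_mul_right _ (s6.trans (s3.trans
    (Nat.mul_le_mul_right _ (Nat.mul_le_mul s5 s4))))).trans (le_of_eq (by ring))))

theorem impr [FaithfulSMul G Ω] [IsPretransitive G Ω] (ih : IH.{u} p B (Nat.card Ω))
    (hG : ¬ p ∣ Nat.card G) {C : Set Ω} (hC : IsBlock G C) (h2 : 2 ≤ C.ncard) (hu : C ≠ Set.univ)
    {t : ℕ} (hI : Imp B C.ncard (orbit G C).ncard t) : kk G ≤ t := by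
  have bn : C.Nonempty := (Set.ncard_pos (Set.toFinite _)).1 (by omega)
  have c := hC.ncard_block_mul_ncard_orbit_eq bn
  have bl : C.ncard < Nat.card Ω := by
    rw [← Set.ncard_univ]; exact Set.ncard_lt_ncard ((Set.subset_univ C).ssubset_of_ne hu)
  set b := C.ncard
  set m := (orbit G C).ncard with hm
  have m2 : 2 ≤ m := by nlinarith
  set K := fixingSubgroup G (orbit G C)
  have nK : K.Normal := ⟨fun g hg h => (mem_fixingSubgroup_iff G).2 fun l hl => by
    rw [mul_smul, mul_smul, (mem_fixingSubgroup_iff G).1 hg _ (mem_orbit_of_mem_orbit _ hl),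
      smul_inv_smul]⟩
  have iK : ∀ l ∈ orbit G C, Inv K l := fun l hl g hg y hy =>
    (mem_fixingSubgroup_iff G).1 hg l hl ▸ Set.smul_mem_smul_set hy
  have cl : ∀ l ∈ orbit G C, l.ncard = b := by rintro _ ⟨g, rfl⟩; exact Set.ncard_smul_set _ _
  have sQ := quot_le ih hG (K := ⊤) (Set.toFinite (orbit G C))
    (fun g _ l hl => mem_orbit_of_mem_orbit g hl) (by nlinarith)
    ((QuotientGroup.mk' K).comp (⊤ : Subgroup G).subtype)
    (fun e => by obtain ⟨g, rfl⟩ := QuotientGroup.mk'_surjective K e; exact ⟨⟨g, trivial⟩, rfl⟩)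
    fun g hg => (QuotientGroup.eq_one_iff _).2 ((mem_fixingSubgroup_iff G).2 hg)
  rw [← hm] at sQ
  have rest : ∀ L ≤ K, ∀ F ⊆ orbit G C, (∀ g ∈ L, ∀ l ∈ orbit G C, l ∉ F → ∀ y ∈ l, g • y = y) →
      kk L ≤ B b ^ F.ncard := fun L hL F hF h => by
    have := parts ih hG bl F L fun l hl => ⟨(iK l (hF hl)).mono hL, cl l (hF hl)⟩
    rwa [show L ⊓ fixingSubgroup G (⋃₀ F) = ⊥ by
      rw [eq_bot_iff, ← fix_univ (Ω := Ω)]
      refine fun g hg => (mem_fixingSubgroup_iff G).2 fun y _ => ?_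
      obtain ⟨z, hz⟩ := bn
      obtain ⟨k, rfl⟩ := exists_smul_eq G z y
      by_cases e : k • C ∈ F
      · exact (mem_fixingSubgroup_iff G).1 hg.2 _ ⟨_, e, Set.smul_mem_smul_set hz⟩
      · exact h g hg.1 _ (mem_orbit _ _) e _ (Set.smul_mem_smul_set hz), kk_bot, mul_one] at this
  have rest2 : ∀ l ∈ orbit G C, ∀ l' ∈ orbit G C, l ≠ l' →
      kk (K ⊓ fixingSubgroup G l ⊓ fixingSubgroup G l' : Subgroup G) ≤ B b ^ (m - 2) := by
    intro l hl l' hl' e
    have := rest (K ⊓ fixingSubgroup G l ⊓ fixingSubgroup G l') (inf_le_left.trans inf_le_left)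
      (orbit G C \ {l, l'}) Set.sdiff_subset fun g hg k hk hk' y hy => by
        rcases not_not.1 (fun h => hk' ⟨hk, h⟩) with rfl | rfl
        exacts [(mem_fixingSubgroup_iff G).1 hg.1.2 y hy, (mem_fixingSubgroup_iff G).1 hg.2 y hy]
    rwa [Set.ncard_sdiff (Set.pair_subset hl hl'), Set.ncard_pair e] at this
  have sK := rest K le_rfl _ le_rfl fun _ _ _ h h' => absurd h h'
  have s0 := Cfsg.Agent.S4201.result K
  obtain ⟨k, hk⟩ : ∃ k, m = k + 2 := ⟨m - 2, by omega⟩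
  rcases hI with hI | ⟨I1, I2, I3⟩
  · exact s0.trans ((Nat.mul_le_mul sK sQ).trans hI)
  rw [hk, show k + 2 - 1 = k + 1 from rfl, ← hk] at I1 I3
  rw [show m - 2 = k by omega] at rest2
  by_cases hT : ∀ l ∈ orbit G C, ∀ l' ∈ orbit G C, l ≠ l' → Tr (K ⊓ fixingSubgroup G l) l'
  swap
  · simp only [not_forall] at hT
    obtain ⟨l, hl, l', hl', e, hT⟩ := hT
    have i' := (iK l' hl').mono (inf_le_left (b := fixingSubgroup G l))
    obtain ⟨P, p1, p2, p3, p4⟩ := half (Set.toFinite _) i' hT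
    have p0 := (Set.ncard_pos (Set.toFinite _)).2 p3
    have cc := Set.ncard_sdiff_add_ncard_of_subset p1
    rw [cl l' hl'] at p4 cc
    have a1 := step ih hG (Set.toFinite _) (iK l hl) (by rw [cl l hl]; exact bl)
    have a2 := step ih hG (Set.toFinite _) p2 (by omega)
    have a3 := step ih hG (Set.toFinite _) ((i'.diff p2).mono (inf_le_left (b := fixingSubgroup G P)))
      (by omega)
    rw [inf_assoc _ (fixingSubgroup G P), ← fixingSubgroup_union, Set.union_sdiff_cancel p1,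
      show (l' \ P).ncard = b - P.ncard by omega] at a3
    rw [cl l hl] at a1
    refine s0.trans (le_trans ?_ (I1 _ p0 p4))
    rw [mul_comm]
    refine Nat.mul_le_mul sQ (a1.trans ((Nat.mul_le_mul_left _ (a2.trans (Nat.mul_le_mul_left _
      (a3.trans (Nat.mul_le_mul_left _ (rest2 l hl l' hl' e)))))).trans (le_of_eq (by ring))))
  have s := cosf K (M := B (b - 1) * B b ^ (k + 1)) fun x hx => by
    simp only [K, mem_fixingSubgroup_iff, not_forall] at hx
    obtain ⟨l, hl, e⟩ := hx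
    have hl' := mem_orbit_of_mem_orbit x hl
    obtain ⟨a, ha⟩ := (Set.ncard_pos (Set.toFinite l)).1 (by rw [cl l hl]; omega)
    have := twist ih hG K (iK l hl) (iK _ hl') (by rw [cl l hl]; exact bl) ha (hT _ hl' _ hl e)
    rw [cl l hl] at this
    refine this.trans (Nat.mul_le_mul_right _ ((Nat.mul_le_mul_left _
      (rest2 l hl _ hl' (Ne.symm e))).trans (le_of_eq (by ring))))
  have qm : m ≤ Nat.card (G ⧸ K) := by
    rw [hm, ← MulAction.index_stabilizer]
    exact Nat.le_of_dvd Nat.card_pos (Subgroup.index_dvd_of_le fun g hg =>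
      (mem_fixingSubgroup_iff G).1 hg C (mem_orbit_self C))
  set M := B (b - 1) * B b ^ (k + 1)
  have hM : M ≤ B b ^ m := by rw [hk, pow_succ' _ (k + 1)]; exact Nat.mul_le_mul_right _ I2
  refine le_trans ?_ I3
  by_contra hc
  rw [not_le] at hc
  have d := Nat.lt_mul_div_succ (B b ^ m - M) (show 0 < m by omega)
  set D := (B b ^ m - M) / m
  set q := Nat.card (G ⧸ K)
  have a1 : (B m * M + D + 1) * q ≤ kk G * q := Nat.mul_le_mul_right _ hc
  have a2 : kk (G ⧸ K) * q * M ≤ B m * q * M := by gcongr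
  have a3 : m * (D + 1) ≤ q * (D + 1) := Nat.mul_le_mul_right _ qm
  have a4 : B b ^ m - M + M = B b ^ m := Nat.sub_add_cancel hM
  have a5 : kk K ≤ B b ^ m := sK
  nlinarith

end H9.Lq
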