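import Cfsg.Agent.H9.Lq3

/-! Jordan sets for groups preserving a pairing (or none). -/

set_option autoImplicit false
set_option linter.unusedSectionVars false
open MulAction
open scoped Pointwise

namespace H9.Lq
open H9.Lp
universe u
variable {G Ω : Type u} [Group G] [Finite G] [Finite Ω] [MulAction G Ω] {σ : Ω → Ω} {c : ℕ}
  {H : Subgroup G} {W : Set Ω}

/-- `σ` is the identity (`c = 1`) or a fixed-point-free involution (`c = 2`) commuting with `G` -/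
structure Sg (G : Type u) [Group G] [MulAction G Ω] (σ : Ω → Ω) (c : ℕ) : Prop where
  inv : ∀ x, σ (σ x) = x
  eqv : ∀ (g : G) x, σ (g • x) = g • σ x
  hc : (c = 1 ∧ ∀ x, σ x = x) ∨ (c = 2 ∧ ∀ x, σ x ≠ x)

/-- the pair of a point -/
def pr (σ : Ω → Ω) (a : Ω) : Set Ω := {a, σ a}

/-- closed sets -/
def Cs (σ : Ω → Ω) (S : Set Ω) : Prop := ∀ x ∈ S, σ x ∈ S

/-- primitive on pairs -/
def Pm (σ : Ω → Ω) (c : ℕ) (H : Subgroup G) (W : Set Ω) : Prop :=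
  ∀ B ⊆ W, Cs σ B → (∀ g ∈ H, g • B = B ∨ Disjoint (g • B) B) → B.ncard ≤ c ∨ B = W

/-- proper Jordan sets -/
def JD (c : ℕ) (H : Subgroup G) (W : Set Ω) (s : ℕ) (R : Set Ω) : Prop :=
  R ⊆ W ∧ c < R.ncard ∧ R.ncard + s ≤ W.ncard ∧ Jor H W R

theorem pr_self (a : Ω) : a ∈ pr σ a := Or.inl rfl

theorem Cs.pr_sub {S : Set Ω} (h : Cs σ S) {a : Ω} (ha : a ∈ S) : pr σ a ⊆ S := by
  rintro _ (rfl | rfl); exacts [ha, h a ha]

theorem Cs.union {S T : Set Ω} (h : Cs σ S) (h' : Cs σ T) : Cs σ (S ∪ T) :=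
  fun x hx => hx.imp (h x) (h' x)

theorem JD.smul (hi : Inv H W) {s : ℕ} {R : Set Ω} (h : JD c H W s R) {g : G} (hg : g ∈ H) :
    JD c H W s (g • R) :=
  ⟨by rw [← hi.smul_eq hg]; exact Set.smul_set_mono h.1, by rw [Set.ncard_smul_set]; exact h.2.1,
    by rw [Set.ncard_smul_set]; exact h.2.2.1, h.2.2.2.smul hi hg⟩

theorem JD.max {s : ℕ} {R : Set Ω} (h : JD c H W s R) :
    ∃ R, JD c H W s R ∧ ∀ R', JD c H W s R' → R'.ncard ≤ R.ncard := by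
  obtain ⟨R, h1, h2⟩ := Set.exists_max_image {R | JD c H W s R} Set.ncard (Set.toFinite _) ⟨R, h⟩
  exact ⟨R, h1, h2⟩

namespace Sg
variable (sg : Sg G σ c)
include sg

theorem card (a : Ω) : (pr σ a).ncard = c := by
  rcases sg.hc with ⟨rfl, h⟩ | ⟨rfl, h⟩
  · simp [pr, h]
  · exact Set.ncard_pair (h a).symm

theorem pos : 0 < c := by rcases sg.hc with ⟨rfl, -⟩ | ⟨rfl, -⟩ <;> omega

theorem smul (g : G) (a : Ω) : g • pr σ a = pr σ (g • a) := by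
  rw [pr, pr, sg.eqv, Set.smul_set_insert, Set.smul_set_singleton]

theorem eq {a b : Ω} (h : a ∈ pr σ b) : pr σ a = pr σ b := by
  rcases h with rfl | rfl
  · rfl
  · rw [pr, pr, sg.inv, Set.pair_comm]

theorem fix {g : G} {a : Ω} (h : g • a = a) : ∀ z ∈ pr σ a, g • z = z := by
  rintro _ (rfl | rfl); exacts [h, by rw [← sg.eqv, h]]

theorem cs_pr (a : Ω) : Cs σ (pr σ a) := fun _ hx => sg.eq hx ▸ Or.inr rfl

theorem diff {S T : Set Ω} (h : Cs σ S) (h' : Cs σ T) : Cs σ (S \ T) :=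
  fun x hx => ⟨h x hx.1, fun e => hx.2 (sg.inv x ▸ h' _ e)⟩

theorem cs_smul {S : Set Ω} (h : Cs σ S) (g : G) : Cs σ (g • S) := by
  rintro _ ⟨x, hx, rfl⟩; exact ⟨σ x, h x hx, (sg.eqv g x).symm⟩

theorem mem_im {S : Set Ω} (h : Cs σ S) {a : Ω} : pr σ a ∈ pr σ '' S ↔ a ∈ S :=
  ⟨fun ⟨_, hb, e⟩ => h.pr_sub hb (e ▸ pr_self a), fun ha => ⟨a, ha, rfl⟩⟩

theorem card_im {S : Set Ω} (h : Cs σ S) : S.ncard = c * (pr σ '' S).ncard := by
  classical
  have := Finset.card_mul_eq_card_mul (s := S.toFinite.toFinset)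
    (t := (pr σ '' S).toFinite.toFinset) (fun p l => p ∈ l) (m := 1) (n := c)
    (fun p hp => by
      rw [Set.Finite.mem_toFinset] at hp
      refine Finset.card_eq_one.2 ⟨pr σ p, Finset.eq_singleton_iff_unique_mem.2 ⟨by
        simp only [Finset.mem_bipartiteAbove, Set.Finite.mem_toFinset]
        exact ⟨⟨p, hp, rfl⟩, pr_self p⟩, fun l' h' => ?_⟩⟩
      simp only [Finset.mem_bipartiteAbove, Set.Finite.mem_toFinset] at h'
      obtain ⟨⟨q, -, rfl⟩, e⟩ := h'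
      exact (sg.eq e).symm)
    (fun l hl => by
      rw [Set.Finite.mem_toFinset] at hl
      obtain ⟨q, hq, rfl⟩ := hl
      rw [← sg.card q, ← Set.ncard_coe_finset]
      congr 1
      ext p
      simp only [Finset.mem_coe, Finset.mem_bipartiteBelow, Set.Finite.mem_toFinset]
      exact ⟨fun h => h.2, fun e => ⟨h.pr_sub hq e, e⟩⟩)
  rwa [mul_one, ← Set.ncard_eq_toFinset_card, ← Set.ncard_eq_toFinset_card, mul_comm] at this

theorem smul_im (g : G) (S : Set Ω) : g • pr σ '' S = pr σ '' (g • S) := by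
  ext l
  constructor
  · rintro ⟨_, ⟨x, hx, rfl⟩, rfl⟩; exact ⟨g • x, ⟨x, hx, rfl⟩, (sg.smul g x).symm⟩
  · rintro ⟨_, ⟨x, hx, rfl⟩, rfl⟩; exact ⟨_, ⟨x, hx, rfl⟩, sg.smul g x⟩

theorem card_diff (hW : Cs σ W) {a : Ω} (ha : a ∈ W) : (W \ pr σ a).ncard + c = W.ncard := by
  rw [← sg.card a, Set.ncard_sdiff_add_ncard_of_subset (hW.pr_sub ha)]

theorem jcs (hW : Cs σ W) {s : ℕ} {R : Set Ω} (h : JD c H W s R) : Cs σ R := fun x hx => by
  by_contra e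
  have : R ⊆ {x} := fun y hy => by
    obtain ⟨g, -, e1, e2⟩ := h.2.2.2 x hx y hy
    have := sg.fix (e1 _ (hW x (h.1 hx)) e) _ (Or.inr rfl)
    rw [sg.inv] at this
    exact e2.symm.trans this
  have := Set.ncard_le_ncard this
  have := sg.pos
  have := h.2.1
  rw [Set.ncard_singleton] at *
  omega

theorem prop (hW : Cs σ W) (hi : Inv H W) (hp : Pm σ c H W) {s : ℕ} (hs : 1 ≤ s) {R : Set Ω}
    (h : JD c H W s R) (hm : ∀ R', JD c H W s R' → R'.ncard ≤ R.ncard) {g : G} (hg : g ∈ H) :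
    g • (W \ R) = W \ R ∨ (g • (W \ R) ∩ (W \ R)).ncard < s := by
  have A : ∀ g ∈ H, ¬ Disjoint (g • R) R → (R ∪ g • R).ncard + s ≤ W.ncard → g • R = R := by
    intro g hg hd hc
    have j := h.smul hi hg
    have := hm (R ∪ g • R) ⟨Set.union_subset h.1 j.1,
      h.2.1.trans_le (Set.ncard_le_ncard Set.subset_union_left), hc, h.2.2.2.union j.2.2.2 hd⟩
    have e := Set.eq_of_subset_of_ncard_le Set.subset_union_left this
    exact Set.eq_of_subset_of_ncard_le (Set.subset_union_right.trans e.symm.subset)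
      (by rw [Set.ncard_smul_set])
  have B : ¬ 2 * R.ncard + s ≤ W.ncard := fun hc => by
    rcases hp R h.1 (sg.jcs hW h) (fun g hg => by
      by_cases hd : Disjoint (g • R) R
      · exact Or.inr hd
      · refine Or.inl (A g hg hd ?_)
        have := Set.ncard_union_le R (g • R)
        rw [Set.ncard_smul_set] at this
        omega) with e | e
    · have := h.2.1; omega
    · have := h.2.2.1; rw [e] at this; omega
  have e : g • (W \ R) ∩ (W \ R) = W \ (R ∪ g • R) := by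
    rw [Set.smul_set_sdiff, hi.smul_eq hg]; ext; simp only [Set.mem_inter_iff, Set.mem_sdiff,
      Set.mem_union]; tauto
  have c := Set.ncard_sdiff_add_ncard_of_subset (Set.union_subset h.1 (h.smul hi hg).1)
  by_cases hd : Disjoint (g • R) R
  · right
    rw [Set.ncard_union_eq hd.symm, Set.ncard_smul_set] at c
    rw [e]; omega
  · by_cases hc : (R ∪ g • R).ncard + s ≤ W.ncard
    · left; rw [Set.smul_set_sdiff, hi.smul_eq hg, A g hg hd hc]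
    · right; rw [e]; omega

theorem stab (hi : Inv H W) (a : Ω) : Inv (H ⊓ stabilizer G a) (W \ pr σ a) :=
  (hi.mono inf_le_left).diff fun g hg y hy => by rw [sg.fix hg.2 y hy]; exact hy

theorem fstab (hb : H ⊓ fixingSubgroup G W = ⊥) (a : Ω) :
    H ⊓ stabilizer G a ⊓ fixingSubgroup G (W \ pr σ a) = ⊥ := by
  rw [eq_bot_iff, ← hb]
  refine fun g hg => ⟨hg.1.1, (mem_fixingSubgroup_iff G).2 fun y hy => ?_⟩
  by_cases e : y ∈ pr σ a
  · exact sg.fix hg.1.2 y e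
  · exact (mem_fixingSubgroup_iff G).1 hg.2 y ⟨hy, e⟩

theorem up {a : Ω} {R : Set Ω} (h : Jor (H ⊓ stabilizer G a) (W \ pr σ a) R) : Jor H W R := by
  intro x hx y hy
  obtain ⟨g, hg, e1, e2⟩ := h x hx y hy
  refine ⟨g, hg.1, fun z hz hz' => ?_, e2⟩
  by_cases e : z ∈ pr σ a
  · exact sg.fix hg.2 z e
  · exact e1 z ⟨hz, e⟩ hz'

theorem nj1 (hW : Cs σ W) (hi : Inv H W) (ht : Tr H W) (hp : Pm σ c H W) {a : Ω} (ha : a ∈ W)
    (h2 : ¬ Tr (H ⊓ stabilizer G a) (W \ pr σ a)) :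
    ∀ R ⊆ W \ pr σ a, c < R.ncard → ¬ Jor (H ⊓ stabilizer G a) (W \ pr σ a) R := by
  intro R hR h1 j
  have c0 := sg.card_diff hW ha
  obtain ⟨R, jc, hm⟩ := JD.max (s := c) ⟨hR.trans Set.sdiff_subset, h1,
    by have := Set.ncard_le_ncard hR; omega, sg.up j⟩
  have cc := Set.ncard_sdiff_add_ncard_of_subset jc.1
  have := jc.2.1
  have := jc.2.2.1
  have := sg.pos
  have cU := sg.diff hW (sg.jcs hW jc)
  rcases hp (W \ R) Set.sdiff_subset cU (fun g hg => (sg.prop hW hi hp sg.pos jc hm hg).imp_right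
    fun h => Set.disjoint_left.2 fun x h1 h2 => by
      have := Set.ncard_le_ncard (Set.subset_inter ((sg.cs_smul cU g).pr_sub h1) (cU.pr_sub h2))
      rw [sg.card] at this; omega) with e | e
  · obtain ⟨b, b1⟩ := (Set.ncard_pos (Set.toFinite (W \ R))).1 (by omega)
    have hb := Set.eq_of_subset_of_ncard_le (cU.pr_sub b1) (by rw [sg.card]; exact e)
    obtain ⟨g, hg, e⟩ := ht b b1.1 a ha
    have e2 : W \ g • R = pr σ a := by
      rw [← e, ← sg.smul, hb, Set.smul_set_sdiff, hi.smul_eq hg]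
    have m : ∀ x ∈ W \ pr σ a, x ∈ g • R := fun x hx => by
      by_contra h; exact hx.2 (e2 ▸ ⟨hx.1, h⟩)
    refine h2 fun x hx y hy => ?_
    obtain ⟨k, hk, e3, e4⟩ := jc.2.2.2.smul hi hg x (m x hx) y (m y hy)
    exact ⟨k, ⟨hk, e3 a ha (e2 ▸ pr_self a : a ∈ W \ g • R).2⟩, e4⟩
  · rw [e] at cc; omega

theorem nmem {g : G} {x y : Ω} (h : y ∉ pr σ x) : g • y ∉ pr σ (g • x) := by
  rwa [← sg.smul, Set.smul_mem_smul_set_iff]

theorem two_tr (hi : Inv H W) (ht : Tr H W) {a v : Ω} (ha : a ∈ W)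
    (h2 : Tr (H ⊓ stabilizer G a) (W \ pr σ a)) (hv : v ∈ W \ pr σ a) {x y : Ω} (hx : x ∈ W)
    (hy : y ∈ W) (hxy : y ∉ pr σ x) : ∃ g ∈ H, g • x = a ∧ g • y = v := by
  obtain ⟨g, hg, e⟩ := ht x hx a ha
  obtain ⟨k, hk, e'⟩ := h2 (g • y) ⟨hi g hg y hy, e ▸ sg.nmem hxy⟩ v hv
  exact ⟨k * g, H.mul_mem hk.1 hg, by rw [mul_smul, e]; exact hk.2, by rw [mul_smul, e']⟩

theorem big {S : Set Ω} (h : c < S.ncard) : ∃ x ∈ S, ∃ y ∈ S, y ∉ pr σ x := by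
  obtain ⟨x, hx⟩ := (Set.ncard_pos (Set.toFinite S)).1 (by omega)
  by_contra e
  push Not at e
  have := Set.ncard_le_ncard (e x hx)
  rw [sg.card] at this; omega

theorem pm_of_two (hi : Inv H W) (ht : Tr H W) {a : Ω} (ha : a ∈ W)
    (h2 : Tr (H ⊓ stabilizer G a) (W \ pr σ a)) : Pm σ c H W := by
  intro B hB cB h
  by_contra hc
  rw [not_or, not_le] at hc
  obtain ⟨x, hx, y, hy, hxy⟩ := sg.big hc.1
  obtain ⟨d, c1, c2⟩ := Set.exists_of_ssubset (hB.ssubset_of_ne hc.2)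
  obtain ⟨g, hg, e⟩ := ht x (hB hx) a ha
  have m : ∀ z ∈ W, z ∉ pr σ x → g • z ∈ W \ pr σ a := fun z hz hz' =>
    ⟨hi g hg z hz, e ▸ sg.nmem hz'⟩
  obtain ⟨k, hk, e'⟩ := h2 _ (m y (hB hy) hxy) _ (m d c1 fun h => c2 (cB.pr_sub hx h))
  rcases h (g⁻¹ * k * g) (H.mul_mem (H.mul_mem (H.inv_mem hg) hk.1) hg) with q | q
  · exact c2 (q ▸ ⟨y, hy, by simp only [mul_smul, e', inv_smul_smul]⟩)
  · refine Set.disjoint_left.1 q ⟨x, hx, ?_⟩ hx
    simp only [mul_smul, e, (mem_stabilizer_iff.1 hk.2), inv_smul_eq_iff]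

theorem nj2 (hW : Cs σ W) (hi : Inv H W) (ht : Tr H W) {a v : Ω} (ha : a ∈ W)
    (h2 : Tr (H ⊓ stabilizer G a) (W \ pr σ a)) (hv : v ∈ W \ pr σ a)
    (h3 : ¬ Tr (H ⊓ stabilizer G a ⊓ stabilizer G v) ((W \ pr σ a) \ pr σ v)) :
    (∀ R ⊆ (W \ pr σ a) \ pr σ v, c < R.ncard →
      ¬ Jor (H ⊓ stabilizer G a ⊓ stabilizer G v) ((W \ pr σ a) \ pr σ v) R) ∨
    ∃ U ⊆ W, Cs σ U ∧ Ds H (pr σ '' W) (pr σ '' U) (pr σ a) (pr σ v) ∧ 3 ≤ (pr σ '' U).ncard ∧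
      (pr σ '' U).ncard < (pr σ '' W).ncard := by
  rw [or_iff_not_imp_left]
  intro hJ
  have c1 := sg.card_diff hW ha
  have c2 := sg.card_diff (sg.diff hW (sg.cs_pr a)) hv
  have c0 := sg.pos
  simp only [not_forall, not_not] at hJ
  obtain ⟨R, hR, h1, j⟩ := hJ
  obtain ⟨R, jc, hm⟩ := JD.max (s := 2 * c) ⟨hR.trans (Set.sdiff_subset.trans Set.sdiff_subset), h1,
    by have := Set.ncard_le_ncard hR; omega, sg.up (sg.up j)⟩
  have cc := Set.ncard_sdiff_add_ncard_of_subset jc.1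
  obtain ⟨x, hx, y, hy, hxy⟩ := sg.big (S := W \ R) (by have := jc.2.2.1; omega)
  obtain ⟨g, hg, e1, e2⟩ := sg.two_tr hi ht ha h2 hv hx.1 hy.1 hxy
  have jc' := jc.smul hi hg
  have m : ∀ z ∈ W \ R, g • z ∈ W \ g • R := fun z hz =>
    ⟨hi g hg z hz.1, fun h => hz.2 (Set.smul_mem_smul_set_iff.1 h)⟩
  have aU := e1 ▸ m x hx
  have vU := e2 ▸ m y hy
  have cc' := Set.ncard_sdiff_add_ncard_of_subset jc'.1
  have cU := sg.diff hW (sg.jcs hW jc')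
  have k1 := sg.card_im cU
  have k2 := sg.card_im hW
  refine ⟨W \ g • R, Set.sdiff_subset, cU, ⟨?_, ?_, ?_, Set.image_mono Set.sdiff_subset,
    ⟨a, aU, rfl⟩, ⟨v, vU, rfl⟩, fun e => hv.2 (e ▸ pr_self v), fun k hk => ?_⟩, ?_, ?_⟩
  · rintro k hk _ ⟨z, hz, rfl⟩; exact ⟨_, hi k hk z hz, (sg.smul k z).symm⟩
  · rintro _ ⟨z, hz, rfl⟩ _ ⟨z', hz', rfl⟩
    obtain ⟨k, hk, e⟩ := ht z hz z' hz'
    exact ⟨k, hk, by rw [sg.smul, e]⟩
  · rintro _ ⟨⟨z, hz, rfl⟩, q⟩ _ ⟨⟨z', hz', rfl⟩, q'⟩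
    obtain ⟨k, hk, e⟩ := h2 z ⟨hz, fun h => q (sg.eq h)⟩ z' ⟨hz', fun h => q' (sg.eq h)⟩
    exact ⟨k, ⟨hk.1, (sg.smul k a).trans (congrArg _ hk.2)⟩, by rw [sg.smul, e]⟩
  · rw [sg.smul_im]
    refine (sg.prop hW hi (sg.pm_of_two hi ht ha h2) (by omega) jc'
      (fun R' h => by rw [Set.ncard_smul_set]; exact hm R' h) hk).imp (fun e => by rw [e]) fun e => ?_
    have ci : Cs σ (k • (W \ g • R) ∩ (W \ g • R)) := fun z hz =>
      ⟨sg.cs_smul cU k z hz.1, cU z hz.2⟩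
    rw [sg.card_im ci, mul_comm 2] at e
    refine lt_of_le_of_lt (Set.ncard_le_ncard ?_) (Nat.lt_of_mul_lt_mul_left e)
    rintro _ ⟨⟨z, hz, rfl⟩, h⟩
    exact ⟨z, ⟨hz, (sg.mem_im cU).1 h⟩, rfl⟩
  · by_contra hc
    have e : pr σ a ∪ pr σ v = W \ g • R := Set.eq_of_subset_of_ncard_le
      (Set.union_subset (cU.pr_sub aU) (cU.pr_sub vU)) (by
        rw [Set.ncard_union_eq (Set.disjoint_left.2 fun z h1 h2 => hv.2
          (sg.eq h1 ▸ sg.eq h2 ▸ pr_self v)), sg.card, sg.card, k1]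
        nlinarith)
    have m' : ∀ z ∈ (W \ pr σ a) \ pr σ v, z ∈ g • R := fun z hz => by
      by_contra h
      rcases (e ▸ ⟨hz.1.1, h⟩ : z ∈ pr σ a ∪ pr σ v) with q | q
      exacts [hz.1.2 q, hz.2 q]
    refine h3 fun p hp q hq => ?_
    obtain ⟨k, hk, f1, f2⟩ := jc'.2.2.2 p (m' p hp) q (m' q hq)
    exact ⟨k, ⟨⟨hk, f1 a ha aU.2⟩, f1 v hv.1 vU.2⟩, f2⟩
  · have := jc'.2.1
    exact Nat.lt_of_mul_lt_mul_left (a := c) (by omega)

end Sg
end H9.Lq
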