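import Cfsg.Agent.H9.Lq4

/-! Groups acting on linear spaces. -/

set_option autoImplicit false
set_option linter.unusedSectionVars false
open MulAction
open scoped Pointwise

namespace H9.Lq
open H9.Lp
universe u
variable {G Ω : Type u} [Group G] [Finite G] [Finite Ω] [MulAction G Ω] {σ : Ω → Ω} {c : ℕ}
  {H : Subgroup G} {W U : Set Ω} {a v : Ω}

theorem card_stab (L : Subgroup G) (x : Ω) {S : Set Ω} (h : ∀ g ∈ L, g • x ∈ S) :
    Nat.card L ≤ S.ncard * Nat.card (L ⊓ stabilizer G x : Subgroup G) := by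
  rw [orb_stab (K := L) (W := {z | ∃ g ∈ L, g • x = z}) (v := x) ?_ ?_ ⟨1, L.one_mem, one_smul _ _⟩]
  · refine Nat.mul_le_mul_right _ (Set.ncard_le_ncard ?_)
    rintro _ ⟨g, hg, rfl⟩; exact h g hg
  · rintro g hg _ ⟨g', hg', rfl⟩; exact ⟨g * g', L.mul_mem hg hg', mul_smul _ _ _⟩
  · rintro _ ⟨g, hg, rfl⟩ _ ⟨g', hg', rfl⟩
    exact ⟨g' * g⁻¹, L.mul_mem hg' (L.inv_mem hg), by rw [mul_smul, inv_smul_smul]⟩

theorem cnt2 [FaithfulSMul G Ω] (sg : Sg G σ c) (t : G) (m : ℕ) : ∀ (Z : Set (Set Ω))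
    (L : Subgroup G), Z.ncard = m → (∀ g ∈ L, g * t = t * g ∧ (∀ x, g • x ∈ pr σ x) ∧
      ∀ x, pr σ x ∉ Z → g • x = x) → Nat.card L ≤ c ^ ((m + {l ∈ Z | t • l = l}.ncard) / 2) := by
  induction m using Nat.strong_induction_on with
  | _ m ih =>
  intro Z L hm h
  by_cases h0 : ∀ g ∈ L, ∀ x : Ω, g • x = x
  · have : L = ⊥ := by
      rw [eq_bot_iff]
      exact fun g hg => eq_of_smul_eq_smul (α := Ω) fun x => by rw [one_smul]; exact h0 g hg x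
    rw [this, Subgroup.card_bot]
    exact Nat.one_le_pow _ _ sg.pos
  push Not at h0
  obtain ⟨g0, hg0, x, hx⟩ := h0
  have xZ : pr σ x ∈ Z := by_contra fun e => hx ((h g0 hg0).2.2 x e)
  have tZ : pr σ (t • x) ∈ Z := by_contra fun e => hx (smul_left_cancel t (by
    rw [← mul_smul, ← (h g0 hg0).1, mul_smul, (h g0 hg0).2.2 _ e]))
  have c1 := Set.ncard_sdiff_singleton_add_one xZ
  have k := card_stab L x fun g hg => (h g hg).2.1 x
  rw [sg.card] at k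
  have k2 := ih ((Z \ {pr σ x}) \ {pr σ (t • x)}).ncard
    (by have := Set.ncard_le_ncard (Set.sdiff_subset (s := Z \ {pr σ x}) (t := {pr σ (t • x)}));
        omega) _ (L ⊓ stabilizer G x) rfl fun g hg => ⟨(h g hg.1).1, (h g hg.1).2.1, fun y hy => by
      by_cases e1 : pr σ y = pr σ x
      · exact sg.fix hg.2 y (e1 ▸ pr_self y)
      by_cases e2 : pr σ y = pr σ (t • x)
      · refine sg.fix (a := t • x) ?_ y (e2 ▸ pr_self y)
        rw [← mul_smul, (h g hg.1).1, mul_smul, mem_stabilizer_iff.1 hg.2]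
      exact (h g hg.1).2.2 y fun e => hy ⟨⟨e, e1⟩, e2⟩⟩
  refine k.trans ((Nat.mul_le_mul_left _ k2).trans ?_)
  rw [← pow_succ']
  refine Nat.pow_le_pow_right sg.pos ?_
  by_cases e : pr σ (t • x) = pr σ x
  · have c2 := Set.ncard_sdiff_singleton_add_one
      (show pr σ x ∈ {l ∈ Z | t • l = l} from ⟨xZ, (sg.smul t x).trans e⟩)
    have := Set.ncard_le_ncard (Set.sdiff_subset (s := Z \ {pr σ x}) (t := {pr σ (t • x)}))
    have := Set.ncard_le_ncard (show {l ∈ (Z \ {pr σ x}) \ {pr σ (t • x)} | t • l = l} ⊆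
      {l ∈ Z | t • l = l} \ {pr σ x} from fun l hl => ⟨⟨hl.1.1.1, hl.2⟩, hl.1.1.2⟩)
    omega
  · have c2 := Set.ncard_sdiff_singleton_add_one
      (show pr σ (t • x) ∈ Z \ {pr σ x} from ⟨tZ, e⟩)
    have := Set.ncard_le_ncard (show {l ∈ (Z \ {pr σ x}) \ {pr σ (t • x)} | t • l = l} ⊆
      {l ∈ Z | t • l = l} from fun l hl => ⟨hl.1.1.1, hl.2⟩)
    omega

section
variable (d : Ds H W U a v)
include d

theorem ds_line {x y : Ω} (hx : x ∈ W) (hy : y ∈ W) (hxy : x ≠ y) :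
    ∃ l, Ln H U l ∧ x ∈ l ∧ y ∈ l := by
  obtain ⟨g, hg, e1, e2⟩ := two_tr d.hi d.ht (d.hU d.aU) d.h2 ⟨d.hU d.vU, d.va⟩ hx hy hxy
  have m : ∀ {x : Ω}, g • x ∈ U → x ∈ g⁻¹ • U := fun h => Set.mem_inv_smul_set_iff.2 h
  exact ⟨g⁻¹ • U, ⟨g⁻¹, H.inv_mem hg, rfl⟩, m (e1 ▸ d.aU), m (e2 ▸ d.vU)⟩

theorem ds_fisher (hlt : U.ncard < W.ncard) : U.ncard ≤ (Pc H U v).ncard + 1 := by
  obtain ⟨p, p1, p2⟩ := Set.exists_of_ssubset (d.hU.ssubset_of_ne fun e => by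
    rw [e] at hlt; omega)
  obtain ⟨l, hl, -⟩ := d.ex d.aU ⟨p1, p2⟩
  have : ∀ q, ∃ m, q ∈ l \ {a} → m ∈ Pc H U v ∧ q ∈ m := fun q => by
    by_cases hq : q ∈ l \ {a}
    · obtain ⟨m, h⟩ := d.ex d.vU ⟨d.sub hl.1 hq.1, d.nm d.aU hl hq.1 hq.2⟩
      exact ⟨m, fun _ => h⟩
    · exact ⟨l, fun h => absurd h hq⟩
  choose f hf using this
  have := Set.ncard_le_ncard_of_injOn f (fun q hq => (hf q hq).1) (fun q hq q' hq' e => by
    by_contra ne
    have := d.eq hl.1 (hf q hq).1.1 ne hq.1 hq'.1 (hf q hq).2 (e ▸ (hf q' hq').2)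
    exact d.nm d.aU hl (this ▸ (hf q hq).1.2.1) d.va d.vU) (Set.toFinite _)
  have c := Set.ncard_sdiff_singleton_add_one hl.2.1
  rw [hl.1.card] at c
  omega

theorem ds_sub (h3 : U.ncard = 3) {t : G} (ht : t ∈ H) {p : Ω} (hp : p ∈ W) (e : t • p ≠ p) :
    2 * {x ∈ W | t • x = x}.ncard + 1 ≤ W.ncard := by
  set F := {x ∈ W | t • x = x}
  have : ∀ f, ∃ q l, f ∈ F → Ln H U l ∧ l = {p, f, q} ∧ q ≠ p ∧ q ≠ f := fun f => by
    by_cases hf : f ∈ F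
    · have ne : p ≠ f := fun h => e (h ▸ hf.2)
      obtain ⟨l, hl, h1, h2⟩ := ds_line d hp hf.1 ne
      have c1 := Set.ncard_sdiff_singleton_add_one h1
      have c2 := Set.ncard_sdiff_singleton_add_one (show f ∈ l \ {p} from ⟨h2, ne.symm⟩)
      rw [hl.card] at c1
      obtain ⟨q, hq⟩ := Set.ncard_eq_one.1 (show ((l \ {p}) \ {f}).ncard = 1 by omega)
      have q1 : q ∈ (l \ {p}) \ {f} := hq ▸ rfl
      refine ⟨q, l, fun _ => ⟨hl, Set.Subset.antisymm (fun z hz => ?_) ?_, q1.1.2, q1.2⟩⟩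
      · by_contra h
        simp only [Set.mem_insert_iff, Set.mem_singleton_iff, not_or] at h
        exact h.2.2 (hq ▸ ⟨⟨hz, h.1⟩, h.2.1⟩ : z ∈ ({q} : Set Ω))
      · rintro _ (rfl | rfl | rfl); exacts [h1, h2, q1.1.1]
    · exact ⟨p, ∅, fun h => absurd h hf⟩
  choose q l hq using this
  have m : ∀ f ∈ F, p ∈ l f ∧ f ∈ l f ∧ q f ∈ l f := fun f hf => by
    rw [(hq f hf).2.1]; simp
  have nF : ∀ f ∈ F, q f ∉ F := fun f hf h => by
    obtain ⟨h1, h2, h3, h4⟩ := hq f hf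
    have := d.eq (h1.smul ht) h1 h4 ⟨_, (m f hf).2.2, h.2⟩ ⟨_, (m f hf).2.1, hf.2⟩ (m f hf).2.2
      (m f hf).2.1
    have k : t • p ∈ l f := this ▸ Set.smul_mem_smul_set (m f hf).1
    rw [h2] at k
    rcases k with k | k | k
    · exact e k
    · exact e ((congrArg _ (smul_left_cancel t (k.trans hf.2.symm))).trans
        (hf.2.trans (smul_left_cancel t (k.trans hf.2.symm)).symm))
    · exact h3 (smul_left_cancel t (k.trans h.2.symm)).symm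
  have := Set.ncard_le_ncard_of_injOn (t := (W \ F) \ {p}) q
    (fun f hf => ⟨⟨d.sub (hq f hf).1 (m f hf).2.2, nF f hf⟩, (hq f hf).2.2.1⟩)
    (fun f hf f' hf' e' => by
      have := d.eq (hq f hf).1 (hq f' hf').1 (hq f hf).2.2.1 (m f hf).2.2 (m f hf).1
        (e' ▸ (m f' hf').2.2) (m f' hf').1
      have k : f' ∈ l f := this ▸ (m f' hf').2.1
      rw [(hq f hf).2.1] at k
      rcases k with k | k | k
      · exact absurd (k ▸ hf'.2) e
      · exact k.symm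
      · exact absurd (k ▸ hf') (nF f hf)) (Set.toFinite _)
  have c1 := Set.ncard_sdiff_add_ncard_of_subset (show F ⊆ W from fun x hx => hx.1)
  have c2 := Set.ncard_sdiff_singleton_add_one (show p ∈ W \ F from ⟨hp, fun h => e h.2⟩)
  omega

theorem ds_fix {g : G} (h1 : ∀ l ∈ Pc H U a, g • l = l) (h2 : ∀ l ∈ Pc H U v, g • l = l) {p : Ω}
    (hp : p ∈ W \ U) : g • p = p := by
  obtain ⟨l, hl, pl⟩ := d.ex d.aU hp
  obtain ⟨l', hl', pl'⟩ := d.ex d.vU hp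
  by_contra e
  have q := d.eq hl.1 hl'.1 e (h1 l hl ▸ Set.smul_mem_smul_set pl) pl
    (h2 l' hl' ▸ Set.smul_mem_smul_set pl') pl'
  exact d.nm d.aU hl (q ▸ hl'.2.1) d.va d.vU

theorem ds_orb (h2 : 2 ≤ U.ncard) {L : Subgroup G} (hL : L ≤ H ⊓ stabilizer G a ⊓ stabilizer G v)
    (h1 : ∀ g ∈ L, ∀ l ∈ Pc H U a, g • l = l) {l0 : Set Ω} (h0 : l0 ∈ Pc H U v) :
    {z | ∃ g ∈ L, g • l0 = z}.ncard ≤ U.ncard - 1 := by
  obtain ⟨p, p1, p2⟩ : (l0 \ {v}).Nonempty := by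
    have := Set.ncard_sdiff_singleton_add_one h0.2.1
    rw [h0.1.card] at this
    exact (Set.ncard_pos (Set.toFinite _)).1 (by omega)
  have pU := d.nm d.vU h0 p1 p2
  obtain ⟨l, hl, pl⟩ := d.ex d.aU ⟨d.sub h0.1 p1, pU⟩
  have : ∀ m : Set Ω, ∃ q, m ∈ {z | ∃ g ∈ L, g • l0 = z} → m ∈ Pc H U v ∧ q ∈ m ∧ q ∈ l ∧ q ∉ U :=
    fun m => by
    by_cases hm : m ∈ {z | ∃ g ∈ L, g • l0 = z}
    · obtain ⟨g, hg, e⟩ := hm
      refine ⟨g • p, fun _ => ⟨e ▸ d.invP hL (fun g hg => (hL hg).2) g hg l0 h0,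
        e ▸ Set.smul_mem_smul_set p1, h1 g hg l hl ▸ Set.smul_mem_smul_set pl, fun h => pU ?_⟩⟩
      rwa [← d.fixU (hL hg), Set.smul_mem_smul_set_iff] at h
    · exact ⟨a, fun h => absurd h hm⟩
  choose f hf using this
  have := Set.ncard_le_ncard_of_injOn (t := l \ {a}) f
    (fun m hm => ⟨(hf m hm).2.2.1, fun e => (hf m hm).2.2.2 (e ▸ d.aU)⟩)
    (fun m hm m' hm' e => d.eq (hf m hm).1.1 (hf m' hm').1.1
      (fun h : f m = v => (hf m hm).2.2.2 (h ▸ d.vU)) (hf m hm).2.1 (hf m hm).1.2.1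
      (e ▸ (hf m' hm').2.1) (hf m' hm').1.2.1) (Set.toFinite _)
  have c := Set.ncard_sdiff_singleton_add_one hl.2.1
  rw [hl.1.card] at c
  omega

end
end H9.Lq
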