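import Cfsg.Agent.H9.Lq5

/-! Class numbers of stabilizers in groups acting on linear spaces. -/

set_option autoImplicit false
set_option linter.unusedSectionVars false
open MulAction
open scoped Pointwise

namespace H9.Lq
open H9.Lp
universe u
variable {G Ω : Type u} [Group G] [Finite G] [Finite Ω] [MulAction G Ω] {σ : Ω → Ω} {c n p : ℕ}
  {H : Subgroup G} {B : ℕ → ℕ}

/-- bound for a group fixing a line pointwise -/
def Q (B : ℕ → ℕ) (c j w R : ℕ) : ℕ :=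
  if j = 0 then (if c = 1 then B w * 2 ^ (w / 2) else 2 ^ R + B w * B w * 2 ^ ((R + (w - 2)) / 2))
  else c ^ R * (B w * B w)

theorem kk_le_card (X : Type*) [Group X] [Finite X] : kk X ≤ Nat.card X :=
  Nat.card_le_card_of_surjective _ ConjClasses.mk_surjective

theorem core [FaithfulSMul G Ω] (sg : Sg G σ c) (ih : IH.{u} p B n) (hG : ¬ p ∣ Nat.card G)
    (h0 : B 0 = 1) (h1 : B 1 = 1) (h2 : B 2 = 2) {W U Z : Set (Set Ω)} {a v : Set Ω}
    (d : Ds H W U a v) {j w R : ℕ} (hj : U.ncard = j + 3) (hW : ∀ l ∈ W, ∃ x, pr σ x = l)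
    {L : Subgroup G} (hL : L ≤ H ⊓ stabilizer G a ⊓ stabilizer G v) (hZ : Z ⊆ W \ U)
    (hf : ∀ g ∈ L, ∀ x, pr σ x ∉ Z → g • x = x) {S S' : Set (Set (Set Ω))}
    (hS : ∀ g ∈ L, ∀ l ∈ S, g • l = l) (hS' : ∀ g ∈ L, ∀ l ∈ S', g • l = l)
    (hw : (Pc H U a \ S).ncard = w) (hw' : (Pc H U v \ S').ncard = w) (hn : w < n)
    (hR : Z.ncard = R) (hnum : j = 0 → 2 * R + 3 ≤ W.ncard + 2 * w) : kk L ≤ Q B c j w R := by
  have iW : Inv L W := d.hi.mono fun g hg => (hL hg).1.1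
  have nN := Inv.normal iW
  set N := (L ⊓ fixingSubgroup G W).subgroupOf L
  have fZ : ∀ g ∈ L, ∀ l ∈ W, l ∉ Z → g • l = l := fun g hg l hl h => by
    obtain ⟨x, rfl⟩ := hW l hl
    rw [sg.smul, hf g hg x h]
  have iA : Inv L (Pc H U a \ S) := (d.invP hL fun g hg => (hL hg).1.2).diff fun g hg l hl => by
    rw [hS g hg l hl]; exact hl
  have iA' : Inv L (Pc H U v \ S') := (d.invP hL fun g hg => (hL hg).2).diff fun g hg l hl => by
    rw [hS' g hg l hl]; exact hl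
  have up : ∀ {P T : Set (Set (Set Ω))} {g : G}, (∀ l ∈ T, g • l = l) → (∀ l ∈ P \ T, g • l = l) →
      ∀ l ∈ P, g • l = l := fun {P T g} e1 e2 l hl => by
    by_cases e : l ∈ T
    exacts [e1 l e, e2 l ⟨hl, e⟩]
  have hk : ∀ g ∈ L, (∀ l ∈ Pc H U a \ S, g • l = l) → (∀ l ∈ Pc H U v \ S', g • l = l) →
      g ∈ fixingSubgroup G W := fun g hg e1 e2 => (mem_fixingSubgroup_iff G).2 fun l hl => by
    by_cases e : l ∈ U
    · exact fZ g hg l hl fun h => (hZ h).2 e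
    · exact ds_fix d (up (hS g hg) e1) (up (hS' g hg) e2) ⟨hl, e⟩
  have mN : ∀ g ∈ L ⊓ fixingSubgroup G W, ∀ x, g • x ∈ pr σ x := fun g hg x => by
    by_cases e : pr σ x ∈ W
    · exact (mem_fixingSubgroup_iff G).1 hg.2 _ e ▸ Set.smul_mem_smul_set (pr_self x)
    · rw [hf g hg.1 x fun h => e (hZ h).1]; exact pr_self x
  have cN : ∀ t : L, {g | g ∈ N ∧ g * t = t * g}.ncard ≤
      c ^ ((R + {l ∈ Z | (t : G) • l = l}.ncard) / 2) := fun t => by
    refine le_trans ?_ (cnt2 sg t R Z (L ⊓ fixingSubgroup G W ⊓ Subgroup.centralizer {(t : G)}) hR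
      fun g hg => ⟨(Subgroup.mem_centralizer_singleton_iff.1 hg.2), mN g hg.1, hf g hg.1.1⟩)
    exact Set.ncard_le_ncard_of_injOn Subtype.val (fun g hg => ⟨hg.1,
      Subgroup.mem_centralizer_singleton_iff.2 (congrArg Subtype.val hg.2)⟩)
      Subtype.val_injective.injOn (Set.toFinite _)
  have kN : kk N ≤ c ^ R := by
    have := cN 1
    simp only [mul_one, one_mul, and_true, OneMemClass.coe_one, one_smul] at this
    rw [show {l | l ∈ Z} = Z from rfl, hR, show (R + R) / 2 = R by omega] at this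
    exact (kk_le_card N).trans this
  have kQ := quot2 ih hG (Set.toFinite _) iA (by omega) (Set.toFinite _) iA' (by omega)
    (QuotientGroup.mk' N) (QuotientGroup.mk'_surjective _) fun g e1 e2 =>
      (QuotientGroup.eq_one_iff g).2 ⟨g.2, hk g g.2 e1 e2⟩
  rw [hw, hw'] at kQ
  unfold Q
  split_ifs with j0 c1
  · have s := step ih hG (Set.toFinite _) iA (by omega)
    rw [hw] at s
    refine s.trans (Nat.mul_le_mul_left _ (orb2 ih hG h0 h1 h2 w _ _ hw' (Set.toFinite _)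
      (iA'.mono inf_le_left) hn ?_ fun l hl => ?_))
    · rw [eq_bot_iff]
      refine fun g hg => eq_of_smul_eq_smul (α := Ω) fun x => ?_
      have := mN g ⟨hg.1.1, hk g hg.1.1 ((mem_fixingSubgroup_iff G).1 hg.1.2)
        ((mem_fixingSubgroup_iff G).1 hg.2)⟩ x
      rcases sg.hc with ⟨-, e⟩ | ⟨e, -⟩
      · rw [pr, e, Set.pair_eq_singleton] at this
        rw [one_smul]; exact this
      · omega
    · have := ds_orb d (by omega) (L := L ⊓ fixingSubgroup G (Pc H U a \ S)) (inf_le_left.trans hL)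
        (fun g hg => up (hS g hg.1) ((mem_fixingSubgroup_iff G).1 hg.2)) hl.1
      omega
  · have c2 : c = 2 := by rcases sg.hc with ⟨e, -⟩ | ⟨e, -⟩ <;> omega
    subst c2
    refine (cosf' N (M := 2 ^ ((R + (w - 2)) / 2)) fun t ht => (cN t).trans
      (Nat.pow_le_pow_right two_pos ?_)).trans (add_le_add kN (Nat.mul_le_mul_right _ kQ))
    have : ¬ ∀ l ∈ W, (t : G) • l = l := fun h => ht ⟨t.2, (mem_fixingSubgroup_iff G).2 h⟩
    push Not at this
    obtain ⟨l, hl, e⟩ := this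
    have k := ds_sub d (by omega) (hL t.2).1.1 hl e
    have k1 := Set.ncard_sdiff_add_ncard_of_subset (hZ.trans Set.sdiff_subset)
    have k2 := Set.ncard_union_eq (s := {l ∈ Z | (t : G) • l = l}) (t := W \ Z)
      (Set.disjoint_left.2 fun l h h' => h'.2 h.1)
    have k3 := Set.ncard_le_ncard (show {l ∈ Z | (t : G) • l = l} ∪ W \ Z ⊆
      {x ∈ W | (t : G) • x = x} from fun l h => h.elim (fun h => ⟨(hZ h.1).1, h.2⟩)
        fun h => ⟨h.1, fZ _ t.2 l h.1 h.2⟩)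
    have := hnum j0
    omega
  · exact (Cfsg.Agent.S4201.result N).trans (Nat.mul_le_mul kN kQ)

/-- the class numbers of the point stabilizers add up to at most `s` -/
def Sv (K : Subgroup G) (Z : Set Ω) (s : ℕ) : Prop := ∃ (Z1 : Set Ω) (M1 M2 : ℕ),
  (∀ z ∈ Z ∩ Z1, kk (K ⊓ stabilizer G z : Subgroup G) ≤ M1) ∧
  (∀ z ∈ Z \ Z1, kk (K ⊓ stabilizer G z : Subgroup G) ≤ M2) ∧
  (Z ∩ Z1).ncard * M1 + (Z \ Z1).ncard * M2 ≤ s

/-- design bounds -/
def dl (B : ℕ → ℕ) (c j w : ℕ) : ℕ := B (c * (j + 1)) * Q B c j w (w * (j + 2))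

/-- design bounds -/
def ds (B : ℕ → ℕ) (c j w : ℕ) : ℕ := c * (j + 1) * (B (c * j) * Q B c j w (w * (j + 2))) +
  c * (w * (j + 2)) * (B (c * (j + 1)) * Q B c j (w - 1) (w * (j + 2) - 1))

theorem dsn [FaithfulSMul G Ω] (sg : Sg G σ c) (ih : IH.{u} p B n) (hG : ¬ p ∣ Nat.card G)
    (h0 : B 0 = 1) (h1 : B 1 = 1) (h2 : B 2 = 2) {W U : Set Ω} {a v : Ω} (hW : Cs σ W)
    (cU : Cs σ U) (hb : ∀ g ∈ H, ∀ x ∉ W, g • x = x)
    (d : Ds H (pr σ '' W) (pr σ '' U) (pr σ a) (pr σ v)) (h3 : 3 ≤ (pr σ '' U).ncard)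
    (hlt : (pr σ '' U).ncard < (pr σ '' W).ncard) (hn : W.ncard ≤ n) :
    ∃ j w, j + 2 ≤ w ∧ (pr σ '' W).ncard = (w + 1) * (j + 2) + 1 ∧
      kk (H ⊓ stabilizer G a ⊓ stabilizer G v : Subgroup G) ≤ dl B c j w ∧
      Sv (H ⊓ stabilizer G a ⊓ stabilizer G v) ((W \ pr σ a) \ pr σ v) (ds B c j w) := by
  set K := H ⊓ stabilizer G a ⊓ stabilizer G v
  have hU : U ⊆ W := fun x hx => (sg.mem_im hW).1 (d.hU ⟨x, hx, rfl⟩)
  have aU := (sg.mem_im cU).1 d.aU
  have vU : v ∈ U \ pr σ a := ⟨(sg.mem_im cU).1 d.vU, fun h => d.va (sg.eq h)⟩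
  have kb : K ≤ H ⊓ stabilizer G (pr σ a) ⊓ stabilizer G (pr σ v) := fun g hg =>
    ⟨⟨hg.1.1, (sg.smul g a).trans (congrArg _ hg.1.2)⟩, (sg.smul g v).trans (congrArg _ hg.2)⟩
  have iU : Inv K U := fun g hg x hx => (sg.mem_im cU).1 (by
    rw [← sg.smul, ← d.fixU (kb hg)]; exact Set.smul_mem_smul_set ⟨x, hx, rfl⟩)
  have ip : ∀ {L : Subgroup G} {z : Ω}, L ≤ stabilizer G z → Inv L (pr σ z) := fun h g hg y hy => by
    rw [sg.fix (h hg) y hy]; exact hy
  set A := (U \ pr σ a) \ pr σ v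
  have iA : Inv K A := (iU.diff (ip fun g hg => hg.1.2)).diff (ip fun g hg => hg.2)
  have cA : Cs σ A := sg.diff (sg.diff cU (sg.cs_pr a)) (sg.cs_pr v)
  obtain ⟨j, hj⟩ : ∃ j, (pr σ '' U).ncard = j + 3 := ⟨_, (Nat.sub_add_cancel h3).symm⟩
  have c0 := Set.ncard_sdiff_add_ncard_of_subset d.hU
  have ca := d.count d.aU
  have cv := d.count d.vU
  have fi := ds_fisher d hlt
  rw [hj] at fi c0
  rw [hj, show j + 3 - 1 = j + 2 from rfl] at ca cv
  have ew : (Pc H (pr σ '' U) (pr σ a)).ncard = (Pc H (pr σ '' U) (pr σ v)).ncard :=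
    Nat.eq_of_mul_eq_mul_right (by omega) (ca.symm.trans cv)
  set w := (Pc H (pr σ '' U) (pr σ v)).ncard with hw
  have c1 := sg.card_diff cU aU
  have c2 := sg.card_diff (sg.diff cU (sg.cs_pr a)) vU
  have c3 := sg.card_im cU
  have c4 := sg.card_im hW
  have c5 := Set.ncard_le_ncard hU
  have c6 := Set.ncard_sdiff_add_ncard_of_subset hU
  have cp := sg.pos
  rw [hj] at c3
  have r1 : c * (j + 3) = c * j + 3 * c := by ring
  have r2 : c * (j + 1) = c * j + c := by ring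
  have r3 : (w + 1) * (j + 2) = w * (j + 2) + j + 2 := by ring
  have r4 : w ≤ w * (j + 2) := Nat.le_mul_of_pos_right _ (by omega)
  have r5 : (pr σ '' W).ncard ≤ c * (pr σ '' W).ncard := Nat.le_mul_of_pos_left _ cp
  have r6 : c * (pr σ '' W).ncard = c * (w * (j + 2)) + c * (j + 3) := by rw [← c0, cv]; ring
  have eA : A.ncard = c * (j + 1) := by change A.ncard + c = _ at c2; omega
  have An : A.ncard < n := by change A.ncard + c = _ at c2; omega
  have eW : (pr σ '' W).ncard = (w + 1) * (j + 2) + 1 := by omega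
  have wn : w < n := by omega
  have bl : ∀ l ∈ pr σ '' W, ∃ x, pr σ x = l := fun l ⟨x, _, e⟩ => ⟨x, e⟩
  have fU : ∀ g ∈ K, (∀ x ∈ A, g • x = x) → ∀ x, pr σ x ∉ pr σ '' W \ pr σ '' U → g • x = x := by
    intro g hg e x hx
    by_cases xW : x ∈ W
    · have xU : x ∈ U := by_contra fun h => hx ⟨⟨x, xW, rfl⟩, fun h' => h ((sg.mem_im cU).1 h')⟩
      by_cases e1 : x ∈ pr σ a
      · exact sg.fix hg.1.2 x e1
      by_cases e2 : x ∈ pr σ v
      · exact sg.fix hg.2 x e2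
      exact e x ⟨⟨xU, e1⟩, e2⟩
    · exact hb g hg.1.1 x xW
  have k1 : ∀ L ≤ K, (∀ g ∈ L, ∀ x ∈ A, g • x = x) → kk L ≤ Q B c j w (w * (j + 2)) :=
    fun L hL e => core sg ih hG h0 h1 h2 d hj bl (hL.trans kb) le_rfl
      (fun g hg => fU g (hL hg) (e g hg)) (S := ∅) (S' := ∅) (fun _ _ _ h => h.elim)
      (fun _ _ _ h => h.elim) (by rw [Set.sdiff_empty, ew]) (by rw [Set.sdiff_empty]) wn cv
      fun h => by subst h; omega
  refine ⟨j, w, by omega, eW, ?_, U, B (c * j) * Q B c j w (w * (j + 2)),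
    B (c * (j + 1)) * Q B c j (w - 1) (w * (j + 2) - 1), fun z hz => ?_, fun z hz => ?_, ?_⟩
  · have s := step ih hG (Set.toFinite _) iA An
    rw [eA] at s
    exact s.trans (Nat.mul_le_mul_left _ (k1 _ inf_le_left fun g hg =>
      (mem_fixingSubgroup_iff G).1 hg.2))
  · have zA : z ∈ A := ⟨⟨hz.2, hz.1.1.2⟩, hz.1.2⟩
    have c7 := sg.card_diff cA zA
    have s := step (K := K ⊓ stabilizer G z) ih hG (Set.toFinite _)
      ((iA.mono inf_le_left).diff (ip inf_le_right)) (by omega)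
    rw [show (A \ pr σ z).ncard = c * j by omega] at s
    refine s.trans (Nat.mul_le_mul_left _ (k1 _ (fun g hg => hg.1.1) fun g hg x hx => ?_))
    by_cases e : x ∈ pr σ z
    · exact sg.fix hg.1.2 x e
    · exact (mem_fixingSubgroup_iff G).1 hg.2 x ⟨hx, e⟩
  · have s := step (K := K ⊓ stabilizer G z) ih hG (Set.toFinite _) (iA.mono inf_le_left) An
    rw [eA] at s
    refine s.trans (Nat.mul_le_mul_left _ ?_)
    have zm : pr σ z ∈ pr σ '' W \ pr σ '' U :=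
      ⟨⟨z, hz.1.1.1, rfl⟩, fun h => hz.2 ((sg.mem_im cU).1 h)⟩
    obtain ⟨l, hl, pl⟩ := d.ex d.aU zm
    obtain ⟨l', hl', pl'⟩ := d.ex d.vU zm
    have q1 := Set.ncard_sdiff_singleton_add_one hl
    have q2 := Set.ncard_sdiff_singleton_add_one hl'
    have q3 := Set.ncard_sdiff_singleton_add_one zm
    have fz : ∀ g ∈ K ⊓ stabilizer G z ⊓ fixingSubgroup G A, g • pr σ z = pr σ z := fun g hg =>
      (sg.smul g z).trans (congrArg _ hg.1.2)
    refine core sg ih hG h0 h1 h2 d hj bl (fun g hg => kb hg.1.1)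
      (Z := (pr σ '' W \ pr σ '' U) \ {pr σ z}) Set.sdiff_subset (fun g hg x hx => ?_) (S := {l})
      (S' := {l'}) ?_ ?_ (by omega) (by omega) (by omega) (by omega) fun h => by subst h; omega
    · by_cases e : pr σ x = pr σ z
      · exact sg.fix hg.1.2 x (e ▸ pr_self x)
      · exact fU g hg.1.1 ((mem_fixingSubgroup_iff G).1 hg.2) x fun h => hx ⟨h, e⟩
    · rintro g hg _ rfl
      exact d.eq (hl.1.smul hg.1.1.1.1) hl.1 (fun h : pr σ z = pr σ a => zm.2 (h ▸ d.aU))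
        ⟨_, pl, fz g hg⟩ ⟨_, hl.2.1, (kb hg.1.1).1.2⟩ pl hl.2.1
    · rintro g hg _ rfl
      exact d.eq (hl'.1.smul hg.1.1.1.1) hl'.1 (fun h : pr σ z = pr σ v => zm.2 (h ▸ d.vU))
        ⟨_, pl', fz g hg⟩ ⟨_, hl'.2.1, (kb hg.1.1).2⟩ pl' hl'.2.1
  · refine add_le_add (Nat.mul_le_mul_right _ ?_) (Nat.mul_le_mul_right _ ?_)
    · rw [← eA]
      exact Set.ncard_le_ncard fun z hz => ⟨⟨hz.2, hz.1.1.2⟩, hz.1.2⟩
    · have := Set.ncard_le_ncard (show ((W \ pr σ a) \ pr σ v) \ U ⊆ W \ U from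
        fun z hz => ⟨hz.1.1.1, hz.2⟩)
      omega

end H9.Lq
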