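import Cfsg.Agent.H9.Lq6
import Cfsg.Agent.H9.Lp5

/-! Counting commuting pairs along the cycles of a permutation. -/

set_option autoImplicit false
set_option linter.unusedSectionVars false
open MulAction
open scoped Pointwise

namespace H9.Lq
open H9.Lp
universe u
variable {G Ω : Type u} [Group G] [Finite G] [Finite Ω] [MulAction G Ω] {σ : Ω → Ω} {c n p : ℕ}
  {B : ℕ → ℕ} {T : Set Ω} {a : Ω} {X : Set G}

/-- agree on `T` -/
def Ag (T : Set Ω) (X : Set G) : Prop := ∀ x ∈ X, ∀ y ∈ X, ∀ t ∈ T, x • t = y • t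

/-- map `T` into `S` -/
def Mp (T S : Set Ω) (X : Set G) : Prop := ∀ x ∈ X, ∀ t ∈ T, x • t ∈ S

/-- no fixed pair outside `T` -/
def Der (σ : Ω → Ω) (T : Set Ω) (X : Set G) : Prop := ∀ x ∈ X, ∀ w ∉ T, x • w ∉ pr σ w

/-- transitive on the complement -/
def PP (G : Type u) [Group G] [MulAction G Ω] (T : Set Ω) : Prop :=
  Tᶜ.Nonempty ∧ Tr (fixingSubgroup G T) Tᶜ

/-- bounds for open paths, closed paths and the class number -/
structure Bnd (G : Type u) [Group G] [MulAction G Ω] (σ : Ω → Ω) (T : Set Ω) (b : ℕ × ℕ × ℕ) :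
    Prop where
  op : ∀ a ∉ T, ∀ X : Set G, Ag T X → Mp T (T ∪ pr σ a) X → Der σ T X →
    cp (fixingSubgroup G (T ∪ pr σ a) : Set G) X ≤ b.1 * Nat.card (fixingSubgroup G (T ∪ pr σ a))
  cl : ∀ X : Set G, Ag T X → Mp T T X → Der σ T X →
    cp (fixingSubgroup G T : Set G) X ≤ b.2.1 * Nat.card (fixingSubgroup G T)
  pk : kk (fixingSubgroup G T) ≤ b.2.2

theorem compl_ext (T : Set Ω) (a : Ω) : (T ∪ pr σ a)ᶜ = Tᶜ \ pr σ a := by
  rw [Set.compl_union, Set.sdiff_eq]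

theorem Ag.mem (h : Ag T X) : ∀ x ∈ X, ∀ y ∈ X, x⁻¹ * y ∈ fixingSubgroup G T :=
  fun x hx y hy => (mem_fixingSubgroup_iff G).2 fun t ht => by
    rw [mul_smul, ← h x hx y hy t ht, inv_smul_smul]

theorem Ag.nm (h : Ag T X) (ha : a ∉ T) {x y : G} (hx : x ∈ X) (hy : y ∈ X) : y • a ∉ x • T := by
  rintro ⟨t, ht, e⟩
  have e' : x • t = y • a := e
  rw [h x hx y hy t ht] at e'
  exact ha (smul_left_cancel y e' ▸ ht)

theorem Mp.nm (h : Mp T T X) (ha : a ∉ T) {x : G} (hx : x ∈ X) : x • a ∉ T := fun e => by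
  have : x • T = T := Set.eq_of_subset_of_ncard_le (by rintro _ ⟨t, ht, rfl⟩; exact h x hx t ht)
    (by rw [Set.ncard_smul_set])
  rw [← this, Set.smul_mem_smul_set_iff] at e
  exact ha e

theorem kk_of_cp {K : Subgroup G} {M : ℕ} (h : cp (K : Set G) K ≤ M * Nat.card K) : kk K ≤ M := by
  rw [cp_self] at h
  exact Nat.le_of_mul_le_mul_right h Nat.card_pos

namespace Sg
variable (sg : Sg G σ c)
include sg

theorem fix_ext (T : Set Ω) (a : Ω) :
    fixingSubgroup G (T ∪ pr σ a) = fixingSubgroup G T ⊓ stabilizer G a := by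
  rw [fixingSubgroup_union]
  congr 1
  ext g
  rw [mem_fixingSubgroup_iff]
  exact ⟨fun h => h a (pr_self a), fun h => sg.fix h⟩

theorem cs_compl (h : Cs σ T) : Cs σ Tᶜ := fun x hx e => hx (sg.inv x ▸ h _ e)

theorem card_ext (h : Cs σ T) (ha : a ∉ T) : (T ∪ pr σ a)ᶜ.ncard + c = Tᶜ.ncard := by
  rw [compl_ext]; exact sg.card_diff (sg.cs_compl h) ha

theorem ag_ext (h : Ag T X) {v : Ω} (e : ∀ x ∈ X, x • a = v) : Ag (T ∪ pr σ a) X := by
  rintro x hx y hy t (ht | rfl | rfl)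
  · exact h x hx y hy t ht
  · rw [e x hx, e y hy]
  · rw [← sg.eqv, ← sg.eqv, e x hx, e y hy]

theorem mp_ext {S : Set Ω} (cS : Cs σ S) (h : Mp T S X) (e : ∀ x ∈ X, x • a ∈ S) :
    Mp (T ∪ pr σ a) S X := by
  rintro x hx t (ht | rfl | rfl)
  · exact h x hx t ht
  · exact e x hx
  · rw [← sg.eqv]; exact cS _ (e x hx)

theorem inside (cT : Cs σ T) (ha : a ∉ T) (h : Ag T X) (hm : Mp T (T ∪ pr σ a) X) {K : Set G}
    {M : ℕ} (hM : ∀ Z ⊆ X, Ag (T ∪ pr σ a) Z → Mp (T ∪ pr σ a) (T ∪ pr σ a) Z → cp K Z ≤ M) :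
    cp K (X ∩ {x | x • a ∈ T ∪ pr σ a}) ≤ c * M := by
  rcases X.eq_empty_or_nonempty with rfl | ⟨x, hx⟩
  · simp [cp]
  have c1 : ((T ∪ pr σ a) \ x • T).ncard = c := by
    have s : x • T ⊆ T ∪ pr σ a := by rintro _ ⟨t, ht, rfl⟩; exact hm x hx t ht
    have := Set.ncard_sdiff_add_ncard_of_subset s
    have e := Set.ncard_union_eq (s := T) (t := pr σ a)
      (Set.disjoint_left.2 fun z h1 h2 => (sg.cs_compl cT).pr_sub ha h2 h1)
    rw [Set.ncard_smul_set, e, sg.card] at this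
    omega
  have := cp_fib K (fun g => g • a) (r := 1) (M := M) ((T ∪ pr σ a) \ x • T) (Set.toFinite _)
    (X ∩ {x | x • a ∈ T ∪ pr σ a}) (fun y hy => ⟨hy.2, h.nm ha hx hy.1⟩) fun v _ => by
      rw [one_mul]
      exact hM _ (fun y hy => hy.1.1) (sg.ag_ext (fun y hy z hz => h y hy.1.1 z hz.1.1)
        fun y hy => hy.2) (sg.mp_ext (cT.union (sg.cs_pr a)) (fun y hy => hm y hy.1.1)
        fun y hy => hy.1.2)
  rwa [one_mul, c1] at this

theorem out0 (h : Ag T X) (ho : ∀ x ∈ X, x • a ∉ T ∪ pr σ a) {s : ℕ}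
    (hs : Sv (fixingSubgroup G (T ∪ pr σ a)) (T ∪ pr σ a)ᶜ s) :
    cp (fixingSubgroup G (T ∪ pr σ a) : Set G) X ≤ s * Nat.card (fixingSubgroup G (T ∪ pr σ a)) := by
  set K := fixingSubgroup G (T ∪ pr σ a)
  obtain ⟨Z, M1, M2, h1, h2, h3⟩ := hs
  have k : ∀ (V : Set Ω) (M : ℕ) (Y : Set G), Y ⊆ X → (∀ y ∈ Y, y • a ∈ V) →
      (∀ z ∈ V, kk (K ⊓ stabilizer G z : Subgroup G) ≤ M) →
      cp (K : Set G) Y ≤ V.ncard * (M * Nat.card K) := fun V M Y hY hV hM => by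
    have := cp_fib (K : Set G) (fun g => g • a) (r := 1) (M := M * Nat.card K) V (Set.toFinite _)
      Y hV fun v hv => by
        rw [one_mul]
        refine le_trans ?_ (((cp_agree (K ⊓ stabilizer G v : Subgroup G) {x | x ∈ Y ∧ x • a = v} K
          (sg.ag_ext (fun y hy z hz => h y (hY hy.1) z (hY hz.1)) fun y hy => hy.2).mem).trans
          (cp_sub inf_le_left)).trans (Nat.mul_le_mul_right _ (hM v hv)))
        refine Set.ncard_le_ncard (fun p hp => ⟨⟨hp.1, ?_⟩, hp.2⟩) (Set.toFinite _)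
        show p.1 • v = v
        rw [← hp.2.1.2, ← mul_smul, hp.2.2, mul_smul,
          (mem_fixingSubgroup_iff G).1 hp.1 a (Or.inr (pr_self a))]
    rwa [one_mul] at this
  refine (cp_union _ X {x | x • a ∈ Z}).trans ((add_le_add
    (k _ M1 _ Set.inter_subset_left (fun y hy => by exact ⟨ho y hy.1, hy.2⟩) h1)
    (k _ M2 _ Set.sdiff_subset (fun y hy => by exact ⟨ho y hy.1, hy.2⟩) h2)).trans ?_)
  rw [← mul_assoc, ← mul_assoc, ← add_mul]
  exact Nat.mul_le_mul_right _ h3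

theorem out1 (cT : Cs σ T) (h : Ag T X) (hm : Mp T (T ∪ pr σ a) X) (hd : Der σ T X)
    (ho : ∀ x ∈ X, x • a ∉ T ∪ pr σ a) (hP : PP G (T ∪ pr σ a)) {b : ℕ × ℕ × ℕ}
    (hb : Bnd G σ (T ∪ pr σ a) b) : cp (fixingSubgroup G (T ∪ pr σ a) : Set G) X ≤
      b.1 * Nat.card (fixingSubgroup G (T ∪ pr σ a)) :=
  loc (inv_fix _) hP.2 hP.1 X (fun w => {x | x • a = w}) (fun x hx => ⟨_, ho x hx, rfl⟩)
    (fun g hg x w e hx => by
      show x • a = g • w
      rw [← (hx : x • a = w), ← mul_smul, e, mul_smul,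
        (mem_fixingSubgroup_iff G).1 hg a (Or.inr (pr_self a))]) fun w hw => by
      rw [← sg.fix_ext]
      exact hb.op w hw _ (sg.ag_ext (fun y hy z hz => h y hy.1 z hz.1) fun y hy => hy.2)
        (sg.mp_ext ((cT.union (sg.cs_pr a)).union (sg.cs_pr w))
          (fun y hy t ht => Or.inl (hm y hy.1 t ht)) fun y hy => Or.inr (hy.2 ▸ pr_self _))
        fun y hy z hz => hd y hy.1 z fun e => hz (Or.inl e)

theorem locu (hP : PP G T) {M : ℕ} (h : ∀ a ∉ T, cp (fixingSubgroup G (T ∪ pr σ a) : Set G) X ≤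
    M * Nat.card (fixingSubgroup G (T ∪ pr σ a))) :
    cp (fixingSubgroup G T : Set G) X ≤ M * Nat.card (fixingSubgroup G T) :=
  loc (inv_fix _) hP.2 hP.1 X (fun _ => Set.univ) (fun _ _ => hP.1.imp fun _ h => ⟨h, trivial⟩)
    (fun _ _ _ _ _ _ => trivial) fun w hw => by
      rw [← sg.fix_ext, Set.inter_univ]; exact h w hw

theorem base (cT : Cs σ T) (hP : PP G T) {E E0 : ℕ} (h : ∀ a ∉ T, ∃ l s,
    kk (fixingSubgroup G (T ∪ pr σ a)) ≤ l ∧ Sv (fixingSubgroup G (T ∪ pr σ a)) (T ∪ pr σ a)ᶜ s ∧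
    c * l + s ≤ E ∧ s ≤ E0) : Bnd G σ T (E, E0, E) := by
  have op : ∀ a ∉ T, ∀ X : Set G, Ag T X → Mp T (T ∪ pr σ a) X →
      cp (fixingSubgroup G (T ∪ pr σ a) : Set G) X ≤ E * Nat.card (fixingSubgroup G (T ∪ pr σ a)) := by
    intro a ha X hX hm
    obtain ⟨l, s, h1, h2, h3, -⟩ := h a ha
    refine (cp_union _ X {x | x • a ∈ T ∪ pr σ a}).trans ((add_le_add (sg.inside cT ha hX hm
      (M := l * Nat.card (fixingSubgroup G (T ∪ pr σ a))) fun Z _ hZ _ => (cp_agree _ _ _ hZ.mem).trans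
        ((cp_self _).le.trans (Nat.mul_le_mul_right _ h1)))
      (sg.out0 (fun y hy z hz => hX y hy.1 z hz.1) (fun y hy => hy.2) h2)).trans ?_)
    rw [← mul_assoc, ← add_mul]
    exact Nat.mul_le_mul_right _ h3
  refine ⟨fun a ha X hX hm _ => op a ha X hX hm, fun X hX hm hd => sg.locu hP fun a ha => ?_,
    kk_of_cp (sg.locu hP fun a ha => op a ha _ (fun x hx y hy t ht => ?_) fun x hx t ht => ?_)⟩
  · obtain ⟨l, s, -, h2, -, h4⟩ := h a ha
    exact (sg.out0 hX (fun x hx e => e.elim (hm.nm ha hx) (hd x hx a ha)) h2).trans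
      (Nat.mul_le_mul_right _ h4)
  · rw [(mem_fixingSubgroup_iff G).1 hx t ht, (mem_fixingSubgroup_iff G).1 hy t ht]
  · rw [(mem_fixingSubgroup_iff G).1 hx t ht]; exact Or.inl ht

theorem next (cT : Cs σ T) (hP : PP G T) {b : ℕ × ℕ × ℕ}
    (h : ∀ a ∉ T, PP G (T ∪ pr σ a) ∧ Bnd G σ (T ∪ pr σ a) b) :
    Bnd G σ T (c * b.2.1 + b.1, b.1, c * b.2.2 + b.1) := by
  have cl : ∀ X : Set G, Ag T X → Mp T T X → Der σ T X →
      cp (fixingSubgroup G T : Set G) X ≤ b.1 * Nat.card (fixingSubgroup G T) :=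
    fun X hX hm hd => sg.locu hP fun a ha => sg.out1 cT hX (fun x hx t ht => Or.inl (hm x hx t ht)) hd
      (fun x hx e => e.elim (hm.nm ha hx) (hd x hx a ha)) (h a ha).1 (h a ha).2
  refine ⟨fun a ha X hX hm hd => ?_, cl, kk_of_cp ?_⟩
  · refine (cp_union _ X {x | x • a ∈ T ∪ pr σ a}).trans ((add_le_add (sg.inside cT ha hX hm
      fun Z hZ h1 h2 => (h a ha).2.cl Z h1 h2 fun y hy z hz => hd y (hZ hy) z fun e => hz (Or.inl e))
      (sg.out1 cT (fun y hy z hz => hX y hy.1 z hz.1) (fun y hy => hm y hy.1) (fun y hy => hd y hy.1)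
        (fun y hy => hy.2) (h a ha).1 (h a ha).2)).trans (le_of_eq (by ring)))
  have ag : ∀ Z ⊆ (fixingSubgroup G T : Set G), Ag T Z := fun Z hZ x hx y hy t ht => by
    rw [(mem_fixingSubgroup_iff G).1 (hZ hx) t ht, (mem_fixingSubgroup_iff G).1 (hZ hy) t ht]
  have mp : ∀ Z ⊆ (fixingSubgroup G T : Set G), Mp T T Z := fun Z hZ x hx t ht => by
    rw [(mem_fixingSubgroup_iff G).1 (hZ hx) t ht]; exact ht
  refine (cp_union _ _ {x | ∃ w ∉ T, x • w ∈ pr σ w}).trans ((add_le_add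
    (loc (M := c * b.2.2) (inv_fix _) hP.2 hP.1 _ (fun w => {x | x • w ∈ pr σ w}) (fun x hx => hx.2)
      (fun g _ x w e hx => ?_) fun w hw => ?_)
    (cl _ (ag _ Set.sdiff_subset) (mp _ Set.sdiff_subset) fun x hx w hw e => hx.2 (by exact ⟨w, hw, e⟩))).trans
    (le_of_eq (by ring)))
  · show x • g • w ∈ pr σ (g • w)
    rw [← mul_smul, ← e, mul_smul, ← sg.smul]
    exact Set.smul_mem_smul_set hx
  · rw [← sg.fix_ext, mul_assoc]
    refine (cp_mono _ fun x hx => ?_).trans (sg.inside cT hw (ag _ le_rfl)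
      (fun x hx t ht => Or.inl (mp _ le_rfl x hx t ht)) fun Z _ hZ _ =>
        (cp_agree _ _ _ hZ.mem).trans ((cp_self _).le.trans (Nat.mul_le_mul_right _ (h w hw).2.pk)))
    exact ⟨hx.1.1, Or.inr hx.2⟩

end Sg
end H9.Lq
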