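import Cfsg.Agent.H9.Lq7

/-! The chain of transitive pointwise stabilizers. -/

set_option autoImplicit false
set_option linter.unusedSectionVars false
open MulAction
open scoped Pointwise Nat

namespace H9.Lq
open H9.Lp
universe u
variable {G Ω : Type u} [Group G] [Finite G] [Finite Ω] [MulAction G Ω] {σ : Ω → Ω} {c n p : ℕ}
  {B J E E0 : ℕ → ℕ} {T : Set Ω} {a : Ω}

/-- remaining length of the chain -/
def Dist (G : Type u) [Group G] [MulAction G Ω] (σ : Ω → Ω) : ℕ → Set Ω → Prop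
  | 0, T => PP G T ∧ ∀ a ∉ T, ¬ PP G (T ∪ pr σ a)
  | r + 1, T => PP G T ∧ ∀ a ∉ T, Dist G σ r (T ∪ pr σ a)

/-- recursion for the bounds -/
def ch (c e e0 : ℕ) : ℕ → ℕ × ℕ × ℕ
  | 0 => (e, e0, e)
  | r + 1 => (c * (ch c e e0 r).2.1 + (ch c e e0 r).1, (ch c e e0 r).1,
      c * (ch c e e0 r).2.2 + (ch c e e0 r).1)

/-- bound without Jordan sets -/
def ns (J : ℕ → ℕ) (c y : ℕ) : ℕ := c * (y - 1) * J (c * (y - 2))

theorem Dist.pp {r : ℕ} (h : Dist G σ r T) : PP G T := by cases r <;> exact h.1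

theorem PP.smul (h : PP G T) (g : G) : PP G (g • T) := by
  rw [PP, ← Set.smul_set_compl]
  refine ⟨h.1.smul_set, ?_⟩
  rintro _ ⟨x, hx, rfl⟩ _ ⟨y, hy, rfl⟩
  obtain ⟨k, hk, e⟩ := h.2 x hx y hy
  refine ⟨g * k * g⁻¹, (mem_fixingSubgroup_iff G).2 ?_, by simp only [mul_smul, inv_smul_smul, e]⟩
  rintro _ ⟨t, ht, rfl⟩
  simp only [mul_smul, inv_smul_smul, (mem_fixingSubgroup_iff G).1 hk t ht]

theorem fix_compl [FaithfulSMul G Ω] (T : Set Ω) :
    fixingSubgroup G T ⊓ fixingSubgroup G Tᶜ = ⊥ := by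
  rw [← fixingSubgroup_union, Set.union_compl_self, fix_univ]

namespace Sg
variable (sg : Sg G σ c)
include sg

theorem smul_ext (g : G) (T : Set Ω) (a : Ω) : g • (T ∪ pr σ a) = g • T ∪ pr σ (g • a) := by
  rw [Set.smul_set_union, sg.smul]

theorem dist_smul (r : ℕ) : ∀ (T : Set Ω) (g : G), Dist G σ r T → Dist G σ r (g • T) := by
  induction r with
  | zero =>
    refine fun T g h => ⟨h.1.smul g, fun a ha e => h.2 (g⁻¹ • a)
      (fun h => ha (Set.mem_smul_set_iff_inv_smul_mem.2 h)) ?_⟩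
    have := e.smul g⁻¹
    rwa [sg.smul_ext, inv_smul_smul] at this
  | succ r ih =>
    refine fun T g h => ⟨h.1.smul g, fun a ha => ?_⟩
    have := ih _ g (h.2 (g⁻¹ • a) fun h => ha (Set.mem_smul_set_iff_inv_smul_mem.2 h))
    rwa [sg.smul_ext, smul_inv_smul] at this

theorem dist_ex (m : ℕ) : ∀ T : Set Ω, Tᶜ.ncard = m → Cs σ T → PP G T → ∃ r, Dist G σ r T := by
  induction m using Nat.strong_induction_on with
  | _ m ih =>
  intro T hm cT hP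
  by_cases h : ∀ a ∉ T, ¬ PP G (T ∪ pr σ a)
  · exact ⟨0, hP, h⟩
  push Not at h
  obtain ⟨a, ha, h⟩ := h
  obtain ⟨r, hr⟩ := ih _ (by have := sg.card_ext cT ha; have := sg.pos; omega) _ rfl
    (cT.union (sg.cs_pr a)) h
  refine ⟨r + 1, hP, fun b hb => ?_⟩
  obtain ⟨g, hg, e⟩ := hP.2 a ha b hb
  have := sg.dist_smul r _ g hr
  rwa [sg.smul_ext, e, (show Inv (fixingSubgroup G T) T from fun g hg t ht => by
    rw [(mem_fixingSubgroup_iff G).1 hg t ht]; exact ht).smul_eq hg] at this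

theorem card_fix (hP : PP G T) (ha : a ∉ T) : Nat.card (fixingSubgroup G T) =
    Tᶜ.ncard * Nat.card (fixingSubgroup G (T ∪ pr σ a)) := by
  rw [sg.fix_ext]; exact orb_stab (inv_fix T) hP.2 ha

theorem dist_cond (hG : ¬ p ∣ Nat.card G) (r : ℕ) : ∀ (T : Set Ω) (m : ℕ), Cs σ T → Dist G σ r T →
    Tᶜ.ncard = c * m → (c = 1 → 2 * Nat.card (fixingSubgroup G T) < m !) →
    ∃ y, m = y + r ∧ 1 ≤ y ∧ (∀ j ≤ r, ¬ p ∣ y + j) ∧ (c = 1 → 4 ≤ y) := by
  have key : ∀ (T : Set Ω) (m : ℕ), PP G T → Tᶜ.ncard = c * m → 1 ≤ m ∧ ¬ p ∣ m := by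
    intro T m hP hm
    obtain ⟨a, ha⟩ := hP.1
    have := (Set.ncard_pos (Set.toFinite _)).2 hP.1
    refine ⟨Nat.pos_of_ne_zero fun h => by rw [h] at hm; omega, fun h => hG ?_⟩
    refine Dvd.dvd.trans ?_ (fixingSubgroup G T).card_subgroup_dvd_card
    rw [sg.card_fix hP ha, hm]
    exact (h.mul_left c).mul_right _
  induction r with
  | zero =>
    intro T m _ h hm hA
    obtain ⟨h1, h2⟩ := key T m h.1 hm
    refine ⟨m, rfl, h1, fun j hj => by rwa [Nat.le_zero.1 hj], fun c1 => ?_⟩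
    obtain ⟨a, ha⟩ := h.1.1
    have := hA c1
    rw [sg.card_fix h.1 ha, hm, c1, one_mul] at this
    have p0 : 0 < Nat.card (fixingSubgroup G (T ∪ pr σ a)) := Nat.card_pos
    by_contra hc
    obtain rfl | rfl | rfl : m = 1 ∨ m = 2 ∨ m = 3 := by omega
    all_goals simp [Nat.factorial] at this; omega
  | succ r ih =>
    intro T m cT h hm hA
    obtain ⟨h1, h2⟩ := key T m h.1 hm
    obtain ⟨a, ha⟩ := h.1.1
    obtain ⟨m, rfl⟩ : ∃ k, m = k + 1 := ⟨m - 1, by omega⟩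
    have c1 := sg.card_ext cT ha
    obtain ⟨y, rfl, y1, y2, y3⟩ := ih _ m (cT.union (sg.cs_pr a)) (h.2 a ha)
      (by rw [mul_add] at hm; omega) fun e => by
        have := hA e
        rw [sg.card_fix h.1 ha, hm, e, one_mul, Nat.factorial_succ, mul_left_comm] at this
        exact Nat.lt_of_mul_lt_mul_left this
    refine ⟨y, rfl, y1, fun j hj => ?_, y3⟩
    rcases Nat.le_succ_iff.1 hj with e | rfl
    exacts [y2 j e, h2]

variable [FaithfulSMul G Ω] (ih : IH.{u} p B (Nat.card Ω)) (hG : ¬ p ∣ Nat.card G)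
  (h0 : ∀ x ≤ c, B x ≤ J x) (hJ : ∀ a x, 1 ≤ a → 2 * a ≤ x → B a * J (x - a) ≤ J x)
include ih hG h0 hJ

theorem njb (cT : Cs σ T) (ha : a ∉ T) {y : ℕ} (hy : Tᶜ.ncard = c * y)
    (hj : ∀ R ⊆ (T ∪ pr σ a)ᶜ, c < R.ncard →
      ¬ Jor (fixingSubgroup G (T ∪ pr σ a)) (T ∪ pr σ a)ᶜ R) :
    kk (fixingSubgroup G (T ∪ pr σ a)) ≤ J (c * (y - 1)) ∧
      Sv (fixingSubgroup G (T ∪ pr σ a)) (T ∪ pr σ a)ᶜ (ns J c y) := by
  have c1 := sg.card_ext cT ha
  have c2 := Set.ncard_le_ncard (Set.subset_univ Tᶜ)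
  have := sg.pos
  rw [Set.ncard_univ] at c2
  have e : (T ∪ pr σ a)ᶜ.ncard = c * (y - 1) := by rw [Nat.mul_sub_one]; omega
  refine ⟨jlem ih hG h0 hJ _ _ _ e (Set.toFinite _) (inv_fix _) (by omega) (fix_compl _) hj,
    ∅, 0, J (c * (y - 2)), fun z hz => hz.2.elim, fun z hz => ?_, by
      rw [Set.sdiff_empty, e, mul_zero, zero_add, ns]⟩
  have c3 := sg.card_diff (sg.cs_compl (cT.union (sg.cs_pr a))) hz.1
  exact jlem ih hG h0 hJ _ _ ((T ∪ pr σ a)ᶜ \ pr σ z)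
    (by rw [show y - 2 = y - 1 - 1 from rfl, Nat.mul_sub_one]; omega) (Set.toFinite _)
    (sg.stab (inv_fix _) z) (by rw [show y - 2 = y - 1 - 1 from rfl, Nat.mul_sub_one]; omega)
    (sg.fstab (fix_compl _) z) fun R hR hc j => hj R (hR.trans Set.sdiff_subset) hc (sg.up j)

variable (b0 : B 0 = 1) (b1 : B 1 = 1) (b2 : B 2 = 2)
  (hn : ∀ y, c * J (c * (y - 1)) + ns J c y ≤ E y ∧ ns J c y ≤ E0 y)
  (hd : ∀ j w, j + 2 ≤ w → c * dl B c j w + ds B c j w ≤ E ((w + 1) * (j + 2)) ∧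
    ds B c j w ≤ E0 ((w + 1) * (j + 2)))
include b0 b1 b2 hn hd

theorem lev (r : ℕ) : ∀ (T : Set Ω) (a : Ω) (y : ℕ), Cs σ T → a ∉ T → PP G T →
    Dist G σ r (T ∪ pr σ a) → (T ∪ pr σ a)ᶜ.ncard = c * (y + r) →
    Bnd G σ (T ∪ pr σ a) (ch c (E y) (E0 y) r) := by
  induction r with
  | succ r ih' =>
    intro T a y cT ha hP h hy
    have cT' := cT.union (sg.cs_pr a)
    refine sg.next cT' h.1 fun v hv => ⟨(h.2 v hv).pp, ih' _ v y cT' hv h.1 (h.2 v hv) ?_⟩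
    have := sg.card_ext cT' hv
    rw [← add_assoc, mul_add] at hy
    omega
  | zero =>
  intro T a y cT ha hP h hy
  have cT' := cT.union (sg.cs_pr a)
  refine sg.base cT' h.1 fun v hv => ?_
  have nj := fun hj => sg.njb ih hG h0 hJ cT' hv hy hj
  by_cases e : (T ∪ pr σ a ∪ pr σ v)ᶜ.Nonempty
  swap
  · rw [Set.not_nonempty_iff_eq_empty] at e
    have := nj fun R hR hc _ => by
      rw [e, Set.subset_empty_iff] at hR
      rw [hR, Set.ncard_empty] at hc; omega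
    exact ⟨_, _, this.1, this.2, hn y⟩
  have h3 : ¬ Tr _ _ := fun t => h.2 v hv ⟨e, t⟩
  have h2 := h.1.2
  rw [sg.fix_ext, sg.fix_ext, compl_ext, compl_ext] at h3 nj ⊢
  rw [sg.fix_ext, compl_ext] at h2
  rcases sg.nj2 (sg.cs_compl cT) (inv_fix T) hP.2 ha h2 (by rwa [← compl_ext]) h3 with
    hj | ⟨U, -, cU, d, k1, k2⟩
  · exact ⟨_, _, (nj hj).1, (nj hj).2, hn y⟩
  obtain ⟨j, w, e1, e2, e3, e4⟩ := dsn sg ih hG b0 b1 b2 (sg.cs_compl cT) cU
    (fun g hg x hx => (mem_fixingSubgroup_iff G).1 hg x (not_not.1 hx)) d k1 k2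
    (by rw [← Set.ncard_univ]; exact Set.ncard_le_ncard (Set.subset_univ _))
  have c1 := sg.card_ext cT ha
  rw [sg.card_im (sg.cs_compl cT), e2, hy, add_zero, mul_add, mul_one] at c1
  obtain rfl : y = (w + 1) * (j + 2) := Nat.eq_of_mul_eq_mul_left sg.pos (by omega)
  exact ⟨_, _, e3, e4, hd j w e1⟩

theorem chain [Nonempty Ω] (ht : Tr (⊤ : Subgroup G) (Set.univ : Set Ω))
    (hp : Pm σ c (⊤ : Subgroup G) Set.univ) {m t : ℕ} (hm : Nat.card Ω = c * m)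
    (hA : c = 1 → 2 * Nat.card G < m !)
    (t0 : ¬ p ∣ m → (c = 1 → 4 ≤ m) → c * J (c * (m - 1)) + ns J c m ≤ t)
    (t1 : ∀ y r, m = y + (r + 1) → 1 ≤ y → (∀ j ≤ r + 1, ¬ p ∣ y + j) → (c = 1 → 4 ≤ y) →
      (ch c (E y) (E0 y) (r + 1)).2.2 ≤ t) : kk G ≤ t := by
  have c0 : Cs σ (∅ : Set Ω) := fun _ h => h.elim
  have e0 : (∅ : Set Ω)ᶜ.ncard = c * m := by rw [Set.compl_empty, Set.ncard_univ, hm]
  have hP : PP G (∅ : Set Ω) := by
    rw [PP, fixingSubgroup_empty, Set.compl_empty]; exact ⟨Set.univ_nonempty, ht⟩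
  obtain ⟨r, hr⟩ := sg.dist_ex _ ∅ rfl c0 hP
  obtain ⟨y, rfl, y1, y2, y3⟩ := sg.dist_cond hG r ∅ m c0 hr e0 (by
    rwa [fixingSubgroup_empty, Subgroup.card_top])
  rw [← kk_congr Subgroup.topEquiv, ← fixingSubgroup_empty G Ω]
  cases r with
  | succ r =>
    refine (sg.next c0 hP fun a ha => ⟨(hr.2 a ha).pp, sg.lev ih hG h0 hJ b0 b1 b2 hn hd r ∅ a y c0
      ha hP (hr.2 a ha) ?_⟩).pk.trans (t1 y r rfl y1 y2 y3)
    have := sg.card_ext c0 ha
    rw [← add_assoc, mul_add] at e0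
    omega
  | zero =>
  refine (sg.base c0 hP (E0 := ns J c y) fun a ha => ?_).pk.trans (t0 (y2 0 le_rfl) y3)
  have nj := fun hj => sg.njb ih hG h0 hJ c0 ha e0 hj
  refine ⟨_, _, (nj ?_).1, (nj ?_).2, le_rfl, le_rfl⟩
  all_goals
    by_cases e : (∅ ∪ pr σ a)ᶜ.Nonempty
    · have h3 : ¬ Tr _ _ := fun t => hr.2 a ha ⟨e, t⟩
      rw [sg.fix_ext, compl_ext, fixingSubgroup_empty, Set.compl_empty] at h3 ⊢
      exact sg.nj1 (W := Set.univ) (fun _ _ => trivial) (fun _ _ _ _ => trivial) ht hp trivial h3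
    · rw [Set.not_nonempty_iff_eq_empty] at e
      intro R hR hc _
      rw [e, Set.subset_empty_iff] at hR
      rw [hR, Set.ncard_empty] at hc; omega

end Sg
end H9.Lq
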