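import Cfsg.Agent.H9.Lq8

/-! Symmetric and alternating groups of degree at most 6; blocks of size 2. -/

set_option autoImplicit false
set_option linter.unusedSectionVars false
open MulAction
open scoped Pointwise Nat

namespace H9.Lq
open H9.Lp
universe u

/-- cycle types in degree at most 6 -/
def cts : Finset (Multiset ℕ) :=
  {0, {2}, {3}, {4}, {5}, {6}, {2, 2}, {2, 3}, {2, 4}, {3, 3}, {2, 2, 2}}

theorem mem_cts (m : Multiset ℕ) (h : ∀ x ∈ m, 2 ≤ x) (hs : m.sum ≤ 6) : m ∈ cts := by
  have := Multiset.card_nsmul_le_sum h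
  rw [smul_eq_mul] at this
  obtain e | e | e | e : m.card = 0 ∨ m.card = 1 ∨ m.card = 2 ∨ m.card = 3 := by omega
  · rw [Multiset.card_eq_zero.1 e]; decide
  · obtain ⟨a, rfl⟩ := Multiset.card_eq_one.1 e
    simp at h hs
    interval_cases a <;> decide
  · obtain ⟨a, b, rfl⟩ := Multiset.card_eq_two.1 e
    simp at h hs
    obtain ⟨h1, h2⟩ := h
    have : a ≤ 4 := by omega
    have : b ≤ 4 := by omega
    interval_cases a <;> interval_cases b <;> first | omega | decide
  · obtain ⟨a, b, c, rfl⟩ := Multiset.card_eq_three.1 e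
    simp at h hs
    obtain rfl : a = 2 := by omega
    obtain rfl : b = 2 := by omega
    obtain rfl : c = 2 := by omega
    decide

/-- class numbers of small symmetric groups -/
def seed (n : ℕ) : ℕ := [1, 1, 2, 3, 5, 7, 11].getD n 0

section
variable {α : Type u} [Fintype α] [DecidableEq α]

theorem ct_mem (h : Fintype.card α ≤ 6) (g : Equiv.Perm α) :
    g.cycleType ∈ cts ∧ g.cycleType.sum ≤ Fintype.card α :=
  ⟨mem_cts _ (fun _ => Equiv.Perm.two_le_of_mem_cycleType) (g.sum_cycleType_le.trans h),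
    g.sum_cycleType_le⟩

theorem kk_sym (h : Fintype.card α ≤ 6) : kk (Equiv.Perm α) ≤ seed (Fintype.card α) := by
  choose f hf using ConjClasses.mk_surjective (α := Equiv.Perm α)
  have := Set.ncard_le_ncard_of_injOn (s := Set.univ)
    (t := (cts.filter fun m => m.sum ≤ Fintype.card α : Finset _)) (fun c => (f c).cycleType)
    (fun c _ => Finset.mem_filter.2 (ct_mem h _)) (fun c _ c' _ e => by
      rw [← hf c, ← hf c']
      exact ConjClasses.mk_eq_mk_iff_isConj.2 (Equiv.Perm.isConj_iff_cycleType_eq.2 e))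
    (Finset.finite_toSet _)
  rw [Set.ncard_univ, Set.ncard_coe_finset] at this
  refine this.trans ?_
  generalize Fintype.card α = n at h
  interval_cases n <;> decide

theorem kk_alt (h : Fintype.card α ≤ 6) : kk (alternatingGroup α) ≤ seed (Fintype.card α) := by
  choose f hf using ConjClasses.mk_surjective (α := alternatingGroup α)
  have cj : ∀ {c c'} {g : Equiv.Perm α}, g * f c * g⁻¹ = f c' → Equiv.Perm.sign g = 1 → c = c' :=
    fun {c c' g} e s => by
      rw [← hf c, ← hf c']
      exact ConjClasses.mk_eq_mk_iff_isConj.2 (isConj_iff.2 ⟨⟨g, s⟩, Subtype.ext e⟩)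
  have := ncard_fib (fun c => (f c).1.cycleType) (r := 1) (M := 2)
    (cts.filter fun m => m ≠ 0 ∧ m.sum ≤ Fintype.card α ∧ Even (m.sum + m.card) : Finset _)
    (Finset.finite_toSet _) (Set.univ \ {ConjClasses.mk 1})
    (fun c hc => Finset.mem_filter.2 ⟨(ct_mem h _).1, fun e => hc.2 (by
      rw [← hf c, show f c = 1 from Subtype.ext (Equiv.Perm.cycleType_eq_zero.1 e)]; rfl),
      (ct_mem h _).2, by
        have := (f c).2
        rw [Equiv.Perm.mem_alternatingGroup, Equiv.Perm.sign_of_cycleType] at this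
        exact (neg_one_pow_eq_one_iff_even (by decide)).1 this⟩) fun v _ => by
      rw [one_mul]
      by_contra hc
      obtain ⟨x, y, z, hx, hy, hz, e1, e2, e3⟩ := (Set.two_lt_ncard_iff (Set.toFinite _)).1
        (not_le.1 hc)
      obtain ⟨g, hg⟩ := isConj_iff.1 (Equiv.Perm.isConj_iff_cycleType_eq.2 (hx.2.trans hy.2.symm))
      obtain ⟨k, hk⟩ := isConj_iff.1 (Equiv.Perm.isConj_iff_cycleType_eq.2 (hx.2.trans hz.2.symm))
      rcases Int.units_eq_one_or (Equiv.Perm.sign g) with s | s
      · exact e1 (cj hg s)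
      rcases Int.units_eq_one_or (Equiv.Perm.sign k) with s' | s'
      · exact e2 (cj hk s')
      exact e3 (cj (g := k * g⁻¹) (by rw [← hg, ← hk]; group) (by simp [s, s']))
  have c := Set.ncard_sdiff_singleton_add_one
    (Set.mem_univ (ConjClasses.mk (1 : alternatingGroup α)))
  rw [Set.ncard_univ] at c
  rw [one_mul, Set.ncard_coe_finset] at this
  refine c.symm.le.trans ((Nat.succ_le_succ this).trans ?_)
  generalize Fintype.card α = n at h
  interval_cases n <;> decide

end

variable {G Ω : Type u} [Group G] [Finite G] [Finite Ω] [MulAction G Ω] {p : ℕ}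

theorem seeds [FaithfulSMul G Ω] (hp : p.Prime) (h3 : 3 ≤ p) (h7 : p ≤ 7) (hG : ¬ p ∣ Nat.card G)
    (h : (Nat.card Ω)! ≤ 2 * Nat.card G) : Nat.card Ω < p ∧ kk G ≤ seed (Nat.card Ω) := by
  classical
  have := Fintype.ofFinite Ω
  set ψ := MulAction.toPermHom G Ω
  have e := MonoidHom.ofInjective (f := ψ) MulAction.toPerm_injective
  have c := ψ.range.index_mul_card
  rw [← Nat.card_congr e.toEquiv, Nat.card_perm] at c
  have i0 : ψ.range.index ≠ 0 := Subgroup.index_ne_zero_of_finite
  have i2 : ψ.range.index ≤ 2 := Nat.le_of_mul_le_mul_right (c ▸ h) Nat.card_pos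
  have lt : Nat.card Ω < p := by
    by_contra hc
    rcases (Nat.Prime.dvd_mul hp).1 (c ▸ hp.dvd_factorial.2 (not_lt.1 hc)) with q | q
    · have := Nat.le_of_dvd (by omega) q; omega
    · exact hG q
  refine ⟨lt, ?_⟩
  rw [kk_congr e]
  rw [Nat.card_eq_fintype_card] at lt ⊢
  rcases (by omega : ψ.range.index = 1 ∨ ψ.range.index = 2) with q | q
  · rw [Subgroup.index_eq_one.1 q, kk_congr Subgroup.topEquiv]; exact kk_sym (by omega)
  · rw [Equiv.Perm.eq_alternatingGroup_of_index_eq_two q]; exact kk_alt (by omega)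

theorem ex_sg [IsPretransitive G Ω] {C : Set Ω} (hC : IsBlock G C) (h2 : C.ncard = 2) :
    ∃ σ : Ω → Ω, Sg G σ 2 := by
  have : ∀ x : Ω, ∃ y, y ≠ x ∧ ∃ g : G, g • C = {x, y} := fun x => by
    obtain ⟨a, b, ab, rfl⟩ := Set.ncard_eq_two.1 h2
    obtain ⟨g, rfl⟩ := exists_smul_eq G a x
    exact ⟨g • b, fun e => ab (smul_left_cancel g e).symm, g, by
      rw [Set.smul_set_insert, Set.smul_set_singleton]⟩
  choose σ h1 f hf using this
  have k : ∀ (g : G) x, x ∈ g • C → g • C = {x, σ x} := fun g x hx => by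
    rw [← hf]
    by_contra e
    exact Set.disjoint_left.1 (hC e) hx (hf x ▸ Or.inl rfl)
  refine ⟨σ, fun x => ?_, fun g x => ?_, Or.inr ⟨rfl, h1⟩⟩
  · have := k (f x) (σ x) (hf x ▸ Or.inr rfl)
    rcases (this ▸ hf x ▸ Or.inl rfl : x ∈ ({σ x, σ (σ x)} : Set Ω)) with e | e
    exacts [absurd e.symm (h1 x), e.symm]
  · have e : (g * f x) • C = {g • x, g • σ x} := by
      rw [mul_smul, hf, Set.smul_set_insert, Set.smul_set_singleton]
    have := k (g * f x) (g • x) (e ▸ Or.inl rfl)
    rcases (e ▸ this ▸ Or.inr rfl : σ (g • x) ∈ ({g • x, g • σ x} : Set Ω)) with e | e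
    exacts [absurd e (h1 _), e]

end H9.Lq
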