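import Cfsg.Agent.H4.PG0
import Cfsg.Agent.H12.Witt

/-! S5855, chunk PG: the invariant maximal isotropic subspace and translations. -/

set_option autoImplicit false
set_option linter.unusedSectionVars false
set_option linter.style.haveILetI false

open Module H4.PG

namespace H9.PG

variable {F : Type*} [Field F] [Fintype F] {σ : F →+* F} {q : ℕ} {V : Type*} [AddCommGroup V] [Module F V] [Finite V]
  {f : V →ₗ[F] V →ₛₗ[σ] F} {U : Subgroup (V ≃ₗ[F] V)} {W : Submodule F V} {u : V}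

theorem fix (hU : IsPGroup (ringChar F) U) {S T : Submodule F V}
    (hS : ∀ g ∈ U, ∀ x ∈ S, g x ∈ S) (hT : ∀ g ∈ U, ∀ x ∈ T, g x ∈ T) (h : ¬ T ≤ S) :
    ∃ v ∈ T, v ∉ S ∧ ∀ g ∈ U, g v - v ∈ S := by
  haveI : Fact (ringChar F).Prime := ⟨CharP.char_is_prime F _⟩
  letI : MulAction U (T.map S.mkQ) :=
    { smul g y := ⟨S.mapQ S g.1.toLinearMap (hS g g.2) y, by
        obtain ⟨_, y, hy, rfl⟩ := y; exact ⟨_, hT g g.2 y hy, rfl⟩⟩
      one_smul := by rintro ⟨_, y, hy, rfl⟩; rfl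
      mul_smul := by rintro a b ⟨_, y, hy, rfl⟩; rfl }
  haveI : Finite (V ⧸ S) := Finite.of_surjective _ S.mkQ_surjective
  obtain ⟨⟨_, v, hv, rfl⟩, h1, h2⟩ := hU.exists_fixed_point_of_prime_dvd_card_of_fixed_point (T.map S.mkQ) (by
    rw [Module.natCard_eq_pow_finrank (K := F), Nat.card_eq_fintype_card]
    refine dvd_pow ((CharP.cast_eq_zero_iff F _ _).1 (FiniteField.cast_card_eq_zero F)) fun e => h ?_
    simpa [← LinearMap.le_ker_iff_map] using Submodule.finrank_eq_zero.1 e) (a := 0) fun g => Subtype.ext (map_zero _)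
  exact ⟨v, hv, fun e => h2 (Subtype.ext ((Submodule.Quotient.mk_eq_zero S).2 e).symm),
    fun g hg => (Submodule.Quotient.eq S).1 (congrArg Subtype.val (h1 ⟨g, hg⟩))⟩

/-- adjoining a vector fixed modulo an invariant subspace -/
theorem inv_sup {S : Submodule F V} (hS : ∀ g ∈ U, ∀ x ∈ S, g x ∈ S) {v : V} (hv : ∀ g ∈ U, g v - v ∈ S) :
    (∀ g ∈ U, ∀ x ∈ S ⊔ F ∙ v, g x - x ∈ S) ∧ ∀ g ∈ U, ∀ x ∈ S ⊔ F ∙ v, g x ∈ S ⊔ F ∙ v := by
  have k : ∀ g ∈ U, ∀ x ∈ S ⊔ F ∙ v, g x - x ∈ S := fun g hg x hx => by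
    obtain ⟨a, ha, _, hb, rfl⟩ := Submodule.mem_sup.1 hx
    obtain ⟨c, rfl⟩ := Submodule.mem_span_singleton.1 hb
    rw [map_add, map_smul, add_sub_add_comm, ← smul_sub]
    exact add_mem (sub_mem (hS g hg a ha) ha) (S.smul_mem c (hv g hg))
  exact ⟨k, fun g hg x hx => by simpa using add_mem (Submodule.mem_sup_left (k g hg x hx)) hx⟩

theorem lt_sup {S : Submodule F V} {v : V} (hv : v ∉ S) : S < S ⊔ F ∙ v :=
  lt_of_le_of_ne le_sup_left fun e => hv (e ▸ Submodule.mem_sup_right (Submodule.mem_span_singleton_self v))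

/-- the orthogonal complement -/
def pe (f : V →ₗ[F] V →ₛₗ[σ] F) (S : Submodule F V) : Submodule F V where
  carrier := {v | ∀ x ∈ S, f v x = 0}
  add_mem' a b x hx := by simp [a x hx, b x hx]
  zero_mem' x _ := by simp
  smul_mem' c _ a x hx := by simp [a x hx]

section
variable (h : HS q f U)
include h

theorem z' {x y : V} (e : f x y = 0) : f y x = 0 := by rw [h.sy, e, map_zero]

theorem sep {S : Submodule F V} {w : V} (hw : w ∉ S) : ∃ y, (∀ x ∈ S, f x y = 0) ∧ f w y = 1 := by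
  obtain ⟨φ, h1, h2⟩ := Submodule.exists_le_ker_of_notMem hw
  obtain ⟨y, hy⟩ := (Finite.injective_iff_surjective_of_equiv (f := fun y => f.flip y)
    (finBasis F V).toDualEquiv.toEquiv).1 (fun y y' e => sub_eq_zero.1 (h.nd _ fun x => z' h (by
      rw [map_sub, sub_eq_zero]; exact LinearMap.congr_fun e x))) ((φ w)⁻¹ • φ)
  exact ⟨y, fun x hx => (LinearMap.congr_fun hy x).trans (by simpa using .inr (h2 hx)),
    (LinearMap.congr_fun hy w).trans (by simp [h1])⟩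

theorem dim_pe (S : Submodule F V) : finrank F S + finrank F (pe f S) = 11 :=
  (H12.CForm.Nondeg.finrank_add_finrank_perp (C := H12.CForm.ofHerm σ (fun e => by obtain ⟨l, hl⟩ := h.ex; simp [e] at hl) h.ss f.flip
    ⟨fun x y => (h.sy y x).symm⟩) (fun x e => h.nd x fun y => z' h (e y)) S).trans h.dim

theorem adj {g : V ≃ₗ[F] V} (hg : g ∈ U) (x y : V) : f (g x) y = f x (g⁻¹ y) := by rw [← h.iso g hg x]; simp

theorem inv_pe {S : Submodule F V} (hS : ∀ g ∈ U, ∀ x ∈ S, g x ∈ S) : ∀ g ∈ U, ∀ x ∈ pe f S, g x ∈ pe f S :=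
  fun _ hg x hx y hy => (adj h hg x y).trans (hx _ (hS _ (inv_mem hg) y hy))

theorem v0 : V0 q f U := by
  obtain ⟨W, ⟨ww, iw⟩, mx⟩ := exists_maximal_of_wellFoundedGT (fun R : Submodule F V =>
    (∀ x ∈ R, ∀ y ∈ R, f x y = 0) ∧ ∀ g ∈ U, ∀ x ∈ R, g x ∈ R) ⟨⊥, by simp, by simp⟩
  have d := dim_pe h W
  obtain ⟨u, uT, uW, gu⟩ := fix h.pg iw (inv_pe h iw) fun e => by
    have := Submodule.finrank_mono e
    have := Submodule.finrank_mono (show W ≤ pe f W from ww)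
    omega
  have le : W ⊔ F ∙ u ≤ pe f W := sup_le ww ((Submodule.span_singleton_le_iff_mem _ _).2 uT)
  have nu : f u u ≠ 0 := fun e => (lt_sup uW).not_ge (mx ⟨fun x hx y hy => by
    obtain ⟨a, ha, _, hb, rfl⟩ := Submodule.mem_sup.1 hy
    obtain ⟨c, rfl⟩ := Submodule.mem_span_singleton.1 hb
    obtain ⟨b, hb, _, hb', rfl⟩ := Submodule.mem_sup.1 hx
    obtain ⟨d, rfl⟩ := Submodule.mem_span_singleton.1 hb'
    simp [ww b hb a ha, uT a ha, z' h (uT b hb), e], (inv_sup iw gu).2⟩ le_sup_left)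
  have d1 := Submodule.finrank_lt_finrank_of_lt (lt_sup uW)
  have d2 := Submodule.finrank_mono le
  have sb : {y | ∃ g ∈ U, g u = y} ⊆ (u + ·) '' W := by
    rintro _ ⟨g, hg, rfl⟩; exact ⟨_, gu g hg, add_sub_cancel _ _⟩
  have cw : ((u + ·) '' W).ncard = q ^ (2 * finrank F W) := by
    rw [Set.ncard_image_of_injective _ (add_right_injective u), pow_mul, ← h.hF, ← Nat.card_eq_fintype_card,
      ← Module.natCard_eq_pow_finrank]; rfl
  have d3 := h.no ((h.big u nu).trans ((Set.ncard_le_ncard sb).trans cw.le))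
  have dw : finrank F W = 5 := by omega
  refine ⟨W, u, h, ww, iw, dw, fun x hx => z' h (uT x hx), nu, gu, fun w hw => ?_, fun v hv => ?_⟩
  · exact (Set.eq_of_subset_of_ncard_le sb (by rw [cw, dw]; exact h.big u nu)).ge ⟨w, hw, rfl⟩
  · obtain ⟨a, ha, _, hb, e⟩ := Submodule.mem_sup.1 ((Submodule.eq_of_le_of_finrank_le le (by omega)).ge
      (show v ∈ pe f W from fun x hx => z' h (hv x hx)))
    obtain ⟨c, rfl⟩ := Submodule.mem_span_singleton.1 hb
    exact ⟨a, ha, c, e.symm⟩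

end

variable (h : VS q f U W u)
include h

theorem uw {x : V} (hx : x ∈ W) : f u x = 0 := z' h.1 (h.wu x hx)

theorem pp {v : V} (hv : v ∈ pe f W) : ∃ w ∈ W, ∃ c : F, v = w + c • u := h.pp v fun x hx => z' h.1 (hv x hx)

theorem wu : WU f U W := fun R rr iR => by
  have k : ∀ v ∈ R, v ∈ pe f W → v ∈ W := fun v hv e => by
    obtain ⟨w, hw, c, rfl⟩ := pp h e
    have := rr _ hv _ hv
    simp [h.ww w hw w hw, h.wu w hw, uw h hw, h.nu] at this
    simpa [this]
  refine fun v hv => k v hv ((by_contra fun n => ?_ : R ≤ pe f W) hv)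
  obtain ⟨y, yR, n, gy⟩ := fix h.pg (inv_pe h.1 h.iw) iR n
  refine n fun w hw => ?_
  obtain ⟨g, hg, e⟩ := h.tr w hw
  have := h.wu _ (k _ (sub_mem (iR _ (inv_mem hg) y yR) yR) (gy _ (inv_mem hg)))
  rwa [map_sub, LinearMap.sub_apply, adj h.1 (inv_mem hg), inv_inv, e, map_add, add_sub_cancel_left] at this

/-- elements that are trivial on `W` -/
theorem rr {t : V ≃ₗ[F] V} (ht : t ∈ U) (k : ∀ x ∈ W, t x = x) (v : V) :
    ∃ m ∈ W, t v = v + m - (f v (t u - u) / f u u) • u := by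
  obtain ⟨m, hm, c, e⟩ := pp h (v := t v - v) fun x hx => by rw [map_sub, LinearMap.sub_apply, ← h.iso t ht v, k x hx, sub_self]
  have k3 := h.iso t ht v u
  have ha := h.gu t ht
  rw [sub_eq_iff_eq_add] at e
  rw [e, ← sub_add_cancel (t u) u] at k3
  generalize t u - u = a at *
  simp only [map_add, map_smul, LinearMap.add_apply, LinearMap.smul_apply, h.ww m hm _ ha, h.wu m hm, uw h ha, smul_eq_mul] at k3
  refine ⟨m, hm, ?_⟩
  rw [e, show c = -(f v a / f u u) by have := h.nu; field_simp; linear_combination k3]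
  module

theorem sc : SC σ U W u := by
  refine ⟨fun t ht s hs l r1 s1 e => ?_, fun two t ht r1 => ?_⟩
  · have a := h.gu t ht
    refine ((h.nt _ (mul_mem (inv_mem (mul_mem hs ht)) (mul_mem ht hs)) _ ((l - σ l) / f u u) (h.ww _ a _ a) fun v => ?_).imp
      sub_eq_zero.1 fun e => (sub_eq_zero.1 ((div_eq_zero_iff.1 e).resolve_right h.nu)).symm).symm
    refine (s * t).injective ?_
    rw [← LinearEquiv.mul_apply, mul_inv_cancel_left]
    obtain ⟨m, m1, hm⟩ := rr h ht r1 v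
    obtain ⟨n, n1, hn⟩ := rr h hs s1 v
    simp only [LinearEquiv.mul_apply, map_add, map_smul, r1 _ a, s1 _ a]
    rw [hn, hm]
    simp only [map_add, map_sub, map_smul, r1 n n1, s1 m m1]
    rw [hn, hm, e, sub_eq_iff_eq_add.1 e, ← map_sub, ← map_sub, ← sub_add_cancel (t u) u]
    generalize t u - u = a
    simp only [add_sub_cancel_right, map_smulₛₗ, smul_eq_mul, div_eq_mul_inv]
    module
  · have a := h.gu t ht
    refine (h.nt _ (mul_mem ht ht) _ (-1 / f u u) (h.ww _ a _ a) fun v => ?_).elim sub_eq_zero.1 fun e => by simp [h.nu] at e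
    obtain ⟨m, m1, hm⟩ := rr h ht r1 v
    rw [LinearEquiv.mul_apply, hm, map_sub, map_add, map_smul, r1 m m1, hm, div_eq_mul_inv, div_eq_mul_inv]
    linear_combination (norm := module) two • (m - (f v (t u - u) * (f u u)⁻¹) • u)

theorem l1 : L1 U W u := by
  suffices k : ∀ S : Submodule F V, S ≤ W → (∀ g ∈ U, ∀ x ∈ S, g x ∈ S) → ∀ g ∈ U, (∀ x ∈ S, g x = x) →
      (∀ x ∈ W, ∀ k ∈ U, k (g x - x) = g x - x) → (∀ k ∈ U, k (g u - u) = g u - u) → ∀ x ∈ W, g x = x from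
    fun g hg => k ⊥ bot_le (by simp) g hg (by simp)
  intro S
  induction S using WellFoundedGT.induction with | ind S ih =>
  intro SW iS g hg gS g1 g2
  by_contra! n
  obtain ⟨x, hx, n⟩ := n
  obtain ⟨v, vW, vS, gv⟩ := fix h.pg iS h.iw fun e => n (gS x (e hx))
  have c : ∀ k ∈ U, ∀ y, (∀ k ∈ U, k (g y - y) = g y - y) → k y - y ∈ W → (k⁻¹ * g * k * g⁻¹) y - y = g (k y - y) - (k y - y) :=
    fun k hk y hy m => by
      rw [sub_eq_iff_eq_add, LinearEquiv.mul_apply, LinearEquiv.mul_apply, LinearEquiv.mul_apply, show g⁻¹ y = y - (g y - y) by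
        rw [← hy _ (inv_mem hg)]; simp, map_sub, hy k hk, map_sub, hy g hg]
      refine k.injective ?_
      rw [map_add, g1 _ m k hk]; simp; abel
  have m : ∀ k ∈ U, k⁻¹ * g * k * g⁻¹ ∈ U := fun k hk => mul_mem (mul_mem (mul_mem (inv_mem hk) hg) hk) (inv_mem hg)
  have le : S ⊔ F ∙ v ≤ W := sup_le SW ((Submodule.span_singleton_le_iff_mem _ _).2 vW)
  have d : ∀ k ∈ U, ∀ y ∈ W, k y - y ∈ W := fun k hk y hy => sub_mem (h.iw k hk y hy) hy
  have t : ∀ k ∈ U, ∀ y ∈ W, (k⁻¹ * g * k * g⁻¹) y = y := fun k hk => ih _ (lt_sup vS) le (inv_sup iS gv).2 _ (m k hk)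
    (fun y hy => sub_eq_zero.1 (by rw [c k hk y (g1 y (le hy)) (d k hk y (le hy)), gS _ ((inv_sup iS gv).1 k hk y hy), sub_self]))
    (fun y hy => by rw [c k hk y (g1 y hy) (d k hk y hy)]; exact g1 _ (d k hk y hy))
    (by rw [c k hk u g2 (h.gu k hk)]; exact g1 _ (h.gu k hk))
  obtain ⟨l, hl⟩ := h.ex
  obtain ⟨k, hk, e⟩ := h.tr x hx
  obtain ⟨k', hk', e'⟩ := h.tr _ (W.smul_mem l hx)
  have := ((sc h).1 _ (m k hk) _ (m k' hk') l (t k hk) (t k' hk') (by
    rw [c k hk u g2 (h.gu k hk), c k' hk' u g2 (h.gu k' hk'), e, e']; simp [smul_sub])).resolve_left hl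
  rw [← sub_eq_zero, c k hk u g2 (h.gu k hk), e, add_sub_cancel_left, sub_eq_zero] at this
  exact n this

end H9.PG
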