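import Cfsg.Agent.H9.PG1

/-! S5855, chunk PG: the Loewy length on the invariant isotropic subspace. -/

set_option autoImplicit false
set_option linter.unusedSectionVars false
set_option linter.style.haveILetI false

open Module H4.PG
open scoped commutatorElement

namespace H9.PG

variable {F : Type*} [Field F] [Fintype F] {σ : F →+* F} {q : ℕ} {V : Type*} [AddCommGroup V] [Module F V] [Finite V]
  {f : V →ₗ[F] V →ₛₗ[σ] F} {U : Subgroup (V ≃ₗ[F] V)} {W : Submodule F V} {u : V} {g k : V ≃ₗ[F] V}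

/-- `g - 1` -/
def D (g : V ≃ₗ[F] V) : V →ₗ[F] V := g.toLinearMap - LinearMap.id

theorem D_apply (g : V ≃ₗ[F] V) (x : V) : D g x = g x - x := rfl

theorem D_add (g : V ≃ₗ[F] V) (x : V) : g x = x + D g x := (add_sub_cancel _ _).symm

theorem D0 {x : V} : D g x = 0 ↔ g x = x := sub_eq_zero

theorem D_inv {x : V} (e : D g (D g x) = 0) : D g⁻¹ x = -D g x := g.injective (by
  rw [map_neg, D0.1 e]; simp [D_apply])

theorem cmU (hg : g ∈ U) (hk : k ∈ U) : ⁅g, k⁆ ∈ U := mul_mem (mul_mem (mul_mem hg hk) (inv_mem hg)) (inv_mem hk)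

theorem D_cm {S : Submodule F V} (hS : ∀ g ∈ U, ∀ x ∈ S, g x ∈ S) (hg : g ∈ U) (hk : k ∈ U) {x : V} (hx : x ∈ S) :
    ∃ y ∈ S, k (g y) = x ∧ D ⁅g, k⁆ x = D g (D k y) - D k (D g y) :=
  ⟨_, hS _ (inv_mem hg) _ (hS _ (inv_mem hk) x hx), by simp, by simp [D_apply, commutatorElement_def]; abel⟩

theorem inv_of {A S : Submodule F V} (le : A ≤ S) (k : ∀ g ∈ U, ∀ x ∈ S, D g x ∈ A) : ∀ g ∈ U, ∀ x ∈ S, g x ∈ S :=
  fun g hg x hx => D_add g x ▸ add_mem hx (le (k g hg x hx))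

theorem lv (U : Subgroup (V ≃ₗ[F] V)) (W A : Submodule F V) : ∃ S : Submodule F V, ∀ x, x ∈ S ↔ x ∈ W ∧ ∀ g ∈ U, D g x ∈ A :=
  ⟨W ⊓ ⨅ g ∈ U, A.comap (D g), by simp⟩

section
variable (h : HS q f U)
include h

theorem fD (hg : g ∈ U) (x y : V) : f (D g x) y = f x (D g⁻¹ y) := by simp [D_apply, adj h hg]

theorem lo_pe {A B : Submodule F V} (k : ∀ g ∈ U, ∀ x ∈ B, D g x ∈ A) : ∀ g ∈ U, ∀ x ∈ pe f A, D g x ∈ pe f B :=
  fun _ hg x hx y hy => (fD h hg x y).trans (hx _ (k _ (inv_mem hg) y hy))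

theorem im_pe {A : Submodule F V} (hg : g ∈ U) (k : ∀ x ∈ pe f A, D g x = 0) (v : V) : D g v ∈ A := by_contra fun n => by
  obtain ⟨y, a, b⟩ := sep h n
  have := h.iso g hg v y
  rw [D0.1 (k y fun x hx => z' h (a x hx))] at this
  simp [D_apply, this] at b

/-- commutators with an element of the centre of the radical -/
theorem cz {A : Submodule F V} (iA : ∀ g ∈ U, ∀ x ∈ A, g x ∈ A) (AA : A ≤ pe f A) {z : V ≃ₗ[F] V} (hz : z ∈ U)
    (k : ∀ x ∈ pe f A, D z x = 0) (hg : g ∈ U) (x : V) : D ⁅g, z⁆ x = g (D z (g⁻¹ x)) - D z x := by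
  have a := im_pe h hz k x
  rw [D_apply, commutatorElement_def, LinearEquiv.mul_apply, LinearEquiv.mul_apply, LinearEquiv.mul_apply,
    show z⁻¹ x = x - D z x from z.injective (by rw [map_sub, D0.1 (k _ (AA a))]; simp [D_apply]), map_sub, map_sub,
    D0.1 (k _ (AA (iA _ (inv_mem hg) _ a))), D_add z]
  simp; abel

end

variable (h : VS q f U W u)
include h

theorem pp' {v : V} (hv : v ∈ pe f W) : ∃ w ∈ W, v = w + (f v u / f u u) • u := by
  obtain ⟨w, hw, c, rfl⟩ := pp h hv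
  exact ⟨w, hw, by simp [h.wu w hw, h.nu]⟩

theorem a4 : ∀ g ∈ U, ∀ x ∈ pe f W, D g x ∈ W := fun g hg x hx => by
  obtain ⟨w, hw, c, rfl⟩ := pp h hx
  rw [map_add, map_smul]
  exact add_mem (sub_mem (h.iw g hg w hw) hw) (W.smul_mem c (h.gu g hg))

theorem upe : u ∈ pe f W := fun _ => uw h

theorem kl : KL U W := by
  by_contra! n
  obtain ⟨F1, m1⟩ := lv U W ⊥
  obtain ⟨F2, m2⟩ := lv U W F1
  have dw : ∀ g ∈ U, ∀ x ∈ W, D g x ∈ W := fun g hg x hx => a4 h g hg x (h.ww x hx)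
  have a1 : ∀ g ∈ U, ∀ x ∈ F1, D g x = 0 := fun g hg x hx => ((m1 x).1 hx).2 g hg
  have a2 : ∀ g ∈ U, ∀ x ∈ F2, D g x ∈ F1 := fun g hg x hx => ((m2 x).1 hx).2 g hg
  have a3 : ∀ g ∈ U, ∀ x ∈ W, D g x ∈ F2 := fun s hs x hx => (m2 _).2 ⟨dw s hs x hx, fun k hk =>
    (m1 _).2 ⟨dw k hk _ (dw s hs x hx), fun g hg => by_contra fun z => n ⟨g, hg, k, hk, s, hs, x, hx, mt D0.2 z⟩⟩⟩
  have a5 := lo_pe h.1 a3
  have a6 := lo_pe h.1 a2
  have a7 : ∀ g ∈ U, ∀ x, D g x ∈ pe f F1 := fun g hg x y hy => by rw [fD h.1 hg, a1 _ (inv_mem hg) y hy, map_zero]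
  have l12 : F1 ≤ F2 := fun x hx => (m2 x).2 ⟨((m1 x).1 hx).1, fun g hg => a1 g hg x hx ▸ zero_mem _⟩
  have l2 : F2 ≤ W := fun x hx => ((m2 x).1 hx).1
  have l3 : W ≤ pe f W := h.ww
  have l4 : pe f W ≤ pe f F2 := fun x hx y hy => hx y (l2 hy)
  have i2 := inv_of l12 a2
  have i5 := inv_pe h.1 i2
  have i6 := inv_pe h.1 (inv_of bot_le a1)
  obtain ⟨l, hl⟩ := h.ex
  obtain ⟨g, hg, gu, v, hv, nv⟩ : ∃ g ∈ U, D g u ∈ F1 ∧ ∃ v ∈ W, D g v ∉ F1 := by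
    by_contra! z
    obtain ⟨e, eW, e0, ge⟩ := fix h.pg (S := ⊥) (by simp) h.iw fun z => by
      have := h.dw; rw [le_bot_iff.1 z] at this; simp at this
    have e1 := (m1 e).2 ⟨eW, ge⟩
    have k : ∀ c : F, ∃ g ∈ U, (∀ x ∈ W, g x = x) ∧ g u - u = c • e := fun c => by
      obtain ⟨g, hg, e'⟩ := h.tr _ (W.smul_mem c eW)
      have m : D g u ∈ F1 := by rw [D_apply, e', add_sub_cancel_left]; exact F1.smul_mem c e1
      exact ⟨g, hg, l1 h g hg (fun x hx k hk => D0.1 (a1 k hk _ (z g hg m x hx))) fun k hk => D0.1 (a1 k hk _ m), by simp [e']⟩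
    obtain ⟨t, ht, t1, t2⟩ := k 1
    obtain ⟨s, hs, s1, s2⟩ := k l
    rw [one_smul] at t2
    exact e0 (t2 ▸ sub_eq_zero.2 (((sc h).1 t ht s hs l t1 s1 (by rw [t2, s2])).resolve_left hl))
  have T : ∀ c : F, ∃ t ∈ U, (∀ x ∈ F2, D t x = 0) ∧ (∀ x ∈ W, D t x ∈ F1) ∧ (∀ x ∈ pe f F2, D t x ∈ F2) ∧
      (∀ x ∈ pe f F1, D t x ∈ pe f W) ∧ D t u - c • D g v ∈ F1 := fun c => by
    obtain ⟨k, hk, e⟩ := h.tr _ (W.smul_mem c hv)
    replace e : D k u = c • v := by rw [D_apply, e, add_sub_cancel_left]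
    refine ⟨_, cmU hg hk, fun x hx => ?_, fun x hx => ?_, fun x hx => ?_, fun x hx => ?_, ?_⟩
    · obtain ⟨y, hy, -, e⟩ := D_cm i2 hg hk hx
      rw [e, a1 g hg _ (a2 k hk y hy), a1 k hk _ (a2 g hg y hy), sub_self]
    · obtain ⟨y, hy, -, e⟩ := D_cm h.iw hg hk hx
      exact e ▸ sub_mem (a2 g hg _ (a3 k hk y hy)) (a2 k hk _ (a3 g hg y hy))
    · obtain ⟨y, hy, -, e⟩ := D_cm i5 hg hk hx
      obtain ⟨m, hm, c, e1⟩ := pp h (a5 k hk y hy)
      obtain ⟨m', hm', e2⟩ := pp' h (a5 g hg y hy)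
      rw [fD h.1 hg, D_inv (a1 g hg _ gu), map_neg, hy _ (l12 gu), neg_zero, zero_div, zero_smul, add_zero] at e2
      rw [e, e1, e2, map_add, map_smul]
      exact sub_mem (add_mem (a3 g hg m hm) (F2.smul_mem c (l12 gu))) (a3 k hk _ hm')
    · obtain ⟨y, hy, -, e⟩ := D_cm i6 hg hk hx
      exact e ▸ sub_mem (a5 g hg _ (a6 k hk y hy)) (a5 k hk _ (a6 g hg y hy))
    · have m := a4 h _ (inv_mem (mul_mem hk hg)) u (upe h)
      obtain ⟨y, -, e1, e2⟩ := D_cm (S := ⊤) (by simp) hg hk (x := u) trivial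
      obtain rfl : (k * g)⁻¹ u = y := (k * g).injective (by simpa using e1.symm)
      rw [e2, D_add (k * g)⁻¹]
      simp only [map_add, e, map_smul, a1 k hk _ gu]
      rw [show ∀ a b d : V, a + b - (0 + d) - a = b - d from fun a b d => by abel]
      exact sub_mem (a2 g hg _ (a3 k hk _ m)) (a2 k hk _ (a3 g hg _ m))
  obtain ⟨t, ht, t2, t3, t5, t6, tu⟩ := T 1
  obtain ⟨s, hs, s2, s3, s5, s6, su⟩ := T l
  have w2 := t5 u (l4 (upe h))
  have w2' := s5 u (l4 (upe h))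
  obtain ⟨k, hk, nk⟩ : ∃ k ∈ U, D k (D t u) ≠ 0 := by
    by_contra! z
    exact nv (by simpa using sub_mem ((m1 _).2 ⟨l2 w2, z⟩) tu)
  replace su : D s u - l • D t u ∈ F1 := by
    convert sub_mem su (F1.smul_mem l tu) using 1
    module
  have hz := cmU ht hs
  have z5 : ∀ x ∈ pe f F2, D ⁅t, s⁆ x = 0 := fun x hx => by
    obtain ⟨y, hy, -, e⟩ := D_cm i5 ht hs hx
    rw [e, t2 _ (s5 y hy), s2 _ (t5 y hy), sub_self]
  have z6 : ∀ x ∈ pe f F1, D ⁅t, s⁆ x - ((l - σ l) / f u u * f x (D t u)) • D t u ∈ F1 := fun x hx => by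
    obtain ⟨y, hy, rfl, e⟩ := D_cm i6 ht hs hx
    obtain ⟨m, hm, e1⟩ := pp' h (t6 y hy)
    obtain ⟨m', hm', e2⟩ := pp' h (s6 y hy)
    have := hy _ su
    rw [map_sub, map_smulₛₗ, sub_eq_zero] at this
    rw [fD h.1 ht, D_inv (t2 _ w2), map_neg] at e1
    rw [fD h.1 hs, D_inv (s2 _ w2'), map_neg, this] at e2
    rw [e, e1, e2, show f (s (t y)) (D t u) = f y (D t u) by
      rw [← h.iso t ht y, ← h.iso s hs (t y), D0.1 (t2 _ w2), D0.1 (s2 _ w2)]]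
    convert add_mem (sub_mem (t3 _ hm') (s3 _ hm)) (F1.smul_mem (f y (D t u) / f u u) su) using 1
    simp only [map_add, map_smul, smul_eq_mul, div_eq_mul_inv]
    module
  generalize ⁅t, s⁆ = z at hz z5 z6
  have AA : F2 ≤ pe f F2 := l2.trans (l3.trans l4)
  obtain ⟨k', hk', μ, μ0, e⟩ : ∃ k' ∈ U, ∃ μ : F, μ + σ μ ≠ 0 ∧ D k' (D t u) = μ • D k (D t u) := by
    by_cases two : (2 : F) = 0
    · have c : ∀ k ∈ U, D k (D t u) = D t (D k u) := fun k hk => by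
        have tw : ∀ x ∈ W, ⁅t, k⁆ x = x := fun x hx => by
          obtain ⟨y, hy, -, e⟩ := D_cm h.iw ht hk hx
          rw [← D0, e, t2 _ (a3 k hk y hy), a1 k hk _ (t3 y hy), sub_self]
        have := congrArg₂ (· + ·) (tw _ (h.gu _ (mul_mem hk ht))) ((sc h).2 two _ (cmU ht hk) tw)
        simp only [← map_add, sub_add_cancel] at this
        replace this : t (k u) = k (t u) := by simpa [commutatorElement_def] using this
        simp only [D_apply, map_sub, this]; abel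
      obtain ⟨k', hk', e⟩ := h.tr _ (W.smul_mem l (h.gu k hk))
      exact ⟨k', hk', l, fun z => hl (by linear_combination z - l * two), by
        rw [c k hk, c k' hk', D_apply k', e, add_sub_cancel_left, map_smul]; rfl⟩
    · exact ⟨k, hk, 1, by rwa [map_one, one_add_one_eq_two], (one_smul F _).symm⟩
  have r := fun x => im_pe h.1 hz z5 x
  have η := l2 (l12 (a2 k hk _ w2))
  refine (h.nt _ (cmU hk' (cmU hk hz)) _ ((l - σ l) / f u u * (μ + σ μ)) (h.ww _ η _ η) fun x => ?_).elim nk fun z =>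
    mul_ne_zero (div_ne_zero (sub_ne_zero.2 (Ne.symm hl)) h.nu) μ0 z
  have b : ∀ j ∈ U, ∀ j' ∈ U, D j' (D z (D j⁻¹ x)) = ((l - σ l) / f u u * f x (D j (D t u))) • D j' (D t u) := fun j hj j' hj' => by
    have := a1 j' hj' _ (z6 _ (a7 _ (inv_mem hj) x))
    rwa [map_sub, map_smul, sub_eq_zero, fD h.1 (inv_mem hj), inv_inv] at this
  have c : ∀ y, k' (k (D z y)) = D z y + D k' (D z y) + D k (D z y) := fun y => by
    rw [D_add k, map_add, D0.1 (a1 k' hk' _ (a2 k hk _ (r y))), D_add k' (D z y)]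
  rw [D_add ⁅k', _⁆, cz h.1 i2 AA (cmU hk hz) (fun y hy => by
    rw [cz h.1 i2 AA hz z5 hk, z5 y hy, z5 _ (i5 _ (inv_mem hk) y hy), map_zero, sub_self]) hk', cz h.1 i2 AA hz z5 hk,
    cz h.1 i2 AA hz z5 hk, map_sub, c, D_add k' (D z (k'⁻¹ x)), D_add k (D z (k⁻¹ x)), D_add k'⁻¹ x, map_add k⁻¹, D_add k⁻¹ x, D_add k⁻¹ (D _ _)]
  simp only [map_add, z5 _ (a6 _ (inv_mem hk) _ (a7 _ (inv_mem hk') x)), b k hk k hk, b k hk k' hk', b k' hk' k hk, b k' hk' k' hk', e,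
    map_smulₛₗ, smul_eq_mul, map_zero]
  module

end H9.PG
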