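import Cfsg.Agent.H9.PG2

/-! S5855, chunk PG: central elements, fixed translations and short orbits. -/

set_option autoImplicit false
set_option linter.unusedSectionVars false
set_option linter.style.haveILetI false

open Module H4.PG MulAction
open scoped commutatorElement

namespace H9.PG

variable {F : Type*} [Field F] [Fintype F] {σ : F →+* F} {q : ℕ} {V : Type*} [AddCommGroup V] [Module F V] [Finite V]
  {f : V →ₗ[F] V →ₛₗ[σ] F} {U : Subgroup (V ≃ₗ[F] V)} {W : Submodule F V} {u : V}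

theorem D_mul (g k : V ≃ₗ[F] V) (x : V) : D (g * k) x = D g x + D k x + D g (D k x) := by simp [D_apply]

variable (h : VS q f U W u)
include h

theorem c5 : C5 f U W u := fun e eW y e0 ey ge fx hb z hz zW zu => by_contra fun n => by
  have z5 : ∀ x ∈ pe f W, D z x = 0 := fun x hx => by
    obtain ⟨w, hw, c, rfl⟩ := pp h hx
    rw [D0, map_add, map_smul, zW w hw, zu]
  have r := im_pe h.1 hz z5
  obtain ⟨l, hl⟩ := h.ex
  have tv : ∀ g ∈ U, ∀ c : F, (∀ x, D g x = (c * f x e) • e) → c = 0 := fun g hg c k =>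
    (h.nt g hg e c (h.ww e eW e eW) fun x => by rw [D_add g, k]).resolve_left e0
  have E : ∀ c : F, ∃ g ∈ U, ∀ x, D g x = f x e • c • D z y - f x (c • D z y) • e + (c * σ c * f (D z y) y * f x e) • e := fun c => by
    obtain ⟨b, hb, k⟩ := hb (σ c)
    refine ⟨_, cmU hb hz, fun x => ?_⟩
    have := z5 (b⁻¹ x - x - (c * f x e) • y) fun m hm => by
      simp only [map_sub, map_smul, LinearMap.sub_apply, LinearMap.smul_apply, adj h.1 (inv_mem hb), inv_inv, k m hm, map_add,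
        map_smulₛₗ, map_mul, h.ss, ← h.sy, smul_eq_mul]
      ring
    rw [map_sub, map_sub, map_smul, sub_sub, sub_eq_zero] at this
    rw [cz h.1 h.iw h.ww hz z5 hb, this, k _ (add_mem (r x) (W.smul_mem _ (r y))), map_add, map_smul, LinearMap.add_apply,
      LinearMap.smul_apply, fD h.1 hz x, D_inv (z5 _ (h.ww _ (r y))), map_neg, map_smulₛₗ]
    simp only [smul_eq_mul]
    module
  have tW := r y
  replace n : D z y ≠ 0 := mt D0.1 n
  generalize D z y = t at E n tW
  have ty : f t y = 0 := by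
    obtain ⟨c, hc⟩ := H12.exists_trace_eq (σ := σ) (fun e => by simp [e] at hl) h.ss (map_one σ)
    obtain ⟨a, ha, ka⟩ := E 1
    obtain ⟨b, hb, kb⟩ := E c
    obtain ⟨g, hg, k⟩ := E (1 + c)
    refine tv _ (mul_mem (inv_mem (mul_mem ha hb)) hg) _ fun x => ?_
    have m : D b x ∈ W := kb x ▸ add_mem (sub_mem (W.smul_mem _ (W.smul_mem c tW)) (W.smul_mem _ eW)) (W.smul_mem _ eW)
    rw [D_apply, sub_eq_iff_eq_add']
    refine (a * b).injective ?_
    rw [← LinearEquiv.mul_apply, mul_inv_cancel_left, map_add, map_smul, ge _ (mul_mem ha hb), D_add g, D_add (a * b), D_mul,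
      ka (D b x), h.ww _ m e eW, h.ww _ m _ (W.smul_mem 1 tW), ka, kb, k]
    simp only [map_smulₛₗ, map_add, map_one, smul_eq_mul]
    linear_combination (norm := module) (f t y * f x e * hc) • e
  let S : Submodule F V :=
    { carrier := {t | t ∈ W ∧ ∀ c : F, ∃ g ∈ U, ∀ x, D g x = f x e • c • t - f x (c • t) • e}
      zero_mem' := ⟨zero_mem W, fun c => ⟨1, one_mem U, by simp [D_apply]⟩⟩
      smul_mem' := fun a t ht => ⟨W.smul_mem a ht.1, fun c => by simpa only [smul_smul] using ht.2 (c * a)⟩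
      add_mem' := fun {s t} hs ht => ⟨add_mem hs.1 ht.1, fun c => by
        obtain ⟨g, hg, k⟩ := hs.2 c
        obtain ⟨g', hg', k'⟩ := ht.2 c
        refine ⟨g * g', mul_mem hg hg', fun x => ?_⟩
        have m : D g' x ∈ W := k' x ▸ sub_mem (W.smul_mem _ (W.smul_mem c ht.1)) (W.smul_mem _ eW)
        rw [D_mul, k (D g' x), h.ww _ m e eW, h.ww _ m _ (W.smul_mem c hs.1), k, k', smul_add, map_add]
        module⟩ }
  obtain ⟨v, hv, v0, gv⟩ := fix h.pg (S := ⊥) (T := S) (by simp) (fun g hg t ht => ⟨h.iw g hg t ht.1, fun c => by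
    obtain ⟨k, hk, e'⟩ := ht.2 c
    refine ⟨g * k * g⁻¹, mul_mem (mul_mem hg hk) (inv_mem hg), fun x => ?_⟩
    rw [D_apply, LinearEquiv.mul_apply, LinearEquiv.mul_apply, D_add k, e', adj h.1 (inv_mem hg), adj h.1 (inv_mem hg), inv_inv]
    simp [ge g hg]⟩) fun z => n (z (show t ∈ S from ⟨tW, by simpa [ty] using E⟩))
  obtain ⟨a, rfl⟩ := fx v hv.1 fun g hg => sub_eq_zero.1 (gv g hg)
  have a0 : a ≠ 0 := by rintro rfl; simp at v0
  obtain ⟨g, hg, k⟩ := hv.2 (l / a)
  exact hl (sub_eq_zero.1 (tv g hg (l - σ l) fun x => by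
    rw [k, smul_smul (l / a), div_mul_cancel₀ _ a0, map_smulₛₗ, smul_eq_mul]; module)).symm

theorem vt : VT U W u := fun t ht tW tu => by
  haveI : Fact (ringChar F).Prime := ⟨CharP.char_is_prime F _⟩
  let X : AddSubgroup V :=
    { carrier := {a | ∃ t ∈ U, (∀ x ∈ W, t x = x) ∧ t u - u = a}
      zero_mem' := ⟨1, one_mem U, fun _ _ => rfl, sub_self u⟩
      add_mem' := by
        rintro _ _ ⟨s, hs, s1, rfl⟩ ⟨t, ht, t1, rfl⟩
        exact ⟨s * t, mul_mem hs ht, fun x hx => by simp [s1 x hx, t1 x hx],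
          (D_mul s t u).trans (by rw [show D s (D t u) = 0 from D0.2 (s1 _ (h.gu t ht)), add_zero]; rfl)⟩
      neg_mem' := by
        rintro _ ⟨t, ht, t1, rfl⟩
        exact ⟨t⁻¹, inv_mem ht, fun x hx => t.injective (by simp [t1 x hx]), D_inv (D0.2 (t1 _ (h.gu t ht)))⟩ }
  letI : MulAction U X :=
    { smul g a := ⟨g.1 a, by
        obtain ⟨_, t, ht, t1, rfl⟩ := a
        refine ⟨g * t * g.1⁻¹, mul_mem (mul_mem g.2 ht) (inv_mem g.2), fun x hx => by
          rw [LinearEquiv.mul_apply, LinearEquiv.mul_apply, t1 _ (h.iw _ (inv_mem g.2) x hx)]; simp, ?_⟩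
        have := t1 _ (h.gu _ (inv_mem g.2))
        rw [map_sub, sub_eq_iff_eq_add] at this
        rw [LinearEquiv.mul_apply, LinearEquiv.mul_apply, this]; simp; abel⟩
      one_smul _ := rfl
      mul_smul _ _ _ := rfl }
  obtain ⟨⟨_, s, hs, s1, rfl⟩, h1, h2⟩ := h.pg.exists_fixed_point_of_prime_dvd_card_of_fixed_point X (by
    rw [← addOrderOf_eq_prime (p := ringChar F) (x := (⟨_, t, ht, tW, rfl⟩ : X)) (Subtype.ext (by
      rw [AddSubgroup.coe_nsmul, ← Nat.cast_smul_eq_nsmul F, CharP.cast_eq_zero, zero_smul]; rfl))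
      fun e => tu (sub_eq_zero.1 (congrArg Subtype.val e))]
    exact addOrderOf_dvd_natCard _) (a := 0) fun g => Subtype.ext (map_zero g.1)
  exact ⟨s, hs, s1, fun e => h2 (Subtype.ext (sub_eq_zero.2 e).symm), fun g hg => congrArg Subtype.val (h1 ⟨g, hg⟩)⟩

theorem vp : VP q U W := fun ⟨P, v, hv⟩ => by
  haveI : Fact (ringChar F).Prime := ⟨CharP.char_is_prime F _⟩
  haveI : Finite (V ≃ₗ[F] V) := Finite.of_injective _ DFunLike.coe_injective
  have lt := h.lt P
  have q2 := h.q2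
  have v1 : v ∈ pe f W := fun w hw => by_contra fun n => by
    have := (Set.ncard_le_ncard (s := Set.univ) (t := (f · u) '' {y | ∃ g ∈ U, g v = y}) fun c _ => by
      obtain ⟨g, hg, e⟩ := h.tr _ (W.smul_mem (σ ((c - f v u) / f v w)) hw)
      exact ⟨_, ⟨_, inv_mem hg, rfl⟩, by simp only [adj h.1 (inv_mem hg), inv_inv, e, map_add, map_smulₛₗ, h.ss, smul_eq_mul,
        div_mul_cancel₀ _ n, add_sub_cancel]⟩).trans (Set.ncard_image_le)
    rw [h.cF, hv] at this
    nlinarith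
  have vW : v ∈ W := by
    obtain ⟨w, hw, c, rfl⟩ := pp h v1
    obtain rfl : c = 0 := by_contra fun n => by
      have := h.big (w + c • u) (by simp [h.ww w hw w hw, h.wu w hw, uw h hw, h.nu, n])
      rw [hv] at this
      exact (this.trans_lt lt).not_ge (Nat.le_self_pow (by omega) q)
    simpa
  have i : (stabilizer U v).index = ringChar F := by
    rw [index_stabilizer, ← hv]; congr 1
    exact Set.ext fun y => ⟨fun ⟨g, e⟩ => ⟨g, g.2, e⟩, fun ⟨g, hg, e⟩ => ⟨⟨g, hg⟩, e⟩⟩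
  obtain ⟨n, hn⟩ := IsPGroup.iff_card.1 h.pg
  have : (stabilizer U v).Normal := Subgroup.normal_of_index_eq_minFac_card (by
    rw [i, hn, Nat.Prime.pow_minFac Fact.out]
    rintro rfl
    have := i ▸ Nat.le_of_dvd one_pos (hn ▸ (stabilizer U v).index_dvd_card :)
    linarith [P.1])
  obtain ⟨F1, m1⟩ := lv U W ⊥
  obtain ⟨T, mT⟩ := lv ((stabilizer U v).map U.subtype) W ⊥
  obtain ⟨x, xT, x1, gx⟩ := fix h.pg (S := F1) (T := T) (inv_of bot_le fun g hg x hx => ((m1 x).1 hx).2 g hg)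
    (fun g hg x hx => (mT _).2 ⟨h.iw g hg x ((mT x).1 hx).1, by
      rintro _ ⟨s, hs, rfl⟩
      have := D0.1 (((mT x).1 hx).2 _ ⟨_, this.conj_mem' s hs ⟨g, hg⟩, rfl⟩)
      exact D0.2 (by simpa using congrArg g this)⟩) fun e => by
      have : stabilizer U v = ⊤ := eq_top_iff.2 fun g _ => D0.1 (((m1 v).1 (e ((mT v).2 ⟨vW, by
        rintro _ ⟨s, hs, rfl⟩; exact D0.2 hs⟩))).2 g g.2)
      rw [this, Subgroup.index_top] at i
      linarith [P.1]
  obtain ⟨g, hg, ng⟩ : ∃ g ∈ U, g x ≠ x := by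
    by_contra! z
    exact x1 ((m1 x).2 ⟨((mT x).1 xT).1, fun g hg => D0.2 (z g hg)⟩)
  have sx : ∀ s ∈ stabilizer U v, s.1 x = x := fun s hs => D0.1 (((mT x).1 xT).2 _ ⟨s, hs, rfl⟩)
  have fe : ∀ k ∈ U, k (g x - x) = g x - x := fun k hk => D0.1 (((m1 _).1 (gx g hg)).2 k hk)
  refine ⟨x, ((mT x).1 xT).1, _, ((m1 _).1 (gx g hg)).1, fe, fun k hk => ?_, g, hg, ng⟩
  obtain ⟨j, e⟩ := mem_powers_of_prime_card (G := U ⧸ stabilizer U v) i (g := (⟨g, hg⟩ : U)) (g' := (⟨k, hk⟩ : U))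
    fun z => ng (sx _ ((QuotientGroup.eq_one_iff _).1 z))
  have : k x = (g ^ j) x := by simpa using congrArg (g ^ j) (sx _ (QuotientGroup.eq.1 e))
  refine ⟨j, this ▸ ?_⟩
  clear e this
  induction j with
  | zero => simp
  | succ j ih => rw [pow_succ', LinearEquiv.mul_apply, ih, map_add, map_smul, fe g hg]; push_cast; module

end H9.PG
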