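/-
S5806, chunk M8: the spin module of `Sp₆` in characteristic two.
-/
import Cfsg.Agent.H11.SP3
import Cfsg.Agent.H6.SP2
import Cfsg.Agent.H24.S6a

set_option autoImplicit false
set_option linter.unusedSectionVars false

namespace H9.S6
open Matrix Cfsg H6.SP H11.SP Module Sum
open H24.S6 (ex cnt Sc ker_comp_le ψ_inj)

universe u

abbrev B8 := Bool × Bool × Bool
def tv3 (s : B8) : Fin 3 → I6 := ![cond s.1 (inl 0) (inr 0), cond s.2.1 (inl 1) (inr 1), cond s.2.2 (inl 2) (inr 2)]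

section
variable {k : Type*} [Field k]
/-- minors on transversal triples -/
def ρm (g : M6 k) : Matrix B8 B8 k := of fun s t => (g.submatrix (tv3 s) (tv3 t)).det

def d3 (a : Fin 3 → V6 k) (p q r : I6) : k := a 0 p * (a 1 q * a 2 r - a 1 r * a 2 q) -
  a 0 q * (a 1 p * a 2 r - a 1 r * a 2 p) + a 0 r * (a 1 p * a 2 q - a 1 q * a 2 p)

theorem ρ_ap (g : M6 k) (s t : B8) : ρm g s t = d3 (fun i => g (tv3 s i)) (tv3 t 0) (tv3 t 1) (tv3 t 2) := by
  simp only [ρm, of_apply, det_fin_three, submatrix_apply, d3]; ring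

theorem cb0 (a b : Fin 3 → V6 k) : (of fun i j => a i ⬝ᵥ b j).det =
    (∑ r : B8, d3 a (tv3 r 0) (tv3 r 1) (tv3 r 2) * d3 b (tv3 r 0) (tv3 r 1) (tv3 r 2)) +
    ∑ j : Fin 3, ((∑ i : Fin 3, d3 a (inl i) (inr i) (inl j) * d3 b (inl i) (inr i) (inl j)) +
      ∑ i : Fin 3, d3 a (inl i) (inr i) (inr j) * d3 b (inl i) (inr i) (inr j)) := by
  simp only [det_fin_three, of_apply, dotProduct, Fintype.sum_sum_type, Fin.sum_univ_three, Fintype.sum_prod_type,
    Fintype.sum_bool, tv3, cond_true, cond_false, cons_val, d3]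
  ring

theorem d3_sum {a : Fin 3 → V6 k} (h : ∀ i j, fm (a i) (a j) = 0) (v : I6) : ∑ i : Fin 3, d3 a (inl i) (inr i) v = 0 := by
  have h1 := h 1 2
  have h2 := h 0 2
  have h3 := h 0 1
  simp only [fm_ap, Fin.sum_univ_three, d3] at *
  linear_combination -a 0 v * h1 + a 1 v * h2 - a 2 v * h3

theorem pr3 [CharP k 2] {x y : Fin 3 → k} (hx : ∑ i, x i = 0) (hy : ∑ i, y i = 0) (j : Fin 3) (a : x j = 0) (b : y j = 0) :
    ∑ i, x i * y i = 0 := by
  have t : (2 : k) = 0 := CharP.cast_eq_zero k 2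
  simp only [Fin.sum_univ_three] at *
  fin_cases j <;> simp only [Fin.zero_eta, Fin.mk_one, Fin.reduceFinMk] at a b
  · linear_combination y 1 * hx - x 2 * hy + (y 0 - y 1) * a + x 2 * b + x 2 * y 2 * t
  · linear_combination y 0 * hx - x 2 * hy + (y 1 - y 0) * a + x 2 * b + x 2 * y 2 * t
  · linear_combination y 0 * hx - x 1 * hy + (y 2 - y 0) * a + x 1 * b + x 1 * y 1 * t

theorem tr_mem {g : G6 k} (h : g ∈ S6 k) : g.val * J _ k * g.valᵀ = J _ k :=
  SymplecticGroup.mem_iff.1 (SymplecticGroup.mem_iff'.2 (mem_J.1 h))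

theorem iso3 {m : M6 k} (h : mᵀ * J _ k * m = J _ k) (s : B8) (i j : Fin 3) :
    fm (fun u => m u (tv3 s i)) (fun u => m u (tv3 s j)) = 0 := by
  have e := congrFun (congrFun h (tv3 s i)) (tv3 s j)
  have : J (Fin 3) k (tv3 s i) (tv3 s j) = 0 := by
    obtain ⟨a, b, c⟩ := s
    cases a <;> cases b <;> cases c <;> fin_cases i <;> fin_cases j <;> simp [tv3, J]
  rw [this] at e
  simp only [mul_apply, transpose_apply, Fintype.sum_sum_type, J, Fin.sum_univ_three, fromBlocks_apply₁₁, fromBlocks_apply₁₂,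
    fromBlocks_apply₂₁, fromBlocks_apply₂₂, Matrix.zero_apply, Matrix.neg_apply, one_apply] at e
  simp only [fm_ap, Fin.sum_univ_three]
  simp at e
  linear_combination e

theorem ρ_mul [CharP k 2] {g h : G6 k} (hg : g ∈ S6 k) (hh : h ∈ S6 k) : ρm (g * h).val = ρm g.val * ρm h.val := by
  ext s t
  have a : ∀ i j, fm (fun u => g.val (tv3 s i) u) (fun u => g.val (tv3 s j) u) = 0 :=
    iso3 (m := g.valᵀ) (by simpa using tr_mem hg) s
  have b := iso3 (mem_J.1 hh) t
  have := cb0 (fun i u => g.val (tv3 s i) u) fun j u => h.val u (tv3 t j)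
  rw [Finset.sum_eq_zero (s := Finset.univ (α := Fin 3)) fun j _ => by
    rw [pr3 (d3_sum a _) (d3_sum b _) j, pr3 (d3_sum a _) (d3_sum b _) j, add_zero] <;> simp only [d3] <;> ring, add_zero] at this
  refine this.trans ?_
  rw [mul_apply]
  refine Finset.sum_congr rfl fun r _ => ?_
  simp only [ρ_ap, d3]; ring

theorem ρ_diag (d : I6 → k) : ρm (diagonal d) = diagonal fun s => ∏ i, d (tv3 s i) := by
  ext ⟨a, b, c⟩ ⟨a', b', c'⟩
  cases a <;> cases b <;> cases c <;> cases a' <;> cases b' <;> cases c' <;>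
    simp [ρ_ap, d3, tv3, Fin.prod_univ_three, mul_assoc]

theorem ρ_one : ρm (1 : M6 k) = 1 := by rw [← diagonal_one, ρ_diag]; simp

theorem ρ_map {K : Type*} [Field K] (σ : k →+* K) (m : M6 k) : ρm (m.map σ) = (ρm m).map σ := by
  ext s t; simp only [ρm, of_apply, map_apply, RingHom.map_det]; rfl

theorem ρ_tr (m : M6 k) : ρm mᵀ = (ρm m)ᵀ := by
  ext s t; simp only [ρm, of_apply, transpose_apply]; rw [← det_transpose]; rfl

/-- the representation -/
def ρ8 [CharP k 2] : S6 k →* Matrix B8 B8 k := ⟨⟨fun g => ρm g.1.val, ρ_one⟩, fun g h => ρ_mul g.2 h.2⟩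

/-- its dual -/
def ρ8' [CharP k 2] : S6 k →* Matrix B8 B8 k := ⟨⟨fun g => (ρ8 g⁻¹)ᵀ, by simp⟩, fun g h => by simp⟩

def t0 : M6 k := 1 + single (inl 0) (inr 0) 1

theorem fix0 {v : B8 → k} (h : ρm t0 *ᵥ v = v) (h' : ρm t0ᵀ *ᵥ v = v) : v = 0 := by
  funext ⟨a, b, c⟩
  have e := congrFun h (true, b, c)
  have e' := congrFun h' (false, b, c)
  cases a <;> cases b <;> cases c <;>
    simp [ρ_ap, d3, tv3, t0, mulVec, dotProduct, Fintype.sum_prod_type, one_apply] at e e' ⊢ <;> assumption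

theorem t0_sq [CharP k 2] : (t0 : M6 k) * t0 = 1 := by
  simp [t0, add_mul, mul_add, add_assoc, CharTwo.add_self_eq_zero]

theorem t0_J : (t0 : M6 k)ᵀ * J _ k * t0 = J _ k := by
  ext (i | i) (j | j) <;> fin_cases i <;> fin_cases j <;> simp [t0, J, mul_apply, one_apply, single_apply]

theorem t1_J : (t0 : M6 k)ᵀᵀ * J _ k * t0ᵀ = J _ k := SymplecticGroup.mem_iff.1 (SymplecticGroup.mem_iff'.2 t0_J)

variable [CharP k 2]
theorem ex_g {m : M6 k} (h : m * m = 1) (h' : mᵀ * J _ k * m = J _ k) : ∃ g : S6 k, ρ8 g = ρm m ∧ ρ8' g = ρm mᵀ :=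
  ⟨⟨⟨m, m, h, h⟩, mem_J.2 h'⟩, rfl, (ρ_tr m).symm⟩

theorem nofix {v : B8 → k} (h : (∀ g, ρ8 g *ᵥ v = v) ∨ ∀ g, ρ8' g *ᵥ v = v) : v = 0 := by
  obtain ⟨a, a1, a2⟩ := ex_g (k := k) t0_sq t0_J
  obtain ⟨b, b1, b2⟩ := ex_g (k := k) (m := t0ᵀ) (by rw [← transpose_mul, t0_sq, transpose_one]) t1_J
  rw [transpose_transpose] at b2
  rcases h with h | h
  exacts [fix0 (a1 ▸ h a) (b1 ▸ h b), fix0 (b2 ▸ h b) (a2 ▸ h a)]
end

theorem orb {F G : Type u} [Field F] [Fintype F] [CharP F 2] [Group G] {H P : Subgroup (G6 F)} {π : P →* G} (h : St H P π)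
    (h2 : ∀ a ∈ H, a ^ 2 ∈ P) (R : S6 F →* Matrix B8 B8 F) (nf : ∀ v, (∀ g, R g *ᵥ v = v) → v = 0) {x y : P} (g : Gn π x y)
    {w : B8 → F} (w0 : w ≠ 0) (hx : R ⟨x, h.sp x.2⟩ *ᵥ w = w) (hy : R ⟨y, h.sp y.2⟩ *ᵥ w = w) :
    Nat.card (S6 F) ≤ Nat.card H * Fintype.card F ^ 8 := by
  let _ : MulAction (S6 F) (B8 → F) :=
    { smul := fun g v => R g *ᵥ v
      one_smul := fun v => by show R 1 *ᵥ v = v; rw [map_one, one_mulVec]
      mul_smul := fun a b v => by show R (a * b) *ᵥ v = R a *ᵥ R b *ᵥ v; rw [map_mul, mulVec_mulVec] }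
  have le := h.max.1.le
  let U : AddSubgroup (B8 → F) :=
    { carrier := {v | ∀ a : S6 F, a.1 ∈ P → a • v = v}
      zero_mem' := fun _ _ => mulVec_zero _
      add_mem' := fun ha hb a m => (mulVec_add _ _ _).trans (congrArg₂ _ (ha a m) (hb a m))
      neg_mem' := fun ha a m => (mulVec_neg _ _).trans (congrArg _ (ha a m)) }
  have wU : w ∈ U := fun a m => by
    have : Subgroup.closure {x, y} ≤ (MulAction.stabilizer (S6 F) w).comap (Subgroup.inclusion h.sp) :=
      (Subgroup.closure_le _).2 (by rintro _ (rfl | rfl) <;> assumption)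
    exact this (x := ⟨a, m⟩) (gn_top h.toRq g ▸ trivial)
  let _ : MulAction H U :=
    { smul := fun a v => ⟨(⟨a, le a.2⟩ : S6 F) • v.1, fun b m => by
        have := v.2 ((⟨a, le a.2⟩ : S6 F)⁻¹ * b * ⟨a, le a.2⟩) (by simpa using h.nrm _ (inv_mem a.2) _ m)
        rwa [mul_smul, mul_smul, inv_smul_eq_iff] at this⟩
      one_smul := fun v => Subtype.ext (one_smul (S6 F) v.1)
      mul_smul := fun a b v => Subtype.ext (mul_smul (⟨a, le a.2⟩ : S6 F) ⟨b, le b.2⟩ v.1) }
  have pg : IsPGroup 2 (MulAction.toPermHom H U).range := by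
    rintro ⟨_, a, rfl⟩
    refine ⟨1, Subtype.ext ?_⟩
    rw [pow_one, Subgroup.coe_pow, ← map_pow]
    exact Equiv.ext fun v => Subtype.ext (v.2 ⟨_, le (a ^ 2).2⟩ (h2 a a.2))
  have d : 2 ∣ Nat.card U := by
    have := addOrderOf_dvd_natCard (⟨w, wU⟩ : U)
    rwa [addOrderOf_eq_prime (p := 2) (Subtype.ext (by rw [two_nsmul]; exact H6.SP.vv (k := F) w))
      fun e => w0 (congrArg Subtype.val e)] at this
  obtain ⟨v, hv, v0⟩ := pg.exists_fixed_point_of_prime_dvd_card_of_fixed_point U d (a := 0) (by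
    rintro ⟨_, a, rfl⟩; exact Subtype.ext (mulVec_zero (R ⟨a, le a.2⟩)))
  rcases h.max.2 ((MulAction.stabilizer (S6 F) v.1).map (S6 F).subtype)
    (fun a ha => ⟨⟨a, le ha⟩, congrArg Subtype.val (hv ⟨_, ⟨a, ha⟩, rfl⟩), rfl⟩) (Subgroup.map_subtype_le _) with e | e
  · rw [← e, Subgroup.card_map_of_injective (S6 F).subtype_injective, ← (MulAction.stabilizer (S6 F) v.1).card_mul_index,
      MulAction.index_stabilizer]
    refine Nat.mul_le_mul_left _ ((Set.ncard_le_card _).trans ?_)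
    simp
  · refine absurd (Subtype.ext (nf _ fun a => ?_).symm) v0
    obtain ⟨b, hb, e'⟩ := e.ge a.2
    exact (Subtype.ext e' : b = a) ▸ hb

section
variable {K : Type*} [Field K]

theorem rank_cj {ι : Type} [Fintype ι] [DecidableEq ι] {A A' : Matrix ι ι K} (h : A * A' = 1) (d : ι → K) (p : ι → Prop)
    [DecidablePred p] (hp : ∀ i, d i = 1 ↔ p i) : (A * diagonal d * A' - 1).rank + (Finset.univ.filter p).card = Fintype.card ι := by
  classical
  rw [show A * diagonal d * A' - 1 = A * diagonal (d - 1) * A' by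
    rw [show diagonal (d - 1) = diagonal d - 1 by rw [← diagonal_one, diagonal_sub]; rfl, mul_sub, sub_mul, mul_one, h],
    rank_mul_eq_left_of_isUnit_det _ _ (isUnit_det_of_left_inverse h), rank_mul_eq_right_of_isUnit_det _ _
      (isUnit_det_of_right_inverse h), rank_diagonal, Fintype.card_subtype, add_comm,
    ← Finset.card_univ, ← Finset.card_filter_add_card_filter_not (s := Finset.univ) p]
  simp only [Pi.sub_apply, Pi.one_apply, ne_eq, sub_eq_zero, hp]

def rc {n : ℕ} (e : Fin 3 → ZMod n) : ℕ := (Finset.univ.filter fun i => ex e i = 0).card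
def fx {n : ℕ} (e : Fin 3 → ZMod n) : ℕ := (Finset.univ.filter fun s => ∑ i, ex e (tv3 s i) = 0).card

theorem spec8 [IsAlgClosed K] [CharP K 2] (n : ℕ) [NeZero n] (h0 : (n : K) ≠ 0) {x : G6 K} (hx : x ∈ S6 K) (xn : x ^ n = 1) :
    ∃ e : Fin 3 → ZMod n, cnt e ≤ dh x.val x.val ∧ rk x + rc e = 6 ∧ (ρm x.val - 1).rank + fx e = 8 := by
  have : NeZero (n : K) := ⟨h0⟩
  obtain ⟨ζ, hζ⟩ := HasEnoughRootsOfUnity.exists_primitiveRoot K n
  obtain ⟨B, mB, hB⟩ := dg' {x} (by simpa) (by simp) (by simpa using ⟨n, h0, xn⟩)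
  obtain ⟨d, hd⟩ := hB x rfl
  have pw : ∀ k : ℕ, (x ^ k).val = B.val * H6.SP.dg d ^ k * (B⁻¹).val := fun k => by
    rw [← hd, ← Units.val_pow_eq_pow_val, ← Units.val_mul, ← Units.val_mul, ← conj_pow]; simp [mul_assoc]
  have dn : ∀ i, (d i : K) ^ n = 1 := fun i => by
    have := pw n
    rw [xn, eq_comm, Units.mul_inv_eq_iff_eq_mul, Units.val_one, one_mul] at this
    replace this := (Units.mul_right_inj B).1 (this.trans (mul_one _).symm)
    rw [H6.SP.dg, diagonal_pow, ← diagonal_one] at this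
    exact congrFun (diagonal_injective this) (.inl i)
  choose e _ he using fun i => hζ.eq_pow_of_pow_eq_one (dn i)
  have s : Sc (AddChar.zmodChar n hζ.pow_eq_one) x B fun i => e i := ⟨AddChar.zmodChar_primitive_of_primitive_root n hζ, fun k => by
    rw [pw, H6.SP.dg, diagonal_pow]
    congr 3
    ext (i | i) <;> simp [ex, ← nsmul_eq_mul, AddChar.map_nsmul_eq_pow, AddChar.map_neg_eq_inv, AddChar.zmodChar_apply', he]⟩
  generalize AddChar.zmodChar n hζ.pow_eq_one = ψ at s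
  refine ⟨_, s.cnt_le, ?_, ?_⟩
  · rw [rk, s.one]; exact rank_cj B.mul_inv _ _ fun i => s.pr.zmod_char_eq_one_iff n _
  · have e1 : (B⁻¹ * x * B).val = diagonal fun i => ψ (ex (fun i => (e i : ZMod n)) i) := by
      rw [Units.val_mul, Units.val_mul, s.one]; simp [Matrix.mul_assoc]
    have m : B⁻¹ * x * B ∈ S6 K := mul_mem (mul_mem (inv_mem mB) hx) mB
    rw [show x = B * (B⁻¹ * x * B) * B⁻¹ by group, ρ_mul (mul_mem mB m) (inv_mem mB), ρ_mul mB m, e1, ρ_diag]
    refine rank_cj (by rw [← ρ_mul mB (inv_mem mB), mul_inv_cancel, Units.val_one, ρ_one]) _ _ fun t => ?_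
    rw [← s.pr.zmod_char_eq_one_iff n]
    simp only [Fin.prod_univ_three, Fin.sum_univ_three, AddChar.map_add_eq_mul]

theorem half {V : Type*} [AddCommGroup V] [Module K V] [FiniteDimensional K V] {L : End K V} (h : L * L = 0) :
    finrank K V ≤ 2 * finrank K (LinearMap.ker L) := by
  have := ker_comp_le L L
  rw [h, LinearMap.ker_zero, finrank_top] at this; omega

theorem ker_rank {ι : Type} [Fintype ι] [DecidableEq ι] (m : Matrix ι ι K) :
    (m - 1).rank + finrank K (LinearMap.ker (toLin' m - 1)) = Fintype.card ι := by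
  have := (toLin' m - 1).finrank_range_add_finrank_ker
  rwa [finrank_fintype_fun_eq_card, show LinearMap.range (toLin' m - 1) = LinearMap.range (m - 1).mulVecLin by
    congr 1; ext; simp] at this

theorem inv_half [CharP K 2] {ι : Type} [Fintype ι] [DecidableEq ι] {m : Matrix ι ι K} (h : m * m = 1) :
    2 * (m - 1).rank ≤ Fintype.card ι := by
  have := half (L := toLin' m - 1) (by
    refine LinearMap.ext fun v => ?_
    have : ((toLin' m - 1) * (toLin' m - 1) : End K (ι → K)) v = (v + v) - (m *ᵥ v + m *ᵥ v) := by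
      simp only [End.mul_apply, LinearMap.sub_apply, toLin'_apply, End.one_apply, mulVec_sub, mulVec_mulVec, h, one_mulVec]
      abel
    rw [this, H6.SP.vv (k := K), H6.SP.vv (k := K)]; simp)
  have := ker_rank m
  rw [finrank_fintype_fun_eq_card] at *; omega

theorem dh2 [CharP K 2] {x : M6 K} (h : x * x = 1) : 18 ≤ dh x x := by
  let L : End K (M6 K) := LinearMap.mulLeft K x - LinearMap.mulRight K x
  have := half (L := L) (LinearMap.ext fun m => by
    have : (L * L) m = (x * x * m + m * (x * x)) - 2 • (x * m * x) := by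
      simp only [L, End.mul_apply, LinearMap.sub_apply, LinearMap.mulLeft_apply, LinearMap.mulRight_apply]; noncomm_ring
    rw [this, h, one_mul, mul_one, two_nsmul, H6.SP.vv (k := K), H6.SP.vv (k := K)]; simp)
  have c : dh x x = finrank K (LinearMap.ker L) :=
    congrArg (fun S : Submodule K (M6 K) => finrank K S) (Submodule.ext fun m => sub_eq_zero.symm)
  rw [finrank_matrix] at this
  simp at this; omega
end

theorem m8 : M8.{u} := fun F G _ _ _ _ H P π h h2 x y g x2 y3 z7 => by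
  let K := AlgebraicClosure F
  let σ := algebraMap F K
  obtain ⟨π', h', e⟩ := upq σ h.toRq
  have t : (2 : K) = 0 := CharP.cast_eq_zero K 2
  obtain ⟨s1, s2, -⟩ := sc K G _ π' h' ⟨_, x.1, x.2, rfl⟩ ⟨_, y.1, y.2, rfl⟩ (by rw [Gn, e, e]; exact g)
  have xx : x.1.val * x.1.val = 1 := by rw [← Units.val_mul, ← sq, ← Subgroup.coe_pow, x2]; rfl
  have xx' : (GeneralLinearGroup.map σ x.1).val * (GeneralLinearGroup.map σ x.1).val = 1 := by
    rw [← Units.val_mul, ← map_mul, ← sq, ← Subgroup.coe_pow, x2]; simp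
  obtain ⟨a, a1, a2, a3⟩ := spec8 3 (fun e => one_ne_zero (α := K) (by push_cast at e; linear_combination e - t))
    ((gm_mem σ).2 (h.sp y.2)) (by rw [← map_pow, ← Subgroup.coe_pow, y3]; simp)
  obtain ⟨b, b1, b2, b3⟩ := spec8 7 (fun e => one_ne_zero (α := K) (by push_cast at e; linear_combination e - 3 * t))
    ((gm_mem σ).2 (h.sp (x * y).2)) (by rw [← map_pow, ← Subgroup.coe_pow, z7]; simp)
  have c1 := dh2 xx'
  have c2 := inv_half xx'
  have c3 := inv_half (m := ρm x.1.val) (by rw [← ρ_mul (h.sp x.2) (h.sp x.2), Units.val_mul, xx, ρ_one])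
  have d1 := (by decide +kernel : ∀ e : Fin 3 → ZMod 3, 12 ≤ cnt e ∧ (cnt e ≤ 14 → 2 ≤ rc e ∧ 4 ≤ fx e)) a
  have d2 := (by decide +kernel : ∀ e : Fin 3 → ZMod 7, 6 ≤ cnt e ∧ (cnt e ≤ 8 → rc e ≤ 1 → 2 ≤ fx e)) b
  have r : ∀ z : G6 F, (ρm (GeneralLinearGroup.map σ z).val - 1).rank = (ρm z.val - 1).rank := fun z => by
    rw [gm_val, ρ_map, ← rank_map σ, Matrix.map_sub _ (map_sub σ), Matrix.map_one _ (map_zero σ) (map_one σ)]
  rw [r] at a3 b3
  have k := scott (toLin' (ρm x.1.val)) (toLin' (ρm y.1.val))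
  rw [End.mul_eq_comp, ← toLin'_mul, ← ρ_mul (h.sp x.2) (h.sp y.2), finrank_fintype_fun_eq_card] at k
  have k1 := ker_rank (ρm x.1.val)
  have k2 := ker_rank (ρm y.1.val)
  have k3 := ker_rank (ρm (x.1 * y.1).val)
  simp only [Subgroup.coe_mul, map_mul, rk] at *
  have c8 : Fintype.card B8 = 8 := rfl
  have c6 : Fintype.card I6 = 6 := rfl
  rcases Nat.eq_zero_or_pos (finrank F ↥(LinearMap.ker (toLin' (ρm x.1.val) - 1) ⊓ LinearMap.ker (toLin' (ρm y.1.val) - 1)))
    with z | z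
  · obtain ⟨φ, hφ, φ0⟩ := (Submodule.ne_bot_iff _).1 (show (LinearMap.range (toLin' (ρm x.1.val) - 1) ⊔
      LinearMap.range (toLin' (ρm y.1.val) - 1)).dualAnnihilator ≠ ⊥ from fun e => by rw [e, finrank_bot] at k; omega)
    rw [mem_ann] at hφ
    obtain ⟨w, rfl⟩ := (dotProductEquiv F B8).surjective φ
    have q : ∀ z : S6 F, (∀ v, dotProductEquiv F B8 w (toLin' (ρm z.1.val) v) = dotProductEquiv F B8 w v) →
        ρ8' z *ᵥ w = w := fun z e => by
      have : (ρ8 z)ᵀ *ᵥ w = w := (dotProductEquiv F B8).injective (LinearMap.ext fun v => by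
        simpa [mulVec_transpose, ← dotProduct_mulVec, ρ8] using e v)
      show (ρ8 z⁻¹)ᵀ *ᵥ w = w
      conv_lhs => rw [← this, mulVec_mulVec, ← transpose_mul, ← map_mul, mul_inv_cancel, map_one, transpose_one, one_mulVec]
    exact orb h h2 ρ8' (fun _ e => nofix (.inr e)) g (fun e => φ0 (by rw [e, map_zero])) (q _ hφ.1) (q _ hφ.2)
  · obtain ⟨w, ⟨w1, w2⟩, w0⟩ := (Submodule.ne_bot_iff _).1 (show LinearMap.ker (toLin' (ρm x.1.val) - 1) ⊓
      LinearMap.ker (toLin' (ρm y.1.val) - 1) ≠ ⊥ from fun e => by rw [e, finrank_bot] at z; omega)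
    exact orb h h2 ρ8 (fun _ e => nofix (.inl e)) g w0 (sub_eq_zero.1 w1) (sub_eq_zero.1 w2)

end H9.S6
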