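/-
S5806: the field conditions for `U₃(3)` (U3a, U3o).
-/
import Cfsg.Agent.H4.SPb
import Cfsg.Agent.H11.SP2
import Cfsg.Agent.H8.G2Two
import Cfsg.Agent.S0815
import Cfsg.Agent.S2089

set_option autoImplicit false
set_option linter.unusedSectionVars false
set_option linter.unusedVariables false

namespace H9.S6
open Matrix Cfsg Cfsg.Geo H27.Asch H6.SP H4.SP
open H11.SP hiding dg
universe u

section
variable {K : Type*} [Field K]

theorem ua_cb {z : Kˣ} (h : z ^ 3 = 1) (n : z ≠ 1) : (z : K) ^ 2 + z + 1 = 0 :=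
  mul_left_cancel₀ (sub_ne_zero.2 (mt Units.val_eq_one.1 n)) (by
    have : (z : K) ^ 3 = 1 := by simpa using congrArg Units.val h
    linear_combination this)

theorem ua_inv {z : Kˣ} (h : z ^ 3 = 1) : (z : K)⁻¹ = z ^ 2 :=
  inv_eq_of_mul_eq_one_right (by
    have : (z : K) ^ 3 = 1 := by simpa using congrArg Units.val h
    linear_combination this)

theorem ua_pm {z : Kˣ} (h : z ^ 2 = 1) : ((z : K) = 1 ∧ (z : K)⁻¹ = 1) ∨ ((z : K) = -1 ∧ (z : K)⁻¹ = -1) := by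
  have : (z : K) ^ 2 = 1 := by simpa using congrArg Units.val h
  rcases mul_self_eq_one_iff.1 ((sq _).symm.trans this) with e | e <;> simp [e]

theorem ua_sg {z : Kˣ} (h : z ^ 2 = 1) : ∃ m : ℤ, (m = 1 ∨ m = -1) ∧ (z : K)⁻¹ = m ∧ (z : K) = m := by
  rcases ua_pm h with ⟨a, b⟩ | ⟨a, b⟩
  exacts [⟨1, .inl rfl, by simpa using b, by simpa using a⟩, ⟨-1, .inr rfl, by simpa using b, by simpa using a⟩]

theorem ua_nd (h2 : (2 : K) ≠ 0) (h3 : (3 : K) ≠ 0) (m : ℤ) (h : (m : K) = 0) : ¬ m ∣ 24 := fun ⟨c, e⟩ =>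
  mul_ne_zero (pow_ne_zero 3 h2) h3 (by
    have := congrArg (Int.cast : ℤ → K) e
    push_cast at this
    linear_combination this + c * h)

/-- a value of the trace function on a plane -/
def uv (z : Kˣ) : K := z + (z : K)⁻¹

theorem ua_loc {x y : Kˣ} (hx : x ^ 3 = 1) (hy : y ^ 3 = 1) : ∃ m : K, uv x + uv (x * y) + uv (x * y * y) = 3 * uv x - 3 * m ∧
    (y = 1 ∧ m = 0 ∨ y ≠ 1 ∧ (m = 2 ∨ m = -1)) := by
  by_cases e : y = 1
  · exact ⟨0, by simp [e]; ring, .inl ⟨e, rfl⟩⟩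
  refine ⟨uv x, ?_, .inr ⟨e, ?_⟩⟩
  · have := ua_cb hy e
    have y3 : (y : K) ^ 3 = 1 := by simpa using congrArg Units.val hy
    simp only [uv, Units.val_mul, mul_inv, ua_inv hy]
    linear_combination ((x : K) + (x : K)⁻¹) * this + (x : K)⁻¹ * y * y3
  · by_cases e : x = 1
    · left; simp [e, uv]; norm_num
    · right; rw [uv, ua_inv hx]; linear_combination ua_cb hx e

variable [IsAlgClosed K]

/-- the centre of a Heisenberg group has no fixed vectors -/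
theorem ua_rk (h2 : (2 : K) ≠ 0) (h3 : (3 : K) ≠ 0) {b c : G6 K} (hb : b ∈ S6 K) (hc : c ∈ S6 K) (b3 : b ^ 3 = 1) (c3 : c ^ 3 = 1)
    (c1 : c ≠ 1) (bc : b * c = c * b) (t1 : T (b * c) = T b) (t2 : T (b * c * c) = T b) :
    rk c = 6 ∧ c.val ^ 2 + c.val + 1 = 0 := by
  classical
  obtain ⟨φ, d, e, h, rfl, rfl⟩ := tor2 hb hc bc h3 h3 b3 c3
  have H : ∀ i, e i ≠ 1 := by
    simp only [← map_mul, h.T, Fin.sum_univ_three, Pi.mul_apply] at t1 t2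
    change uv _ + uv _ + uv _ = uv _ + uv _ + uv _ at t1 t2
    have n : ¬ (e 0 = 1 ∧ e 1 = 1 ∧ e 2 = 1) := fun ⟨a, b, c⟩ => c1 (by
      rw [← map_one φ]; congr 1; ext1 i; fin_cases i <;> assumption)
    obtain ⟨r, hr⟩ : ∃ r : K, 2 * r = 1 := ⟨_, mul_inv_cancel₀ h2⟩
    obtain ⟨r', hr'⟩ : ∃ r : K, 3 * r = 1 := ⟨_, mul_inv_cancel₀ h3⟩
    have L := fun i => ua_loc (h.pw b3 i) (h.pw c3 i)
    have : e 0 ≠ 1 ∧ e 1 ≠ 1 ∧ e 2 ≠ 1 := by
      obtain ⟨x, hx, a⟩ := L 0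
      obtain ⟨y, hy, b⟩ := L 1
      obtain ⟨z, hz, c⟩ := L 2
      have : x + y + z = 0 := mul_left_cancel₀ h3 (by linear_combination hx + hy + hz - t1 - t2)
      clear hx hy hz t1 t2 L
      rcases a with ⟨a, rfl⟩ | ⟨a, rfl | rfl⟩ <;> rcases b with ⟨b, rfl⟩ | ⟨b, rfl | rfl⟩ <;>
        rcases c with ⟨c, rfl⟩ | ⟨c, rfl | rfl⟩ <;> first | exact ⟨a, b, c⟩ | exact (n ⟨a, b, c⟩).elim | (exfalso; grind) |
          exact (mul_ne_zero h2 h2 (by linear_combination this)).elim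
    intro i; fin_cases i; exacts [this.1, this.2.1, this.2.2]
  refine ⟨by rw [h.rk, Finset.filter_true_of_mem fun i _ => H i]; rfl, ?_⟩
  obtain ⟨B, -, hB⟩ := h.cj
  have z : dg (e ^ 2) + dg e + dg (1 : Fin 3 → Kˣ) = 0 := by
    simp only [dg, diagonal_add]
    rw [← diagonal_zero]; congr 1
    ext (i | i)
    · simpa using ua_cb (h.pw c3 i) (H i)
    · simpa using ua_cb (z := (e i)⁻¹) (by rw [inv_pow, h.pw c3 i, inv_one]) (inv_ne_one.2 (H i))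
  rw [← Units.val_pow_eq_pow_val, ← map_pow, ← Units.val_one, ← map_one φ, hB, hB, hB, ← add_mul, ← add_mul, ← mul_add, ← mul_add, z]
  simp

/-- involutions in a four-group with one class -/
theorem ua_v4 (h2 : (2 : K) ≠ 0) (h3 : (3 : K) ≠ 0) {t s : G6 K} (ht : t ∈ S6 K) (hs : s ∈ S6 K) (t2 : t ^ 2 = 1) (s2 : s ^ 2 = 1)
    (t1 : t ≠ 1) (c : t * s = s * t) (e1 : T s = T t) (e2 : T (t * s) = T t) : T t = -2 := by
  obtain ⟨φ, d, e, h, rfl, rfl⟩ := tor2 ht hs c h2 h2 t2 s2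
  simp only [← map_mul, h.T, Fin.sum_univ_three, Pi.mul_apply, Units.val_mul, mul_inv] at e1 e2 ⊢
  have n : ¬ ((d 0 : K) = 1 ∧ (d 1 : K) = 1 ∧ (d 2 : K) = 1) := fun ⟨a, b, c⟩ => t1 (by
    rw [← map_one φ]; congr 1; ext i; fin_cases i <;> assumption)
  obtain ⟨a, ha, a', a''⟩ := ua_sg (h.pw t2 0)
  obtain ⟨b, hb, b', b''⟩ := ua_sg (h.pw t2 1)
  obtain ⟨c, hc, c', c''⟩ := ua_sg (h.pw t2 2)
  obtain ⟨x, hx, x', x''⟩ := ua_sg (h.pw s2 0)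
  obtain ⟨y, hy, y', y''⟩ := ua_sg (h.pw s2 1)
  obtain ⟨z, hz, z', z''⟩ := ua_sg (h.pw s2 2)
  simp only [a', b', c', x', y', z'] at e1 e2 ⊢
  simp only [a'', b'', c'', x'', y'', z''] at e1 e2 n ⊢
  have X := ua_nd h2 h3 (2 * (x + y + z - a - b - c)) (by push_cast; linear_combination e1)
  have Y := ua_nd h2 h3 (2 * (a * x + b * y + c * z - a - b - c)) (by push_cast; linear_combination e2)
  have Z : ¬ (a = 1 ∧ b = 1 ∧ c = 1) := fun ⟨a, b, c⟩ => n (by simp [a, b, c])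
  have : a + b + c = -1 := by
    revert X Y Z
    rcases ha with rfl | rfl <;> rcases hb with rfl | rfl <;> rcases hc with rfl | rfl <;> rcases hx with rfl | rfl <;>
      rcases hy with rfl | rfl <;> rcases hz with rfl | rfl <;> decide
  have := congrArg (Int.cast : ℤ → K) this
  push_cast at this
  linear_combination 2 * this

theorem ua_t0 (h2 : (2 : K) ≠ 0) (h3 : (3 : K) ≠ 0) {t : G6 K} (ht : t ∈ S6 K) (t2 : t ^ 2 = 1) : T t ≠ 0 := by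
  obtain ⟨φ, d, e, h, rfl, -⟩ := tor2 ht ht rfl h2 h2 t2 t2
  simp only [h.T, Fin.sum_univ_three]
  obtain ⟨a, ha, a', a''⟩ := ua_sg (h.pw t2 0)
  obtain ⟨b, hb, b', b''⟩ := ua_sg (h.pw t2 1)
  obtain ⟨c, hc, c', c''⟩ := ua_sg (h.pw t2 2)
  simp only [a', b', c']
  simp only [a'', b'', c'']
  refine fun e => ua_nd h2 h3 (2 * (a + b + c)) (by push_cast; linear_combination e) ?_
  rcases ha with rfl | rfl <;> rcases hb with rfl | rfl <;> rcases hc with rfl | rfl <;> decide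

theorem ua_pl {x y : Kˣ} (hx : x ^ 4 = 1) (hy : y ^ 3 = 1) (n : y ≠ 1) :
    (uv (x ^ 2) = 2 ∧ ∃ m : ℤ, uv (x * y) = m) ∨ (uv (x ^ 2) = -2 ∧ uv (x * y) ^ 2 = 3) := by
  have := ua_cb hy n
  simp only [uv, Units.val_mul, mul_inv, ua_inv hy]
  rcases ua_pm (z := x ^ 2) (by rw [← pow_mul, hx]) with ⟨a, a'⟩ | ⟨a, a'⟩
  · refine .inl ⟨by rw [a', a]; norm_num, ?_⟩
    rcases ua_pm (Units.val_eq_one.1 a) with ⟨b, b'⟩ | ⟨b, b'⟩ <;> rw [b', b]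
    · exact ⟨-1, by push_cast; linear_combination this⟩
    · exact ⟨1, by push_cast; linear_combination -this⟩
  · refine .inr ⟨by rw [a', a]; norm_num, ?_⟩
    rw [Units.val_pow_eq_pow_val] at a
    rw [show (x : K)⁻¹ = -x from inv_eq_of_mul_eq_one_right (by linear_combination -a)]
    grind

theorem ua_core (h2 : (2 : K) ≠ 0) (h3 : (3 : K) ≠ 0) {c s t k : G6 K} (hc : c ∈ S6 K) (hs : s ∈ S6 K) (hk : k ∈ S6 K)
    (c3 : c ^ 3 = 1) (r6 : rk c = 6 ∧ c.val ^ 2 + c.val + 1 = 0) (t2 : t ^ 2 = 1) (Tt : T t = -2) (k2 : k ^ 2 = 1 ∨ k ^ 2 = -1)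
    (kc : k * c * k⁻¹ = c⁻¹) (sc : s * c * s⁻¹ = c⁻¹) (ks : k * s * k⁻¹ * s = t) : ∃ m : ℤ, (T (k * s * c) - m) ^ 2 = 3 := by
  classical
  have ci : c⁻¹ = c ^ 2 := inv_eq_of_mul_eq_one_right (by rw [← pow_succ', c3])
  have kc' : k * c⁻¹ * k⁻¹ = c := by rw [← conj_inv, kc, inv_inv]
  have k2 : k ^ 2 = -1 := k2.resolve_left fun e => ua_t0 h2 h3 hk e (by
    have e1 : T (k * c) = T k := by
      rw [← T_conj c k, ← mul_inv_eq_iff_eq_mul.1 kc', mul_assoc, ← pow_two, inv_pow, ← ci, inv_inv]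
    have e2 : T (k * c ^ 2) = T k := by
      rw [← T_conj c⁻¹ k, inv_inv, ← mul_inv_eq_iff_eq_mul.1 kc, mul_assoc, ← pow_two]
    have : T (k * c ^ 2) + T (k * c) + T k = 0 := by
      simp only [T, Units.val_mul, Units.val_pow_eq_pow_val, ← trace_add]
      rw [← mul_add, ← mul_add_one, r6.2, mul_zero, trace_zero]
    exact mul_left_cancel₀ h3 (by linear_combination this - e1 - e2))
  have x2 : (k * s) ^ 2 = -t := by
    rw [← ks, show (k * s) ^ 2 = k * s * k⁻¹ * k ^ 2 * s by simp only [pow_two]; group, k2]; simp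
  have xc : k * s * c = c * (k * s) := by
    rw [← mul_inv_eq_iff_eq_mul, show k * s * c * (k * s)⁻¹ = k * (s * c * s⁻¹) * k⁻¹ by group, sc, kc']
  have x4 : (k * s) ^ 4 = 1 := by rw [show 4 = 2 * 2 from rfl, pow_mul, x2, neg_sq, t2]
  obtain ⟨φ, d, e, h, hd, rfl⟩ := tor2 ((S6 K).mul_mem hk hs) hc xc (m := 4)
    (by rw [show ((4 : ℕ) : K) = 2 * 2 by norm_num]; exact mul_ne_zero h2 h2) h3 x4 c3
  have H : ∀ i, e i ≠ 1 := fun i => by
    have := (h.rk e).symm.trans r6.1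
    have := Finset.eq_univ_of_card (Finset.univ.filter fun i => e i ≠ 1) (by rw [Fintype.card_fin]; omega)
    exact Finset.filter_eq_self.1 this i (Finset.mem_univ i)
  have e2 : T ((k * s) ^ 2) = 2 := by rw [x2, T_neg, Tt, neg_neg]
  rw [← hd] at x4
  rw [← hd, ← map_pow, h.T, Fin.sum_univ_three] at e2
  rw [← hd, ← map_mul, h.T, Fin.sum_univ_three]
  change uv (d 0 ^ 2) + uv (d 1 ^ 2) + uv (d 2 ^ 2) = 2 at e2
  change ∃ m : ℤ, (uv (d 0 * e 0) + uv (d 1 * e 1) + uv (d 2 * e 2) - m) ^ 2 = 3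
  have L := fun i => ua_pl (h.pw x4 i) (h.pw c3 i) (H i)
  have N := ua_nd h2 h3
  rcases L 0 with ⟨a, x, a'⟩ | ⟨a, a'⟩ <;> rcases L 1 with ⟨b, y, b'⟩ | ⟨b, b'⟩ <;> rcases L 2 with ⟨c, z, c'⟩ | ⟨c, c'⟩ <;>
    rw [a, b, c] at e2
  · exact (N 4 (by push_cast; linear_combination e2) (by decide)).elim
  · exact ⟨x + y, by rw [a', b', ← c']; push_cast; ring⟩
  · exact ⟨x + z, by rw [a', c', ← b']; push_cast; ring⟩
  · exact (N 4 (by push_cast; linear_combination -e2) (by decide)).elim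
  · exact ⟨y + z, by rw [b', c', ← a']; push_cast; ring⟩
  · exact (N 4 (by push_cast; linear_combination -e2) (by decide)).elim
  · exact (N 4 (by push_cast; linear_combination -e2) (by decide)).elim
  · exact (N 8 (by push_cast; linear_combination -e2) (by decide)).elim
end

open H8 in
/-- a unitary matrix over the field with nine elements -/
def su9 (m : Matrix (Fin 3) (Fin 3) K9) (h : m 0 0 * m 1 1 * m 2 2 - m 0 0 * m 1 2 * m 2 1 - m 0 1 * m 1 0 * m 2 2 +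
    m 0 1 * m 1 2 * m 2 0 + m 0 2 * m 1 0 * m 2 1 - m 0 2 * m 1 1 * m 2 0 = 1 ∧ mᵀ * m.map (H11.frob card_K9) = 1) : SU 3 K9 3 :=
  ⟨⟨m, (det_fin_three m).trans h.1⟩, (H11.mem_SU_iff_matrix card_K9 _).2 h.2⟩

open H8 in
theorem ua_el : ∃ a b c s g t t' : SU 3 K9 3, b ^ 3 = 1 ∧ c ^ 3 = 1 ∧ c ≠ 1 ∧ b * c = c * b ∧ a * b = b * c * a ∧ a * c = c * a ∧
    t ^ 2 = 1 ∧ t' ^ 2 = 1 ∧ t ≠ 1 ∧ t * t' = t' * t ∧ g * t = t' * g ∧ g * t' = t * t' * g ∧ cj9 c * c = 1 ∧ c * s * c = s ∧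
    cj9 s * s = t :=
  ⟨su9 !![⟨2, 0⟩, ⟨2, 1⟩, ⟨0, 2⟩; ⟨0, 1⟩, ⟨2, 2⟩, ⟨2, 0⟩; ⟨2, 2⟩, ⟨0, 0⟩, ⟨2, 1⟩] (by decide +kernel),
    su9 !![0, 1, 0; 0, 0, 1; 1, 0, 0] (by decide +kernel),
    su9 !![⟨1, 1⟩, ⟨0, 1⟩, ⟨0, 1⟩; ⟨0, 1⟩, ⟨1, 1⟩, ⟨0, 1⟩; ⟨0, 1⟩, ⟨0, 1⟩, ⟨1, 1⟩] (by decide +kernel),
    su9 !![⟨0, 1⟩, ⟨0, 2⟩, ⟨1, 1⟩; ⟨0, 2⟩, ⟨0, 1⟩, ⟨1, 1⟩; ⟨2, 2⟩, ⟨2, 2⟩, ⟨0, 0⟩] (by decide +kernel),
    su9 !![⟨2, 2⟩, ⟨1, 0⟩, ⟨1, 0⟩; ⟨0, 0⟩, ⟨2, 1⟩, ⟨1, 2⟩; ⟨2, 2⟩, ⟨2, 0⟩, ⟨2, 0⟩] (by decide +kernel),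
    su9 !![0, -1, 0; -1, 0, 0; 0, 0, -1] (by decide +kernel),
    su9 !![⟨1, 0⟩, ⟨2, 0⟩, ⟨1, 1⟩; ⟨2, 0⟩, ⟨1, 0⟩, ⟨1, 1⟩; ⟨1, 2⟩, ⟨1, 2⟩, ⟨0, 0⟩] (by decide +kernel),
    by decide +kernel, by decide +kernel, by decide +kernel, by decide +kernel, by decide +kernel, by decide +kernel,
    by decide +kernel, by decide +kernel, by decide +kernel, by decide +kernel, by decide +kernel, by decide +kernel,
    by decide +kernel, by decide +kernel, by decide +kernel⟩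

open H8 in
theorem ua_rep {K : Type*} [Field K] [IsAlgClosed K] (h2 : (2 : K) ≠ 0) (h3 : (3 : K) ≠ 0) : ∃ w : SU 3 K9 3,
    ∀ ρ : SU 3 K9 3 →* G6 K, Function.Injective ρ → (∀ g, ρ g ∈ S6 K) → ∀ k ∈ S6 K, (k ^ 2 = 1 ∨ k ^ 2 = -1) →
    (∀ g, k * ρ g * k⁻¹ = ρ (cj9 g)) → ∃ m : ℤ, (T (k * ρ w) - m) ^ 2 = 3 := by
  obtain ⟨a, b, c, s, g, t, t', b3, c3, c1, bc, ab, ac, t2, t2', t1, tt, g1, g2, kc, sc, ks⟩ := ua_el
  refine ⟨s * c, fun ρ inj hS k hk k2 hρ => ?_⟩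
  have C : ∀ {x y z}, z * x = y * z → T (ρ y) = T (ρ x) := fun {x y z} e => by
    rw [← T_conj (ρ z) (ρ x), ← map_inv, ← map_mul, ← map_mul, e, mul_inv_cancel_right]
  have p : ∀ {x n}, x ^ n = 1 → ρ x ^ n = 1 := fun e => by rw [← map_pow, e, map_one]
  have m : ∀ {x y}, x * y = y * x → ρ x * ρ y = ρ y * ρ x := fun e => by rw [← map_mul, e, map_mul]
  rw [map_mul, ← mul_assoc]
  refine ua_core h2 h3 (t := ρ t) (hS _) (hS _) hk (p c3) (ua_rk h2 h3 (hS b) (hS _) (p b3) (p c3) ((map_ne_one_iff _ inj).2 c1)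
    (m bc) ?_ ?_) (p t2) (ua_v4 h2 h3 (hS _) (hS t') (p t2) (p t2') ((map_ne_one_iff _ inj).2 t1) (m tt) (C g1) ?_) k2 ?_ ?_ ?_
  · rw [← map_mul]; exact C ab
  · rw [← map_mul, ← map_mul, ← C ab]; exact C (z := a) (by rw [← mul_assoc, ab, mul_assoc, ac, ← mul_assoc])
  · rw [← map_mul, ← C g1]; exact C g2
  · rw [hρ, ← map_inv, eq_inv_of_mul_eq_one_left kc]
  · rw [← map_inv, ← map_inv, ← map_mul, ← map_mul, mul_inv_eq_iff_eq_mul.2 (eq_inv_mul_iff_mul_eq.2 ((mul_assoc ..).symm.trans sc))]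
  · rw [hρ, ← map_mul, ks]

open H8 H11 in
theorem u3a : U3a.{u} := fun F G _ _ _ H P π h h2 h3 ⟨E, _, _, hE, ⟨e⟩⟩ => by
  obtain ⟨τ⟩ := nonempty_ringEquiv_of_card (hE.trans card_K9.symm)
  let ε : G ≃* SU 3 K9 3 := (e.trans (psuCongr 3 3 τ)).trans (quotCenterEquivOfBot center_SU9)
  have inj := ns F G P π h.1.1 _ _ ⟨e⟩ (Agent.S2089.result 3 3 hE le_rfl (by omega) (by simp)) (by decide)
  have hA : Nat.card (MulAut G) ≤ 2 * Nat.card G := by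
    have := Fact.mk Nat.prime_three
    rw [Nat.card_congr (MulAut.congr e).toEquiv, Agent.S0815.result 3 1 le_rfl (pow_one 3).symm hE 3 le_rfl (by omega),
      Nat.card_congr e.toEquiv]
    norm_num
  refine ((ou F G H P π h hA).2.2).symm.imp_left fun h1 => ?_
  obtain ⟨k, hk, hα⟩ := h1 (ε.trans (cj9.trans ε.symm))
  let ψ : P ≃* SU 3 K9 3 := (MulEquiv.ofBijective π ⟨inj, h.sur⟩).trans ε
  let ρ : SU 3 K9 3 →* G6 F := P.subtype.comp ψ.symm.toMonoidHom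
  have hρ : ∀ g, k * ρ g * k⁻¹ = ρ (cj9 g) := fun g => by
    have := hα (ψ.symm g) ⟨_, h.nrm k hk _ (ψ.symm g).2⟩ rfl
    have : ψ ⟨_, h.nrm k hk _ (ψ.symm g).2⟩ = cj9 g := by
      change ε (π _) = _
      rw [this]
      change ε (ε.symm (cj9 (ψ (ψ.symm g)))) = _
      simp
    rw [← this]
    simp [ρ]
  have kS : k ∈ S6 F := h.max.1.le hk
  have k2 : k ^ 2 = 1 ∨ k ^ 2 = -1 := scal_pm ((S6 F).pow_mem kS 2) (h.cen _ (H.pow_mem hk 2) fun x hx => by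
    have e : x = ρ (ψ ⟨x, hx⟩) := by simp [ρ]
    rw [show k ^ 2 * x * (k ^ 2)⁻¹ = k * (k * x * k⁻¹) * k⁻¹ by simp only [pow_two]; group, e, hρ, hρ, ← MulAut.mul_apply, cj9_sq, MulAut.one_apply,
      mul_inv_cancel]
    exact Subgroup.one_mem _)
  let σ := algebraMap F (AlgebraicClosure F)
  let f : G6 F →* G6 (AlgebraicClosure F) := GeneralLinearGroup.map σ
  obtain ⟨w, hw⟩ := ua_rep (K := AlgebraicClosure F) (by rw [← map_ofNat σ 2]; exact (map_ne_zero σ).2 h2)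
    (by rw [← map_ofNat σ 3]; exact (map_ne_zero σ).2 h3)
  obtain ⟨m, hm⟩ := hw (f.comp ρ) ((gm_inj σ).comp (Subtype.val_injective.comp ψ.symm.injective))
    (fun g => (gm_mem σ).2 (h.sp (ψ.symm g).2)) (f k) ((gm_mem σ).2 kS)
    (k2.imp (fun e => by rw [← map_pow, e, map_one]) fun e => by rw [← map_pow, e, gm_neg, map_one])
    fun g => by simp only [MonoidHom.comp_apply, ← hρ, map_mul, map_inv]
  refine ⟨T (k * ρ w) - m, σ.injective ?_⟩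
  rw [MonoidHom.comp_apply, ← map_mul, gm_T] at hm
  rw [← sq, map_pow, map_sub, map_intCast, hm, map_ofNat]

theorem uo_sq {F : Type*} [Field F] [Fintype F] {p : ℕ} [Fact p.Prime] [CharP F p] (h : Fintype.card F = p) (n : ℕ) :
    IsSquare (n : F) ↔ IsSquare (n : ZMod p) := by
  have e := ZMod.ringEquivOfPrime F (Fact.out) h
  exact ⟨fun a => by simpa using a.map e.symm, fun a => by simpa using a.map e⟩

theorem uo_3 : ∀ a < 3, a ≠ 0 → (IsSquare ((a : ℕ) : ZMod 3) ↔ a = 1) := by decide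
theorem uo_5 : ∀ a < 5, ¬ IsSquare ((a : ℕ) : ZMod 5) → a = 2 ∨ a = 3 := by decide

theorem u3o (u3q : U3q.{u}) (u3b : U3b.{u}) : U3o.{u} := fun F G _ _ _ p hp _ H P π h p5 g => by
  have q := u3q F G p H P π h g
  have h2 : (2 : F) ≠ 0 := chr (p := p) Nat.prime_two (show p ≠ 2 by omega)
  have h3 : (3 : F) ≠ 0 := chr (p := p) Nat.prime_three (show p ≠ 3 by omega)
  have := Fact.mk Nat.prime_three
  have := Fact.mk Nat.prime_five
  have o : p % 2 = 1 := hp.out.eq_two_or_odd.resolve_left (by omega)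
  have n3 : p % 3 ≠ 0 := fun e => absurd ((Nat.prime_dvd_prime_iff_eq Nat.prime_three hp.out).1 (Nat.dvd_of_mod_eq_zero e)) (by omega)
  have s3 : IsSquare (p : ZMod 3) ↔ p % 3 = 1 := by
    rw [← ZMod.natCast_mod]
    exact uo_3 _ (Nat.mod_lt _ (by omega)) n3
  rcases u3a F G H P π h h2 h3 g with a | a
  · replace a := (uo_sq q 3).1 a
    rcases show p % 4 = 1 ∨ p % 4 = 3 by omega with e | e
    · have := s3.1 ((ZMod.exists_sq_eq_prime_iff_of_mod_four_eq_one e (by omega)).1 a)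
      omega
    · have := mt s3.2 ((ZMod.exists_sq_eq_prime_iff_of_mod_four_eq_three e rfl (by omega)).1 a)
      omega
  · have b := mt (uo_sq q 5).2 (u3b F G H P π h h2 h3 g a)
    have := mt (ZMod.exists_sq_eq_prime_iff_of_mod_four_eq_one (p := 5) (q := p) rfl (by omega)).1 b
    rw [← ZMod.natCast_mod] at this
    have := uo_5 _ (Nat.mod_lt _ (by omega)) this
    omega

end H9.S6
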